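import Mathlib
import Cfsg.Agent.ThreeTransp.M24QuadBound53

/-!
Type M(24): the sets of four commuting members with a given product partition the members commuting
with that product; conjugation on these sets, and the reflection attached to such a set.
-/

set_option autoImplicit false

namespace CfsgLib.Quad81

open Cfsg CfsgLib.ThreeTransp

universe u

variable {G : Type u} [Group G] {D : Set G}

/-- A group of type M(24). -/
structure Ctx (D : Set G) : Prop where
  hG : IsThreeTranspositionGroup D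
  hp : IsPrimitiveUnderConj D
  h24 : IsOfTypeM24 G D

/-- A product of four pairwise commuting members. -/
def IsQuad (D : Set G) (z : G) : Prop := ∃ a b c d, Clique4_53 D a b c d ∧ a * b * c * d = z

/-- The four members with product `z` one of which is `e`. -/
def blk (D : Set G) (z e : G) : Set G :=
  {x | ∃ f g k, Clique4_53 D e f g k ∧ e * f * g * k = z ∧ (x = e ∨ x = f ∨ x = g ∨ x = k)}

/-- The image of a set under conjugation. -/
def cj (g : G) (S : Set G) : Set G := (fun x => g * x * g⁻¹) '' S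

theorem cj_one (S : Set G) : cj 1 S = S := by simp [cj]

theorem cj_mul (g h : G) (S : Set G) : cj (g * h) S = cj g (cj h S) := by
  simp [cj, Set.image_image, mul_assoc]

theorem mem_cj {g x : G} {S : Set G} (hx : x ∈ S) : g * x * g⁻¹ ∈ cj g S := ⟨x, hx, rfl⟩

section swaps

variable {a b c d : G} (h : Clique4_53 D a b c d)
include h

theorem swap12 : Clique4_53 D b a c d ∧ b * a * c * d = a * b * c * d :=
  ⟨⟨h.hb.1, nbr_swap h.ha h.hb, ⟨h.hc.2, h.hc.1⟩, ⟨⟨h.hd.1.2, h.hd.1.1⟩, h.hd.2⟩⟩,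
    by rw [← h.hb.2.2.eq]⟩

theorem swap23 : Clique4_53 D a c b d ∧ a * c * b * d = a * b * c * d :=
  ⟨⟨h.ha, h.hc.1, ⟨h.hb, nbr_swap h.hb.1 h.hc.2⟩, ⟨⟨h.hd.1.1, h.hd.2⟩, h.hd.1.2⟩⟩,
    by rw [mul_assoc a c b, ← h.hc.2.2.2.eq, ← mul_assoc]⟩

theorem swap34 : Clique4_53 D a b d c ∧ a * b * d * c = a * b * c * d :=
  ⟨⟨h.ha, h.hb, h.hd.1, ⟨h.hc, nbr_swap h.hc.1.1 h.hd.2⟩⟩,
    by rw [mul_assoc (a * b), ← h.hd.2.2.2.eq, ← mul_assoc]⟩

end swaps

variable {z : G}

theorem Clique4_53_mem_comm (hD : IsThreeTranspositionSet D) {a b c d : G}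
    (h : Clique4_53 D a b c d) (hz : a * b * c * d = z) : a ∈ commMembers53 D z :=
  ⟨h.ha, hz ▸ h.comm_prod hD ⟨Commute.refl a, h.hb.2.2, h.hc.1.2.2, h.hd.1.1.2.2⟩⟩

/-- The blocks. -/
abbrev Om (D : Set G) (z : G) : Type u := {B : Set G // ∃ e ∈ commMembers53 D z, blk D z e = B}

/-- The block of a member. -/
def qd {e : G} (he : e ∈ commMembers53 D z) : Om D z := ⟨blk D z e, e, he, rfl⟩

/-- Two different blocks commuting elementwise. -/
def Adj (B B' : Om D z) : Prop := B ≠ B' ∧ ∀ x ∈ B.1, ∀ y ∈ B'.1, Commute x y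

theorem Adj.symm {B B' : Om D z} (h : Adj B B') : Adj B' B :=
  ⟨h.1.symm, fun x hx y hy => (h.2 y hy x hx).symm⟩


section ctx

variable [Finite G] (hc : Ctx D) (hz : IsQuad D z)
include hc hz

theorem exists_quad {e : G} (he : e ∈ commMembers53 D z) :
    ∃ f g k, Clique4_53 D e f g k ∧ e * f * g * k = z := by
  obtain ⟨a, b, c, d, h, rfl⟩ := hz
  exact m24_clique_at53 hc.hG hc.hp hc.h24 h he

omit hz in
theorem blk_eq {e f g k : G} (h : Clique4_53 D e f g k) (hp' : e * f * g * k = z) :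
    blk D z e = ({e, f, g, k} : Set G) := by
  classical
  refine Set.Subset.antisymm ?_ fun x hx => ⟨f, g, k, h, hp', by simpa using hx⟩
  rintro x ⟨f', g', k', h', hp2, hx⟩
  simp only [Set.mem_insert_iff, Set.mem_singleton_iff]
  rcases hx with rfl | hx
  · exact Or.inl rfl
  right
  have hprod : ([f', g', k'] : List G).prod = [f, g, k].prod := by
    have := hp2.trans hp'.symm
    simp only [mul_assoc, List.prod_cons, List.prod_nil, mul_one] at this ⊢
    exact mul_left_cancel this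
  have hu := factor_unique hc.hG.1 (m24_noTwins58 hc.hG hc.hp hc.h24)
    (m24_noRel_le58 hc.hG hc.hp hc.h24 (n := 6) (by norm_num) (by norm_num)) 3 le_rfl
    [f', g', k'] [f, g, k] (List.nodup_cons.1 h'.isFact.1).2 rfl
    (fun w hw => h'.isFact.2.2.1 w (List.mem_cons_of_mem _ hw))
    (fun w hw w' hw' => h'.isFact.2.2.2.1 w (List.mem_cons_of_mem _ hw) w' (List.mem_cons_of_mem _ hw'))
    (List.nodup_cons.1 h.isFact.1).2 rfl
    (fun w hw => h.isFact.2.2.1 w (List.mem_cons_of_mem _ hw))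
    (fun w hw w' hw' => h.isFact.2.2.2.1 w (List.mem_cons_of_mem _ hw) w' (List.mem_cons_of_mem _ hw'))
    hprod x
  simpa using hu.1 (by simpa using hx)

theorem blk_self {e : G} (he : e ∈ commMembers53 D z) : e ∈ blk D z e := by
  obtain ⟨f, g, k, h, hp'⟩ := exists_quad hc hz he
  exact ⟨f, g, k, h, hp', Or.inl rfl⟩

omit hz in
theorem blk_first {e x : G} (hx : x ∈ blk D z e) :
    ∃ f g k, Clique4_53 D x f g k ∧ x * f * g * k = z ∧ blk D z x = blk D z e := by
  obtain ⟨f, g, k, h, hp', hx⟩ := hx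
  have he := blk_eq hc h hp'
  obtain ⟨h2, e2⟩ := swap12 h
  obtain ⟨h23, e23⟩ := swap23 h
  obtain ⟨h3, e3⟩ := swap12 h23
  obtain ⟨h34, e34⟩ := swap34 h
  obtain ⟨h34', e34'⟩ := swap23 h34
  obtain ⟨h4, e4⟩ := swap12 h34'
  rcases hx with rfl | rfl | rfl | rfl
  · exact ⟨f, g, k, h, hp', rfl⟩
  · have p : x * e * g * k = z := e2.trans hp'
    exact ⟨e, g, k, h2, p, by rw [blk_eq hc h2 p, he, Set.insert_comm]⟩
  · have p : x * e * f * k = z := (e3.trans e23).trans hp'
    exact ⟨e, f, k, h3, p, by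
      rw [blk_eq hc h3 p, he]; ext w; simp only [Set.mem_insert_iff, Set.mem_singleton_iff]; tauto⟩
  · have p : x * e * f * g = z := ((e4.trans e34').trans e34).trans hp'
    exact ⟨e, f, g, h4, p, by
      rw [blk_eq hc h4 p, he]; ext w; simp only [Set.mem_insert_iff, Set.mem_singleton_iff]; tauto⟩

omit hz in
theorem blk_mem {e x : G} (hx : x ∈ blk D z e) : x ∈ commMembers53 D z := by
  obtain ⟨f, g, k, h, hp', -⟩ := blk_first hc hx
  exact Clique4_53_mem_comm hc.hG.1 h hp'

omit hz in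
theorem blk_congr {e x : G} (hx : x ∈ blk D z e) : blk D z x = blk D z e :=
  (blk_first hc hx).choose_spec.choose_spec.choose_spec.2.2

omit hz in
theorem blk_commute {e x y : G} (hx : x ∈ blk D z e) (hy : y ∈ blk D z e) : Commute x y := by
  obtain ⟨f, g, k, h, hp', he⟩ := blk_first hc hx
  rw [← he, blk_eq hc h hp'] at hy
  rcases hy with rfl | rfl | rfl | rfl
  exacts [Commute.refl _, h.hb.2.2, h.hc.1.2.2, h.hd.1.1.2.2]

omit hz in
theorem blk_card {e f g k : G} (h : Clique4_53 D e f g k) (hp' : e * f * g * k = z) :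
    (blk D z e).ncard = 4 := by
  rw [blk_eq hc h hp', Set.ncard_insert_of_notMem (by
      simp [h.hb.2.1.symm, h.hc.1.2.1.symm, h.hd.1.1.2.1.symm]) (Set.toFinite _),
    Set.ncard_insert_of_notMem (by simp [h.hc.2.2.1.symm, h.hd.1.2.2.1.symm]) (Set.toFinite _),
    Set.ncard_pair h.hd.2.2.1.symm]

/-- A member commuting with one of four commutes with all of them. -/
theorem blk_commute_all {e x y : G} (he : e ∈ commMembers53 D z) (hx : x ∈ commMembers53 D z)
    (hex : Commute x e) (hy : y ∈ blk D z e) : Commute x y := by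
  by_cases hxe : x ∈ blk D z e
  · exact blk_commute hc hxe hy
  obtain ⟨f, g, k, h, hp'⟩ := exists_quad hc hz he
  rw [blk_eq hc h hp'] at hxe hy
  have hne : x ≠ e := fun hh => hxe (Or.inl hh)
  have hm : x ∈ commMembers53 D (e * f * g * k) ∩ nbr D e :=
    ⟨by rw [hp']; exact hx, hx.1, hne, hex.symm⟩
  rw [m24_members_nbr53 hc.hG hc.hp hc.h24 h] at hm
  rcases hm with hm | ⟨⟨⟨h1, h2⟩, h3⟩, h4⟩
  · exact absurd (Or.inr hm) hxe
  · rcases hy with rfl | rfl | rfl | rfl
    exacts [h1.2.2.symm, h2.2.2.symm, h3.2.2.symm, h4.2.2.symm]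

omit hz in
theorem eq_qd (B : Om D z) {x : G} (hx : x ∈ B.1) :
    ∃ hxT : x ∈ commMembers53 D z, B = qd hxT := by
  obtain ⟨e, he, hB⟩ := B.2
  rw [← hB] at hx
  exact ⟨blk_mem hc hx, Subtype.ext (hB.symm.trans (blk_congr hc hx).symm)⟩

theorem nonempty_blk (B : Om D z) : ∃ x, x ∈ B.1 := by
  obtain ⟨e, he, hB⟩ := B.2
  exact ⟨e, hB ▸ blk_self hc hz he⟩

omit hz in
theorem qd_congr {e x : G} (he : e ∈ commMembers53 D z) (hx : x ∈ blk D z e) :
    qd (blk_mem hc hx) = qd he := Subtype.ext (blk_congr hc hx)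

/-- Adjacency is decided by one member of each block. -/
theorem adj_iff {B B' : Om D z} (hne : B ≠ B') {x y : G} (hx : x ∈ B.1) (hy : y ∈ B'.1) :
    Adj B B' ↔ Commute x y := by
  refine ⟨fun h => h.2 x hx y hy, fun h => ⟨hne, fun x' hx' y' hy' => ?_⟩⟩
  obtain ⟨hxT, rfl⟩ := eq_qd hc B hx
  obtain ⟨hyT, rfl⟩ := eq_qd hc B' hy
  have h1 : Commute x y' := blk_commute_all hc hz hyT hxT h hy'
  exact (blk_commute_all hc hz hxT (blk_mem hc hy') h1.symm hx').symm

theorem adj_qd {x y : G} (hx : x ∈ commMembers53 D z) (hy : y ∈ commMembers53 D z)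
    (hne : qd hx ≠ qd hy) : Adj (qd hx) (qd hy) ↔ Commute x y :=
  adj_iff hc hz hne (blk_self hc hz hx) (blk_self hc hz hy)

omit hz [Finite G] in
theorem conj_member {g e : G} (hg : g ∈ Subgroup.centralizer ({z} : Set G))
    (he : e ∈ commMembers53 D z) : g * e * g⁻¹ ∈ commMembers53 D z := by
  refine ⟨hc.hG.2.1 g e he.1, ?_⟩
  have h1 := (commute_conj_iff' (g := g)).2 he.2
  rwa [(Subgroup.mem_centralizer_singleton_iff.1 hg : g * z = z * g), mul_inv_cancel_right] at h1

theorem blk_conj {g e : G} (hg : g ∈ Subgroup.centralizer ({z} : Set G))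
    (he : e ∈ commMembers53 D z) : cj g (blk D z e) = blk D z (g * e * g⁻¹) := by
  obtain ⟨f, u, k, h, hp'⟩ := exists_quad hc hz he
  have hp2 : (g * e * g⁻¹) * (g * f * g⁻¹) * (g * u * g⁻¹) * (g * k * g⁻¹) = z := by
    rw [← conj_prod4_53, hp', (Subgroup.mem_centralizer_singleton_iff.1 hg : g * z = z * g),
      mul_inv_cancel_right]
  rw [blk_eq hc h hp', blk_eq hc (h.conj hc.hG g) hp2]
  simp [cj, Set.image_insert_eq]

/-- Conjugation on the blocks. -/
noncomputable def act : ↥(Subgroup.centralizer ({z} : Set G)) →* Equiv.Perm (Om D z) :=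
  have hmem : ∀ (g : ↥(Subgroup.centralizer ({z} : Set G))) (B : Om D z),
      ∃ e ∈ commMembers53 D z, blk D z e = cj (g : G) B.1 := fun g B => by
    obtain ⟨e, he, hB⟩ := B.2
    exact ⟨_, conj_member hc g.2 he, by rw [← hB, blk_conj hc hz g.2 he]⟩
  MonoidHom.mk'
    (fun g => ⟨fun B => ⟨cj (g : G) B.1, hmem g B⟩, fun B => ⟨cj ((g : G))⁻¹ B.1, hmem g⁻¹ B⟩,
      fun B => Subtype.ext (by show cj _ (cj _ _) = _; rw [← cj_mul, inv_mul_cancel, cj_one]),
      fun B => Subtype.ext (by show cj _ (cj _ _) = _; rw [← cj_mul, mul_inv_cancel, cj_one])⟩)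
    fun g h => Equiv.ext fun B => Subtype.ext (cj_mul _ _ _)

theorem act_val (g : ↥(Subgroup.centralizer ({z} : Set G))) (B : Om D z) :
    (act hc hz g B).1 = cj (g : G) B.1 := rfl

theorem act_mem {g : ↥(Subgroup.centralizer ({z} : Set G))} {B : Om D z} {x : G} (hx : x ∈ B.1) :
    (g : G) * x * (g : G)⁻¹ ∈ (act hc hz g B).1 := mem_cj hx

theorem act_adj (g : ↥(Subgroup.centralizer ({z} : Set G))) {B B' : Om D z} :
    Adj (act hc hz g B) (act hc hz g B') ↔ Adj B B' := by
  refine and_congr (act hc hz g).injective.ne_iff ⟨fun h x hx y hy => ?_, ?_⟩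
  · exact commute_conj_iff'.1 (h _ (mem_cj hx) _ (mem_cj hy))
  · rintro h _ ⟨x, hx, rfl⟩ _ ⟨y, hy, rfl⟩
    exact commute_conj_iff'.2 (h x hx y hy)

/-- The element of a member. -/
def mel (_hc : Ctx D) {e : G} (he : e ∈ commMembers53 D z) : ↥(Subgroup.centralizer ({z} : Set G)) :=
  ⟨e, Subgroup.mem_centralizer_singleton_iff.2 he.2.symm.eq⟩

/-- The permutation given by a member. -/
noncomputable def rf {e : G} (he : e ∈ commMembers53 D z) : Equiv.Perm (Om D z) :=
  act hc hz (mel hc he)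

theorem rf_mem {e : G} (he : e ∈ commMembers53 D z) {B : Om D z} {x : G} (hx : x ∈ B.1) :
    e * x * e ∈ (rf hc hz he B).1 := by
  have := act_mem hc hz (g := mel hc he) hx
  rwa [show ((mel hc he : ↥(Subgroup.centralizer ({z} : Set G))) : G) = e from rfl,
    tt_inv hc.hG.1 he.1] at this

theorem rf_qd {e x : G} (he : e ∈ commMembers53 D z) (hx : x ∈ commMembers53 D z) :
    rf hc hz he (qd hx) = qd (conj_member hc (mel hc he).2 hx) :=
  Subtype.ext ((act_val hc hz _ _).trans (blk_conj hc hz (mel hc he).2 hx))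

theorem rf_fix {e : G} (he : e ∈ commMembers53 D z) {B : Om D z}
    (h : B = qd he ∨ Adj (qd he) B) : rf hc hz he B = B := by
  obtain ⟨x, hx⟩ := nonempty_blk hc hz B
  obtain ⟨hxT, rfl⟩ := eq_qd hc B hx
  have hc' : Commute e x := by
    rcases h with h | h
    · have hb : blk D z x = blk D z e := congrArg Subtype.val h
      exact blk_commute hc (blk_self hc hz he) (hb ▸ blk_self hc hz hxT)
    · exact h.2 e (blk_self hc hz he) x hx
  rw [rf_qd]
  refine Subtype.ext ?_
  show blk D z (e * x * e⁻¹) = blk D z x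
  rw [hc'.eq, mul_inv_cancel_right]

/-- Of two reflections the one moves the block of the other as the other moves its own. -/
theorem rf_comm {e x : G} (he : e ∈ commMembers53 D z) (hx : x ∈ commMembers53 D z)
    (hne : ¬ Commute e x) : rf hc hz he (qd hx) = rf hc hz hx (qd he) := by
  rw [rf_qd, rf_qd]
  refine Subtype.ext ?_
  show blk D z (e * x * e⁻¹) = blk D z (x * e * x⁻¹)
  rw [tt_inv hc.hG.1 he.1, tt_inv hc.hG.1 hx.1, tt_braid hc.hG.1 he.1 hx.1 hne]

/-- The members of a block give one permutation. -/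
theorem rf_congr {e e' : G} (he : e ∈ commMembers53 D z) (he' : e' ∈ commMembers53 D z)
    (h : qd he = qd he') : rf hc hz he = rf hc hz he' := by
  refine Equiv.ext fun B => ?_
  obtain ⟨x, hx⟩ := nonempty_blk hc hz B
  obtain ⟨hxT, rfl⟩ := eq_qd hc B hx
  by_cases hcx : Commute e x
  · have hA : qd hxT = qd he ∨ Adj (qd he) (qd hxT) :=
      or_iff_not_imp_left.2 fun hne => (adj_qd hc hz he hxT (Ne.symm hne)).2 hcx
    rw [rf_fix hc hz he hA, rf_fix hc hz he' (h ▸ hA)]
  · have hcx' : ¬ Commute e' x := fun h' => hcx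
      ((blk_commute_all hc hz he' hxT h'.symm
        (by
          have hb : blk D z e' = blk D z e := (congrArg Subtype.val h).symm
          rw [hb]
          exact blk_self hc hz he)).symm)
    rw [rf_comm hc hz he hxT hcx, rf_comm hc hz he' hxT hcx', h]

theorem rf_move {e : G} (he : e ∈ commMembers53 D z) {B : Om D z} (hne : B ≠ qd he)
    (h : ¬ Adj (qd he) B) :
    rf hc hz he B ≠ B ∧ rf hc hz he B ≠ qd he ∧ ¬ Adj (qd he) (rf hc hz he B) := by
  have hfix : rf hc hz he (qd he) = qd he := rf_fix hc hz he (Or.inl rfl)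
  have h2 : rf hc hz he B ≠ qd he := fun e' => hne ((rf hc hz he).injective (e'.trans hfix.symm))
  have h3 : ¬ Adj (qd he) (rf hc hz he B) := by
    intro hh
    rw [← hfix] at hh
    exact h ((act_adj hc hz (mel hc he)).1 hh)
  refine ⟨fun e' => h ?_, h2, h3⟩
  obtain ⟨x, hx⟩ := nonempty_blk hc hz B
  obtain ⟨hxT, rfl⟩ := eq_qd hc B hx
  by_contra hna
  have hcx : ¬ Commute e x := fun h' => hna ((adj_qd hc hz he hxT (Ne.symm hne)).2 h')
  have hm := rf_mem hc hz he hx
  rw [e'] at hm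
  -- `x` commutes with its conjugate, so with `e`
  have hxx : Commute (e * x * e) x := blk_commute hc hm (blk_self hc hz hxT)
  apply hcx
  have b := tt_braid hc.hG.1 he.1 hxT.1 hcx
  have h1 : (e * x * e) * x = x * (e * x * e) := hxx
  have l1 : (e * x * e) * x = x * e := by
    rw [b, mul_assoc _ x x, tt_mul_self hc.hG.1 hxT.1, mul_one]
  have l2 : x * (e * x * e) = e * x := by
    rw [b, ← mul_assoc, ← mul_assoc, tt_mul_self hc.hG.1 hxT.1, one_mul]
  exact (l2.symm.trans (h1.symm.trans l1))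

/-- Transitivity on ordered quads of given product. -/
theorem trans_quad {e f g k e' f' g' k' : G} (h : Clique4_53 D e f g k) (hp' : e * f * g * k = z)
    (h' : Clique4_53 D e' f' g' k') (hp2 : e' * f' * g' * k' = z) :
    ∃ w : ↥(Subgroup.centralizer ({z} : Set G)), (w : G) * e * (w : G)⁻¹ = e' ∧
      (w : G) * f * (w : G)⁻¹ = f' ∧ (w : G) * g * (w : G)⁻¹ = g' ∧
      (w : G) * k * (w : G)⁻¹ = k' := by
  obtain ⟨w, e1, e2, e3, e4, e5⟩ := m24_clique_conj53 hc.hG hc.hp hc.h24 h h'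
  rw [hp', hp2] at e5
  exact ⟨⟨w, Subgroup.mem_centralizer_singleton_iff.2 (mul_inv_eq_iff_eq_mul.1 e5)⟩, e1, e2, e3, e4⟩

theorem trans_Om (B B' : Om D z) : ∃ w, act hc hz w B = B' := by
  obtain ⟨x, hx⟩ := nonempty_blk hc hz B
  obtain ⟨y, hy⟩ := nonempty_blk hc hz B'
  obtain ⟨hxT, rfl⟩ := eq_qd hc B hx
  obtain ⟨hyT, rfl⟩ := eq_qd hc B' hy
  obtain ⟨f, g, k, h, hp'⟩ := exists_quad hc hz hxT
  obtain ⟨f', g', k', h', hp2⟩ := exists_quad hc hz hyT
  obtain ⟨w, e1, -, -, -⟩ := trans_quad hc hz h hp' h' hp2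
  refine ⟨w, Subtype.ext ?_⟩
  rw [act_val]
  show cj (w : G) (blk D z x) = blk D z y
  rw [blk_conj hc hz w.2 hxT, e1]

theorem card_members : (commMembers53 D z).ncard = 4 * Nat.card (Om D z) := by
  classical
  haveI := Fintype.ofFinite (Om D z)
  have hU : commMembers53 D z = ⋃ B : Om D z, B.1 := by
    ext x
    simp only [Set.mem_iUnion]
    exact ⟨fun hx => ⟨qd hx, blk_self hc hz hx⟩, fun ⟨B, hx⟩ => (eq_qd hc B hx).1⟩
  rw [hU, Set.ncard_iUnion_of_finite (s := fun B : Om D z => B.1) (fun B => Set.toFinite _),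
    finsum_eq_sum_of_fintype]
  · rw [Finset.sum_congr rfl (g := fun _ => 4) fun B _ => ?_, Finset.sum_const, Finset.card_univ,
      smul_eq_mul, mul_comm, Nat.card_eq_fintype_card]
    obtain ⟨x, hx⟩ := nonempty_blk hc hz B
    obtain ⟨hxT, rfl⟩ := eq_qd hc B hx
    obtain ⟨f, g, k, h, hp'⟩ := exists_quad hc hz hxT
    exact blk_card hc h hp'
  · intro B B' hne
    rw [Function.onFun, Set.disjoint_left]
    intro x hx hx'
    obtain ⟨_, e1⟩ := eq_qd hc B hx
    obtain ⟨_, e2⟩ := eq_qd hc B' hx'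
    exact hne (e1.trans e2.symm)

end ctx

end CfsgLib.Quad81
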