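import Mathlib
import Cfsg.Agent.ThreeTransp.Quad81.Blocks
import Cfsg.Agent.ThreeTransp.BarMap
import Cfsg.Agent.ThreeTransp.M22PairMain25
import Cfsg.Agent.ThreeTransp.M24Pair25
import Cfsg.Agent.ThreeTransp.Three81.Quad

/-!
Type M(24): the members commuting with four given commuting members in the coordinates of the unitary
space of dimension four, by the map onto a group of type M(22).
-/

set_option autoImplicit false

namespace CfsgLib.Quad81

open Cfsg CfsgLib.ThreeTransp CfsgLib.ThreeTransp.U62Point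

universe u

variable {G : Type u} [Group G] {D : Set G}

/-- A map of the centralizer of two members onto a group of type M(22). -/
structure Bar (D : Set G) (a b : G) {Q : Type u} [Group Q] (Δ : Set Q) where
  f : ↥(Subgroup.centralizer ({a, b} : Set G)) →* Q
  mem : ∀ y : ↥(Subgroup.centralizer ({a, b} : Set G)), (y : G) ∈ nbr D a ∩ nbr D b → f y ∈ Δ
  onto : ∀ p ∈ Δ, ∃ y : ↥(Subgroup.centralizer ({a, b} : Set G)),
    (y : G) ∈ nbr D a ∩ nbr D b ∧ f y = p
  inj : ∀ x y : ↥(Subgroup.centralizer ({a, b} : Set G)), (x : G) ∈ nbr D a ∩ nbr D b →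
    (y : G) ∈ nbr D a ∩ nbr D b → f x = f y → x = y
  comm : ∀ x y : ↥(Subgroup.centralizer ({a, b} : Set G)), (x : G) ∈ nbr D a ∩ nbr D b →
    (y : G) ∈ nbr D a ∩ nbr D b → Commute (f x) (f y) → Commute (x : G) (y : G)
  ker : ∀ k, f k = 1 → (k : G) ∈ Subgroup.closure ({a, b} : Set G)
  surj : Function.Surjective f
  base : ∀ k : ↥(Subgroup.centralizer ({a, b} : Set G)), (k : G) = a ∨ (k : G) = b → f k = 1

theorem exists_bar [Finite G] (hc : Ctx D) (φ : G →* Multiplicative (ZMod 2))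
    (hφ : ∀ d ∈ D, φ d ≠ 1) {a b : G} (ha : a ∈ D) (hb : b ∈ nbr D a) :
    ∃ (Q : Type u) (_ : Group Q) (_ : Finite Q) (Δ : Set Q), IsThreeTranspositionGroup Δ ∧
      IsPrimitiveUnderConj Δ ∧ IsOfTypeM22 Q Δ ∧ Nonempty (Bar D a b Δ) := by
  classical
  obtain ⟨hG, hp, h24⟩ := hc
  obtain ⟨hnc, hT, -, h23⟩ := m24_bar hG hp h24 ha
  have hp23 := m24_bar_prim hG hp h24 ha
  obtain ⟨hnc2, hT2, h22⟩ := m23_bar hT hp23 h23 (barPt_mem hb)
  have B2 := barMap_nbr hT hnc2 (fun z hz => (m23_step hT hp23 h23).center_mem (barPt_mem hb) hz)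
  have e1 : nbr (nbrBar D a) (barPt hb) = barOf D a (nbr D a ∩ nbr D b) :=
    (nbr_barPt_eq hG hnc hb).trans (barOf_of_nbr hG hnc).symm
  have B2' : BarMap (barOf D a (nbr D a ∩ nbr D b)) (barOf D a ({b} : Set G))
      (nbrBar (nbrBar D a) (barPt hb)) := by
    rw [barOf_singleton hb, ← e1]
    exact B2
  obtain ⟨f0, h1, h2, h3, h4, h5⟩ := BarMap.lift hG hnc
    (fun z hz => (m24_step hG hp h24).center_mem ha hz) Set.inter_subset_left B2'
  have hK := m24_centralizer_pair hG hp h24 ha hb φ hφ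
  obtain ⟨f, hf⟩ : ∃ f : ↥(Subgroup.centralizer ({a, b} : Set G)) →* _,
      f = f0.comp (MulEquiv.subgroupCongr hK).toMonoidHom := ⟨_, rfl⟩
  have hfv : ∀ (k : ↥(Subgroup.centralizer ({a, b} : Set G)))
      (k' : ↥(Subgroup.closure (nbr D a ∩ nbr D b))), (k : G) = k' → f k = f0 k' := by
    intro k k' e
    rw [hf, MonoidHom.comp_apply]
    exact congrArg f0 (Subtype.ext e)
  have hmemK : ∀ y, y ∈ nbr D a ∩ nbr D b → y ∈ Subgroup.centralizer ({a, b} : Set G) :=
    fun y hy => hK ▸ Subgroup.subset_closure hy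
  have hsurj : Function.Surjective f := by
    rw [← MonoidHom.range_eq_top, eq_top_iff, ← hT2.2.2, Subgroup.closure_le]
    intro p hp'
    obtain ⟨y, hy, rfl⟩ := h2 p hp'
    exact ⟨⟨y, hmemK _ hy⟩, hfv _ y rfl⟩
  refine ⟨_, inferInstance, inferInstance, _, hT2, m22_primitive hT2 h22, h22, ⟨
    { f := f
      mem := fun y hy => ?_
      onto := fun p hp' => ?_
      inj := fun x y hx hy h => ?_
      comm := fun x y hx hy h => ?_
      ker := fun k hk => ?_
      surj := hsurj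
      base := fun k hk => ?_ }⟩⟩
  · rw [hfv y ⟨y, Subgroup.subset_closure hy⟩ rfl]
    exact h1 _ hy
  · obtain ⟨y, hy, rfl⟩ := h2 p hp'
    exact ⟨⟨y, hmemK _ hy⟩, hy, hfv _ y rfl⟩
  · rw [hfv x ⟨x, Subgroup.subset_closure hx⟩ rfl, hfv y ⟨y, Subgroup.subset_closure hy⟩ rfl] at h
    have e := congrArg Subtype.val (h3 _ _ hx hy h)
    exact Subtype.ext e
  · rw [hfv x ⟨x, Subgroup.subset_closure hx⟩ rfl, hfv y ⟨y, Subgroup.subset_closure hy⟩ rfl] at h
    exact h4 _ _ hx hy h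
  · rw [hfv k ⟨k, hK ▸ k.2⟩ rfl] at hk
    exact h5 _ hk
  · have hcomm : ∀ m : ↥(Subgroup.centralizer ({a, b} : Set G)), Commute k m := fun m =>
      Subtype.ext (show (k : G) * m = m * k from
        Subgroup.mem_centralizer_iff.1 m.2 (k : G) (by simpa using hk))
    have hz : f k ∈ Subgroup.center _ := by
      rw [Subgroup.mem_center_iff]
      intro q
      obtain ⟨m, rfl⟩ := hsurj q
      rw [← map_mul, ← map_mul, (hcomm m).eq]
    rwa [h22.1, Subgroup.mem_bot] at hz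

/-- The members commuting with four. -/
def nbS (D : Set G) (a b c d : G) : Set G := nbr D a ∩ nbr D b ∩ nbr D c ∩ nbr D d

/-- The elements fixing four. -/
def fix4 (z a b c d : G) : Subgroup ↥(Subgroup.centralizer ({z} : Set G)) :=
  (Subgroup.centralizer ({a} : Set G) ⊓ Subgroup.centralizer {b} ⊓ Subgroup.centralizer {c} ⊓
    Subgroup.centralizer {d}).subgroupOf _

theorem mem_fix4 {z a b c d : G} {g : ↥(Subgroup.centralizer ({z} : Set G))} :
    g ∈ fix4 z a b c d ↔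
      Commute (g : G) a ∧ Commute (g : G) b ∧ Commute (g : G) c ∧ Commute (g : G) d := by
  simp only [fix4, Subgroup.mem_subgroupOf, Subgroup.mem_inf, Subgroup.mem_centralizer_singleton_iff]
  exact ⟨fun ⟨⟨⟨h1, h2⟩, h3⟩, h4⟩ => ⟨h1, h2, h3, h4⟩, fun ⟨h1, h2, h3, h4⟩ => ⟨⟨⟨h1, h2⟩, h3⟩, h4⟩⟩

/-- The products of two members of one block. -/
def pairSub (D : Set G) (z : G) : Subgroup G :=
  Subgroup.closure {w | ∃ e ∈ commMembers53 D z, ∃ x ∈ blk D z e, ∃ y ∈ blk D z e, w = x * y}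

/-- The members commuting with four commuting members in coordinates. -/
structure Coords (D : Set G) (z a b c d : G) : Type (max u 1) where
  F : Type
  [field : Field F]
  [fintype : Fintype F]
  hF : Fintype.card F = 4
  u : G → Fin 4 → F
  iso : ∀ e ∈ nbS D a b c d, hermForm 4 F 2 (u e) (u e) = 0 ∧ u e ≠ 0
  onto : ∀ v : Fin 4 → F, hermForm 4 F 2 v v = 0 → v ≠ 0 →
    ∃ e ∈ nbS D a b c d, ∃ k : F, k ≠ 0 ∧ u e = k • v
  comm : ∀ e ∈ nbS D a b c d, ∀ e' ∈ nbS D a b c d,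
    Commute e e' ↔ hermForm 4 F 2 (u e) (u e') = 0
  blk_iff : ∀ e ∈ nbS D a b c d, ∀ e' ∈ nbS D a b c d,
    blk D z e = blk D z e' ↔ ∃ k : F, k ≠ 0 ∧ u e' = k • u e
  Φ : ↥(fix4 z a b c d) →* ↥(SU 4 F 2)
  el : ∀ k : ↥(fix4 z a b c d), ((k : ↥(Subgroup.centralizer ({z} : Set G))) : G) ∈ nbS D a b c d →
    Φ k = tv4 hF (u ((k : ↥(Subgroup.centralizer ({z} : Set G))) : G))
  base : ∀ k : ↥(fix4 z a b c d), ((k : ↥(Subgroup.centralizer ({z} : Set G))) : G) = a → Φ k = 1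
  conj : ∀ (k : ↥(fix4 z a b c d)), ∀ e ∈ nbS D a b c d, ∃ s : F, s ≠ 0 ∧
    u (((k : ↥(Subgroup.centralizer ({z} : Set G))) : G) * e *
      (((k : ↥(Subgroup.centralizer ({z} : Set G))) : G))⁻¹) = s • CfsgLib.Unitary.sv (Φ k) (u e)
  ker : ∀ k : ↥(fix4 z a b c d), Φ k = 1 →
    ((k : ↥(Subgroup.centralizer ({z} : Set G))) : G) ∈ pairSub D z ∨
      ((k : ↥(Subgroup.centralizer ({z} : Set G))) : G) * a ∈ pairSub D z
  central : ∀ k : ↥(fix4 z a b c d),
    (∀ x ∈ nbS D a b c d, Commute ((k : ↥(Subgroup.centralizer ({z} : Set G))) : G) x) →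
    ((k : ↥(Subgroup.centralizer ({z} : Set G))) : G) ∈ Subgroup.closure ({a, b, c, d} : Set G)
  swap : ∃ g : G, g * a * g⁻¹ = a ∧ g * b * g⁻¹ = b ∧ g * c * g⁻¹ = d ∧ g * d * g⁻¹ = c ∧
    ∀ A : ↥(SU 4 F 2), ¬ ∀ e ∈ nbS D a b c d,
      tv4 hF (u (g * e * g⁻¹)) = A * tv4 hF (u e) * A⁻¹

attribute [instance] Coords.field Coords.fintype

section m24

variable [Finite G] (hc : Ctx D)
include hc

theorem nbS_mem_T {z a b c d e : G} (h : Clique4_53 D a b c d) (hz : a * b * c * d = z)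
    (he : e ∈ nbS D a b c d) : e ∈ commMembers53 D z :=
  ⟨he.2.1, hz ▸ h.comm_prod hc.hG.1
    ⟨he.1.1.1.2.2.symm, he.1.1.2.2.2.symm, he.1.2.2.2.symm, he.2.2.2.symm⟩⟩

theorem nbS_not_base {z a b c d e : G} (h : Clique4_53 D a b c d) (hz : a * b * c * d = z)
    (he : e ∈ nbS D a b c d) : e ∉ blk D z a := by
  rw [blk_eq hc h hz]
  rintro (rfl | rfl | rfl | rfl)
  exacts [he.1.1.1.2.1 rfl, he.1.1.2.2.1 rfl, he.1.2.2.1 rfl, he.2.2.1 rfl]

theorem nbS_blk {z a b c d e x : G} (h : Clique4_53 D a b c d) (hz : a * b * c * d = z)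
    (he : e ∈ nbS D a b c d) (hx : x ∈ blk D z e) : x ∈ nbS D a b c d := by
  have hzq : IsQuad D z := ⟨a, b, c, d, h, hz⟩
  have hxT := blk_mem hc hx
  have haT := Clique4_53_mem_comm hc.hG.1 h hz
  have hne : x ∉ blk D z a := fun hh => nbS_not_base hc h hz he (by
    rw [← blk_congr hc hh, blk_congr hc hx]
    exact blk_self hc hzq (nbS_mem_T hc h hz he))
  have hca : Commute x a := (blk_commute_all hc hzq (nbS_mem_T hc h hz he) haT he.1.1.1.2.2 hx).symm
  have hall : ∀ y ∈ blk D z a, Commute y x := fun y hy =>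
    (blk_commute_all hc hzq haT hxT hca hy).symm
  rw [blk_eq hc h hz] at hall hne
  simp only [Set.mem_insert_iff, Set.mem_singleton_iff, not_or] at hne
  exact ⟨⟨⟨⟨hxT.1, hne.1, hall a (by simp)⟩, hxT.1, hne.2.1, hall b (by simp)⟩,
    hxT.1, hne.2.2.1, hall c (by simp)⟩, hxT.1, hne.2.2.2, hall d (by simp)⟩

theorem closure_four_pair {z a b c d : G} (h : Clique4_53 D a b c d) (hz : a * b * c * d = z)
    {w : G} (hw : w ∈ Subgroup.closure ({a, b, c, d} : Set G)) :
    w ∈ pairSub D z ∨ w * a ∈ pairSub D z := by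
  have hD := hc.hG.1
  have haa := tt_mul_self hD h.ha
  have hset := blk_eq hc h hz
  have haT := Clique4_53_mem_comm hD h hz
  have hpair : ∀ x ∈ ({a, b, c, d} : Set G), x * a ∈ pairSub D z := fun x hx =>
    Subgroup.subset_closure ⟨a, haT, x, hset ▸ hx, a, hset ▸ (by simp), rfl⟩
  have key : (w ∈ pairSub D z ∨ w * a ∈ pairSub D z) ∧ Commute w a := by
    induction hw using Subgroup.closure_induction with
    | mem x hx =>
      refine ⟨Or.inr (hpair x hx), ?_⟩
      rcases hx with rfl | rfl | rfl | rfl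
      exacts [Commute.refl _, h.hb.2.2.symm, h.hc.1.2.2.symm, h.hd.1.1.2.2.symm]
    | one => exact ⟨Or.inl (one_mem _), Commute.one_left _⟩
    | mul x y _ _ hx hy =>
      refine ⟨?_, hx.2.mul_left hy.2⟩
      have ha' : ∀ w, w * a * a = w := fun w => by rw [mul_assoc, haa, mul_one]
      rcases hx.1 with h1 | h1 <;> rcases hy.1 with h2 | h2
      · exact Or.inl (mul_mem h1 h2)
      · exact Or.inr (by rw [mul_assoc]; exact mul_mem h1 h2)
      · refine Or.inr ?_
        have := mul_mem h1 h2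
        rwa [mul_assoc, ← hy.2.eq, ← mul_assoc] at this
      · refine Or.inl ?_
        have := mul_mem h1 h2
        rwa [mul_assoc x a, ← mul_assoc a y a, ← hy.2.eq, ha'] at this
    | inv x _ hx =>
      refine ⟨?_, hx.2.inv_left⟩
      rcases hx.1 with h1 | h1
      · exact Or.inl (inv_mem h1)
      · refine Or.inr ?_
        have := inv_mem h1
        rwa [mul_inv_rev, tt_inv hD h.ha, hx.2.inv_left.symm.eq] at this
  exact key.1

set_option maxHeartbeats 1000000 in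
theorem exists_coords (φ : G →* Multiplicative (ZMod 2)) (hφ : ∀ d ∈ D, φ d ≠ 1) {z a b c d : G}
    (h : Clique4_53 D a b c d) (hz : a * b * c * d = z) : Nonempty (Coords D z a b c d) := by
  classical
  have hG := hc.hG
  have hD := hG.1
  obtain ⟨Q, _, _, Δ, hT, hp22, h22, ⟨B⟩⟩ := exists_bar hc φ hφ h.ha h.hb
  have hzq : IsQuad D z := ⟨a, b, c, d, h, hz⟩
  have inN : ∀ {y : G}, y ∈ nbr D a ∩ nbr D b → y ∈ Subgroup.centralizer ({a, b} : Set G) :=
    fun {y} hy => Pair25.mem_centralizer_pair.2 ⟨hy.1.2.2.symm, hy.2.2.2.symm⟩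
  obtain ⟨bar, hbar⟩ : ∃ bar : ∀ y, y ∈ nbr D a ∩ nbr D b → Q, ∀ y hy, bar y hy = B.f ⟨y, inN hy⟩ :=
    ⟨_, fun _ _ => rfl⟩
  have hcN : c ∈ nbr D a ∩ nbr D b := h.hc
  have hdN : d ∈ nbr D a ∩ nbr D b := h.hd.1
  obtain ⟨cb, hcb⟩ : ∃ cb, B.f ⟨c, inN hcN⟩ = cb := ⟨_, rfl⟩
  obtain ⟨db, hdb⟩ : ∃ db, B.f ⟨d, inN hdN⟩ = db := ⟨_, rfl⟩
  have hca : cb ∈ Δ := hcb ▸ B.mem _ hcN
  have hda : db ∈ nbr Δ cb := by
    refine ⟨hdb ▸ B.mem _ hdN, fun e => h.hd.2.2.1 ?_, ?_⟩
    · exact congrArg Subtype.val (B.inj ⟨d, inN hdN⟩ ⟨c, inN hcN⟩ hdN hcN (by rw [hdb, hcb, e]))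
    · rw [← hcb, ← hdb]
      exact (show Commute (⟨c, inN hcN⟩ : ↥(Subgroup.centralizer ({a, b} : Set G))) ⟨d, inN hdN⟩ from
        Subtype.ext h.hd.2.2.2.eq).map B.f
  obtain ⟨M⟩ := m22_pointModel hT h22 hca
  have hF := M.hF
  obtain ⟨p, hpdef⟩ : ∃ p, M.pt db = p := ⟨_, rfl⟩
  have hpp : PSU62.hm p p = 0 := hpdef ▸ (M.iso db hda).1
  obtain ⟨f, g, Co⟩ := exists_coord hF (M.iso db hda).2 (M.iso db hda).1
  obtain ⟨χ, hχs, hχk, hχn⟩ := Pair25.exists_pair_hom hT hp22 h22 hca hda M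
  -- the map to the centralizer of the pair
  have hin : ∀ k : ↥(fix4 z a b c d),
      ((k : ↥(Subgroup.centralizer ({z} : Set G))) : G) ∈ Subgroup.centralizer ({a, b} : Set G) :=
    fun k => Pair25.mem_centralizer_pair.2 ⟨(mem_fix4.1 k.2).1, (mem_fix4.1 k.2).2.1⟩
  obtain ⟨j, hj⟩ : ∃ j : ↥(fix4 z a b c d) →* ↥(Subgroup.centralizer ({a, b} : Set G)),
      ∀ k, (j k : G) = ((k : ↥(Subgroup.centralizer ({z} : Set G))) : G) :=
    ⟨MonoidHom.mk' (fun k => ⟨_, hin k⟩) fun _ _ => rfl, fun _ => rfl⟩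
  have hpairmem : ∀ k : ↥(fix4 z a b c d), B.f (j k) ∈ Subgroup.centralizer ({cb, db} : Set Q) := by
    intro k
    obtain ⟨-, -, k3, k4⟩ := mem_fix4.1 k.2
    rw [Pair25.mem_centralizer_pair, ← hcb, ← hdb]
    refine ⟨?_, ?_⟩
    · exact (show Commute (j k) ⟨c, inN hcN⟩ from Subtype.ext (by
        show (j k : G) * c = c * (j k : G); rw [hj]; exact k3.eq)).map B.f
    · exact (show Commute (j k) ⟨d, inN hdN⟩ from Subtype.ext (by
        show (j k : G) * d = d * (j k : G); rw [hj]; exact k4.eq)).map B.f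
  obtain ⟨ψ, hψ⟩ : ∃ ψ : ↥(fix4 z a b c d) →* ↥(Subgroup.centralizer ({cb, db} : Set Q)),
      ψ = (B.f.comp j).codRestrict _ hpairmem := ⟨_, rfl⟩
  have hψv : ∀ k, (ψ k : Q) = B.f (j k) := fun k => by rw [hψ]; rfl
  obtain ⟨Φ, hΦ⟩ : ∃ Φ : ↥(fix4 z a b c d) →* ↥(SU 4 M.F 2), Φ = (res hF Co).comp (χ.comp ψ) :=
    ⟨_, rfl⟩
  have hΦv : ∀ k, Φ k = res hF Co (χ (ψ k)) := fun k => by rw [hΦ]; rfl
  -- members commuting with the four
  have hN : ∀ {e}, e ∈ nbS D a b c d → e ∈ nbr D a ∩ nbr D b := fun {e} he => he.1.1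
  have hΔ : ∀ e (he : e ∈ nbS D a b c d), bar e (hN he) ∈ nbr Δ cb ∧ bar e (hN he) ∈ nbr Δ db := by
    intro e he
    rw [hbar]
    refine ⟨⟨B.mem _ (hN he), fun e' => he.1.2.2.1 ?_, ?_⟩, B.mem _ (hN he), fun e' => he.2.2.1 ?_, ?_⟩
    · exact congrArg Subtype.val (B.inj ⟨e, inN (hN he)⟩ ⟨c, inN hcN⟩ (hN he) hcN (by rw [hcb, e']))
    · rw [← hcb]
      exact (show Commute (⟨c, inN hcN⟩ : ↥(Subgroup.centralizer ({a, b} : Set G))) ⟨e, inN (hN he)⟩
        from Subtype.ext he.1.2.2.2.eq).map B.f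
    · exact congrArg Subtype.val (B.inj ⟨e, inN (hN he)⟩ ⟨d, inN hdN⟩ (hN he) hdN (by rw [hdb, e']))
    · rw [← hdb]
      exact (show Commute (⟨d, inN hdN⟩ : ↥(Subgroup.centralizer ({a, b} : Set G))) ⟨e, inN (hN he)⟩
        from Subtype.ext he.2.2.2.eq).map B.f
  have hlift : ∀ q, q ∈ nbr Δ cb → q ∈ nbr Δ db →
      ∃ e, ∃ he : e ∈ nbS D a b c d, bar e (hN he) = q := by
    intro q hqc hqd
    obtain ⟨y, hy, rfl⟩ := B.onto q hqc.1
    have hyc : Commute (y : G) c := B.comm y ⟨c, inN hcN⟩ hy hcN (by rw [hcb]; exact hqc.2.2.symm)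
    have hyd : Commute (y : G) d := B.comm y ⟨d, inN hdN⟩ hy hdN (by rw [hdb]; exact hqd.2.2.symm)
    have hnc : (y : G) ≠ c := fun e' => hqc.2.1 (by
      rw [show y = ⟨c, inN hcN⟩ from Subtype.ext e', hcb])
    have hnd : (y : G) ≠ d := fun e' => hqd.2.1 (by
      rw [show y = ⟨d, inN hdN⟩ from Subtype.ext e', hdb])
    refine ⟨y, ⟨⟨hy, hy.1.1, hnc, hyc.symm⟩, hy.1.1, hnd, hyd.symm⟩, ?_⟩
    rw [hbar]
  obtain ⟨u, hu⟩ : ∃ u : G → Fin 4 → M.F, ∀ e (he : e ∈ nbS D a b c d),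
      u e = coord g (M.pt (bar e (hN he))) :=
    ⟨fun e => if he : e ∈ nbS D a b c d then coord g (M.pt (bar e (hN he))) else 0,
      fun e he => dif_pos he⟩
  have hperp : ∀ e (he : e ∈ nbS D a b c d), PSU62.hm (M.pt (bar e (hN he))) (M.pt db) = 0 :=
    fun e he => (M.comm db hda _ (hΔ e he).1).1 (hΔ e he).2.2.2
  have hiso : ∀ e ∈ nbS D a b c d, hermForm 4 M.F 2 (u e) (u e) = 0 ∧ u e ≠ 0 := by
    intro e he
    rw [hu e he]
    refine ⟨by rw [← Co.hm_coord hF (hperp e he) (hperp e he)]; exact (M.iso _ (hΔ e he).1).1,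
      fun h0 => ?_⟩
    exact M.pt_not_smul (hΔ e he).1 hda (hΔ e he).2.2.1 _ (Co.eq_smul hF (hperp e he) h0)
  have hcomm : ∀ e ∈ nbS D a b c d, ∀ e' ∈ nbS D a b c d,
      Commute e e' ↔ hermForm 4 M.F 2 (u e) (u e') = 0 := by
    intro e he e' he'
    rw [hu e he, hu e' he', ← Co.hm_coord hF (hperp e he) (hperp e' he'),
      M.orth_iff (hΔ e he).1 (hΔ e' he').1, hbar, hbar]
    exact ⟨fun hh => (show Commute (⟨e, inN (hN he)⟩ : ↥(Subgroup.centralizer ({a, b} : Set G)))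
      ⟨e', inN (hN he')⟩ from Subtype.ext hh.eq).map B.f, B.comm _ _ (hN he) (hN he')⟩
  -- members at given coordinates
  have hat : ∀ v : Fin 6 → M.F, PSU62.hm v v = 0 → PSU62.hm v p = 0 → coord g v ≠ 0 →
      ∃ e, ∃ he : e ∈ nbS D a b c d, ∃ k : M.F, k ≠ 0 ∧ v = k • M.pt (bar e (hN he)) := by
    intro v hv hvp hv0
    have hvn : v ≠ 0 := fun h => hv0 (by rw [h]; exact funext fun i => PSU62.hm_zeroL _)
    obtain ⟨y, hya, hy⟩ := M.onto v hv hvn
    obtain ⟨k, hk, hkv⟩ := PSU62.tp_inj hF hv (M.iso y hya).1 hvn (M.iso y hya).2 hy.symm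
    have hvk : v = k⁻¹ • M.pt y := by rw [hkv, inv_smul_smul₀ hk]
    have hyd : y ∈ nbr Δ db := by
      refine ⟨hya.1, fun h' => hv0 ?_, ?_⟩
      · rw [hvk, h', coord_smul, Co.coord_p hF, smul_zero]
      · refine (M.comm db hda y hya).2 ?_
        rw [hpdef, hkv, PSU62.hm_smulL, hvp, mul_zero]
    obtain ⟨e, he, rfl⟩ := hlift y hya hyd
    exact ⟨e, he, k⁻¹, inv_ne_zero hk, hvk⟩
  have honto : ∀ v : Fin 4 → M.F, hermForm 4 M.F 2 v v = 0 → v ≠ 0 →
      ∃ e ∈ nbS D a b c d, ∃ k : M.F, k ≠ 0 ∧ u e = k • v := by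
    intro v hv hv0
    obtain ⟨e, he, k, hk, hek⟩ := hat (lift4 g v)
      (by rw [Co.hm_coord hF (Co.lift_perp v) (Co.lift_perp v), Co.coord_lift hF]; exact hv)
      (hpdef ▸ Co.lift_perp v) (by rw [Co.coord_lift hF]; exact hv0)
    refine ⟨e, he, k⁻¹, inv_ne_zero hk, ?_⟩
    rw [hu e he, ← Co.coord_lift hF v, hek, coord_smul, inv_smul_smul₀ hk]
  -- blocks
  have hblk : ∀ e ∈ nbS D a b c d, ∀ e' ∈ nbS D a b c d,
      blk D z e = blk D z e' ↔ ∃ k : M.F, k ≠ 0 ∧ u e' = k • u e := by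
    intro e he e' he'
    have fwd : ∀ x ∈ blk D z e, ∀ hx : x ∈ nbS D a b c d, ∃ k : M.F, k ≠ 0 ∧ u x = k • u e := by
      intro x hxb hx
      by_contra hcon
      push Not at hcon
      have hperp4 : hermForm 4 M.F 2 (u x) (u e) = 0 :=
        (hcomm x hx e he).1 (blk_commute hc hxb (blk_self hc hzq (nbS_mem_T hc h hz he)))
      have hne : ∀ k : M.F, u x ≠ k • u e := fun k e0 => by
        by_cases hk : k = 0
        · exact (hiso x hx).2 (by rw [e0, hk, zero_smul])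
        · exact hcon k hk e0
      obtain ⟨W, hW⟩ : ∃ W, U62.hypPerp ⊤ (M.pt db) f = W := ⟨_, rfl⟩
      have hWn : CfsgLib.Unitary.IsNondeg 2 W := hW ▸ U62.isNondeg_hypPerp hF
        (CfsgLib.Unitary.isNondeg_top (PSU62.card_sq hF)) Co.hyp
      have hlW : ∀ v, lift4 g v ∈ W := fun v => by
        rw [← hW, ← Co.span]
        exact Submodule.sum_mem _ fun i _ => Submodule.smul_mem _ _ (Submodule.subset_span ⟨i, rfl⟩)
      have hl : ∀ v w, PSU62.hm (lift4 g v) (lift4 g w) = hermForm 4 M.F 2 v w := fun v w => by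
        rw [Co.hm_coord hF (Co.lift_perp v) (Co.lift_perp w), Co.coord_lift hF, Co.coord_lift hF]
      have he0 : lift4 g (u e) ≠ 0 := fun e0 => (hiso e he).2 (by
        rw [← Co.coord_lift hF (u e), e0]; exact funext fun i => PSU62.hm_zeroL _)
      obtain ⟨g', hg'W, hg'g', heg'⟩ := CfsgLib.Unitary.exists_partner (PSU62.card_sq hF) hWn
        (hlW (u e)) he0 ((hl _ _).trans (hiso e he).1)
      obtain ⟨w, hwW, hww, hwe, hwx, -⟩ := Three81.exists_perp_iso hF hWn
        (⟨hlW (u e), hg'W, (hl _ _).trans (hiso e he).1, hg'g', heg'⟩ :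
          U62.HypPair W (lift4 g (u e)) g') (hlW (u x)) ((hl _ _).trans (hiso x hx).1)
        ((hl _ _).trans hperp4) (fun k e0 => hne k (by
          rw [← Co.coord_lift hF (u x), e0, coord_smul, Co.coord_lift hF]))
      have hwp : PSU62.hm w (M.pt db) = 0 := by
        rw [← hW] at hwW; exact (U62.mem_hypPerp.1 hwW).2.1
      have hcw : coord g w ≠ 0 := by
        intro h0
        rw [Co.hm_coord hF hwp (Co.lift_perp _), h0, CfsgLib.Unitary.herm_zero_left] at hwx
        exact zero_ne_one hwx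
      obtain ⟨y, hy, k, hk, hky⟩ := hat w hww (hpdef ▸ hwp) hcw
      have hyu : coord g w = k • u y := by rw [hu y hy, hky, coord_smul]
      rw [Co.hm_coord hF hwp (Co.lift_perp _), Co.coord_lift hF, hyu,
        CfsgLib.Unitary.herm_smul_left] at hwe hwx
      have hye : Commute y e := (hcomm y hy e he).2 ((mul_eq_zero.1 hwe).resolve_left hk)
      have hyx : Commute y x :=
        blk_commute_all hc hzq (nbS_mem_T hc h hz he) (nbS_mem_T hc h hz hy) hye hxb
      rw [(hcomm y hy x hx).1 hyx, mul_zero] at hwx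
      exact zero_ne_one hwx
    constructor
    · intro hb
      exact fwd e' (hb ▸ blk_self hc hzq (nbS_mem_T hc h hz he')) he'
    rintro ⟨k, hk, hke⟩
    obtain ⟨S, hS⟩ : ∃ S, {x | x ∈ nbS D a b c d ∧ ∃ k : M.F, k ≠ 0 ∧ u x = k • u e} = S := ⟨_, rfl⟩
    have hsub : blk D z e ⊆ S := fun x hx => hS ▸ ⟨nbS_blk hc h hz he hx, fwd x hx (nbS_blk hc h hz he hx)⟩
    have hS4 : S.ncard ≤ 4 := by
      obtain ⟨v, hv⟩ : ∃ v, M.pt (bar e (hN he)) = v := ⟨_, rfl⟩
      have key : ∀ x : ↥S, ∃ s : M.F, ∃ t : M.F, t ≠ 0 ∧ ∃ hx : (x : G) ∈ nbS D a b c d,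
          M.pt (bar x (hN hx)) = t • (v + s • M.pt db) := by
        rintro ⟨x, hx⟩
        rw [← hS] at hx
        obtain ⟨hx, t, ht, htx⟩ := hx
        refine ⟨t⁻¹ * PSU62.hm (M.pt (bar x (hN hx)) + t • v) f, t, ht, hx, ?_⟩
        have hd : PSU62.hm (M.pt (bar x (hN hx)) + t • v) (M.pt db) = 0 := by
          rw [PSU62.hm_addL, PSU62.hm_smulL, hperp x hx, ← hv, hperp e he, mul_zero, add_zero]
        have hco : coord g (M.pt (bar x (hN hx)) + t • v) = 0 := by
          rw [coord_add, coord_smul, ← hv, ← hu x hx, ← hu e he, htx]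
          exact funext fun _ => F4.add_self hF _
        have e0 := Co.eq_smul hF hd hco
        rw [smul_add, smul_smul, ← mul_assoc, mul_inv_cancel₀ ht, one_mul, ← e0, ← add_assoc,
          add_comm (t • v), add_assoc, PSU62.vec_add_self hF, add_zero]
      choose sel tt htt hxx hpx using key
      have hinj : Function.Injective sel := by
        intro x y hxy
        refine Subtype.ext ?_
        have e1 := M.inj _ (hΔ x (hxx x)).1 _ (hΔ y (hxx y)).1 ?_
        · rw [hbar, hbar] at e1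
          have e2 := congrArg Subtype.val (B.inj _ _ (hN (hxx x)) (hN (hxx y)) e1)
          exact e2
        · rw [hpx x, hpx y, hxy]
          have hvv : PSU62.hm (v + sel y • M.pt db) (v + sel y • M.pt db) = 0 := by
            have hvd : PSU62.hm v (M.pt db) = 0 := hv ▸ hperp e he
            simp [PSU62.hm_addL, PSU62.hm_addR hF, PSU62.hm_smulL, PSU62.hm_smulR,
              hv ▸ (M.iso _ (hΔ e he).1).1, (M.iso db hda).1, hvd, PSU62.hm_flip hF hvd]
          rw [PSU62.tp, PSU62.tp, PSU62.tv_smul hF hvv (htt x), PSU62.tv_smul hF hvv (htt y)]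
      rw [← Nat.card_coe_set_eq]
      exact (Nat.card_le_card_of_injective sel hinj).trans (by rw [Nat.card_eq_fintype_card, hF])
    obtain ⟨f', g', k', hq, hqz⟩ := exists_quad hc hzq (nbS_mem_T hc h hz he)
    have h4 : blk D z e = S := Set.eq_of_subset_of_ncard_le hsub
      (by rw [blk_card hc hq hqz]; exact hS4) (Set.toFinite _)
    exact (blk_congr hc (h4 ▸ hS ▸ ⟨he', k, hk, hke⟩ : e' ∈ blk D z e)).symm
  -- the values on members
  have hel : ∀ k : ↥(fix4 z a b c d),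
      ((k : ↥(Subgroup.centralizer ({z} : Set G))) : G) ∈ nbS D a b c d →
      (χ (ψ k) : ↥(SU 6 M.F 2)) =
          PSU62.tv hF (M.pt (B.f (j k))) ∧
        Φ k = tv4 hF (u ((k : ↥(Subgroup.centralizer ({z} : Set G))) : G)) := by
    intro k hk
    have hbk : bar _ (hN hk) = B.f (j k) := by
      rw [hbar]; exact congrArg B.f (Subtype.ext (hj k).symm)
    have h1 := (hΔ _ hk).1
    have h2 := hperp _ hk
    rw [hbk] at h1 h2
    have e := hχn (ψ k) (hψv k ▸ h1) (by rw [hψv]; exact h2)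
    rw [hψv] at e
    refine ⟨e, ?_⟩
    rw [hΦv, hu _ hk, hbk, ← res_tv hF Co (M.iso _ h1).1 h2]
    exact congrArg _ (Subtype.ext e)
  have hsq : ∀ x ∈ D, x * x = 1 := fun x hx => tt_mul_self hD hx
  have hmk : ∀ x : G, Commute x a ∧ Commute x b ∧ Commute x c ∧ Commute x d →
      ∃ k : ↥(fix4 z a b c d), ((k : ↥(Subgroup.centralizer ({z} : Set G))) : G) = x := by
    intro x hx
    have hxz : x ∈ Subgroup.centralizer ({z} : Set G) := by
      rw [Subgroup.mem_centralizer_singleton_iff, ← hz]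
      exact (((hx.1.mul_right hx.2.1).mul_right hx.2.2.1).mul_right hx.2.2.2).eq
    exact ⟨⟨⟨x, hxz⟩, mem_fix4.2 hx⟩, rfl⟩
  obtain ⟨kd, hkd⟩ := hmk d ⟨h.hd.1.1.2.2.symm, h.hd.1.2.2.2.symm, h.hd.2.2.2.symm, Commute.refl d⟩
  have hχd : (χ (ψ kd) : ↥(SU 6 M.F 2)) = PSU62.tv hF p := by
    have e : (ψ kd : Q) = db := by
      rw [hψv, ← hdb]; exact congrArg B.f (Subtype.ext ((hj kd).trans hkd))
    have := hχn (ψ kd) (e.symm ▸ hda) (by rw [e]; exact (M.iso db hda).1)
    rw [e] at this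
    exact this.trans (congrArg (PSU62.tv hF) hpdef)
  -- small images
  have hsmall : ∀ k : ↥(fix4 z a b c d), (χ (ψ k)).1 = 1 ∨ (χ (ψ k)).1 = PSU62.tv hF p →
      ((k : ↥(Subgroup.centralizer ({z} : Set G))) : G) ∈ Subgroup.closure ({a, b, c, d} : Set G) := by
    have h1 : ∀ k : ↥(fix4 z a b c d), χ (ψ k) = 1 →
        ((k : ↥(Subgroup.centralizer ({z} : Set G))) : G) ∈ Subgroup.closure ({a, b, c, d} : Set G) := by
      intro k hk
      have hab : Subgroup.closure ({a, b} : Set G) ≤ Subgroup.closure ({a, b, c, d} : Set G) :=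
        Subgroup.closure_mono (by rintro x (rfl | rfl) <;> simp)
      rcases (hχk _).1 hk with e | e <;> rw [hψv] at e
      · exact hj k ▸ hab (B.ker _ e)
      · have e2 : B.f (j k * (⟨c, inN hcN⟩ : ↥(Subgroup.centralizer ({a, b} : Set G)))⁻¹) = 1 := by
          rw [map_mul, map_inv, e, hcb, mul_inv_cancel]
        have := mul_mem (hab (B.ker _ e2))
          (Subgroup.subset_closure (show c ∈ ({a, b, c, d} : Set G) by simp))
        simpa [hj] using this
    intro k hk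
    rcases hk with e | e
    · exact h1 k (Subtype.ext e)
    · have e2 : χ (ψ (k * kd⁻¹)) = 1 := by
        rw [map_mul, map_mul, map_inv, map_inv,
          show χ (ψ k) = χ (ψ kd) from Subtype.ext (e.trans hχd.symm), mul_inv_cancel]
      have := mul_mem (h1 _ e2)
        (Subgroup.subset_closure (show d ∈ ({a, b, c, d} : Set G) by simp))
      simpa [hkd] using this
  -- the kernel
  have hker : ∀ k : ↥(fix4 z a b c d), Φ k = 1 →
      ((k : ↥(Subgroup.centralizer ({z} : Set G))) : G) ∈ pairSub D z ∨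
        ((k : ↥(Subgroup.centralizer ({z} : Set G))) : G) * a ∈ pairSub D z := by
    intro k hk
    have key : ∃ w : ↥(fix4 z a b c d), Φ w = 1 ∧
        ((w : ↥(Subgroup.centralizer ({z} : Set G))) : G) ∈ pairSub D z ∧
        delta f g (χ (ψ w)) = delta f g (χ (ψ k)) := by
      refine add_closure hF (P := fun v => ∃ w : ↥(fix4 z a b c d), Φ w = 1 ∧
        ((w : ↥(Subgroup.centralizer ({z} : Set G))) : G) ∈ pairSub D z ∧
        delta f g (χ (ψ w)) = v) ⟨1, map_one _, one_mem _, ?_⟩ ?_ ?_ _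
      · rw [map_one, map_one, delta_one hF Co]
      · rintro v₁ v₂ ⟨w₁, h1, h2, rfl⟩ ⟨w₂, g1, g2, rfl⟩
        exact ⟨w₁ * w₂, by rw [map_mul, h1, g1, one_mul], mul_mem h2 g2,
          by rw [map_mul, map_mul, delta_mul hF Co ((hΦv w₁).symm.trans h1)]⟩
      · intro v hv
        by_cases hv0 : v = 0
        · exact ⟨1, map_one _, one_mem _, by rw [map_one, map_one, delta_one hF Co, hv0]⟩
        obtain ⟨T, hT1, hww, hTk, hTd⟩ := exists_twist hF Co hv
        obtain ⟨v6, hv6⟩ : ∃ v6, lift4 g v = v6 := ⟨_, rfl⟩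
        rw [hv6] at hT1 hww
        have hvp : PSU62.hm v6 p = 0 := hv6 ▸ hpdef ▸ Co.lift_perp v
        have hc6 : coord g v6 = v := by rw [← hv6, Co.coord_lift hF]
        have hvv : PSU62.hm v6 v6 = 0 := by
          rw [← hv6, Co.hm_coord hF (Co.lift_perp v) (Co.lift_perp v), Co.coord_lift hF]; exact hv
        have hc6' : coord g (v6 + M.pt db) = v := by
          rw [coord_add, hc6, Co.coord_p hF, add_zero]
        have hwp : PSU62.hm (v6 + M.pt db) p = 0 := by
          rw [PSU62.hm_addL, hvp, hpdef, hpp, add_zero]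
        obtain ⟨y, hy, k1, hk1, hy1⟩ := hat v6 hvv hvp (by rw [hc6]; exact hv0)
        obtain ⟨m, hm, k2, hk2, hm1⟩ := hat (v6 + M.pt db) hww hwp (by rw [hc6']; exact hv0)
        obtain ⟨ky, hky⟩ := hmk y ⟨hy.1.1.1.2.2.symm, hy.1.1.2.2.2.symm, hy.1.2.2.2.symm, hy.2.2.2.symm⟩
        obtain ⟨km, hkm⟩ := hmk m ⟨hm.1.1.1.2.2.symm, hm.1.1.2.2.2.symm, hm.1.2.2.2.symm, hm.2.2.2.symm⟩
        have hval : ∀ (x : G) (hx : x ∈ nbS D a b c d) (kx : ↥(fix4 z a b c d)) (w : Fin 6 → M.F)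
            (s : M.F), ((kx : ↥(Subgroup.centralizer ({z} : Set G))) : G) = x → s ≠ 0 →
            w = s • M.pt (bar x (hN hx)) → (χ (ψ kx)).1 = PSU62.tv hF w := by
          intro x hx kx w s hkx hs hw
          subst hkx
          rw [(hel kx hx).1, hw, PSU62.tv_smul hF (M.iso _ (hΔ _ hx).1).1 hs, hbar]
          exact congrArg _ (congrArg _ (congrArg B.f (Subtype.ext (hj kx))))
        have hT' : χ (ψ (ky * km)) = T := by
          refine Subtype.ext ?_
          rw [hT1, map_mul, map_mul, Subgroup.coe_mul, hval y hy ky _ k1 hky hk1 hy1,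
            hval m hm km _ k2 hkm hk2 hm1]
        refine ⟨ky * km, by rw [hΦv, hT', hTk], ?_, by rw [hT', hTd]⟩
        have hb : blk D z y = blk D z m := (hblk y hy m hm).2 ⟨k2⁻¹ * k1, mul_ne_zero (inv_ne_zero hk2) hk1, by
          rw [hu y hy, hu m hm, mul_smul, ← coord_smul k1, ← hy1, hc6, ← hc6', hm1, coord_smul,
            inv_smul_smul₀ hk2]⟩
        refine Subgroup.subset_closure ⟨y, nbS_mem_T hc h hz hy, y,
          blk_self hc hzq (nbS_mem_T hc h hz hy), m, hb ▸ blk_self hc hzq (nbS_mem_T hc h hz hm), ?_⟩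
        show _ = y * m
        rw [← hky, ← hkm]
        rfl
    obtain ⟨w, hw1, hwP, hwd⟩ := key
    have hwk : ((w⁻¹ * k : ↥(fix4 z a b c d)) : ↥(Subgroup.centralizer ({z} : Set G))).1 ∈
        Subgroup.closure ({a, b, c, d} : Set G) := by
      refine hsmall _ (hpdef ▸ delta_eq_zero hF Co ?_ ?_)
      · rw [← hΦv, map_mul, map_inv, hw1, hk, inv_one, one_mul]
      · have e := delta_mul hF Co (A := χ (ψ w)) (B := χ (ψ (w⁻¹ * k))) ((hΦv w).symm.trans hw1)
        rw [← map_mul, ← map_mul, mul_inv_cancel_left, hwd, eq_comm, add_eq_left] at e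
        exact e
    rcases closure_four_pair hc h hz hwk with h1 | h1
    · left
      have := mul_mem hwP h1
      simpa using this
    · right
      have := mul_mem hwP h1
      simpa [mul_assoc] using this
  refine ⟨{
    F := M.F, hF := hF, u := u, iso := hiso, onto := honto, comm := hcomm, blk_iff := hblk
    Φ := Φ, el := fun k hk => (hel k hk).2, base := ?_, conj := ?_, ker := hker, central := ?_
    swap := ?_ }⟩
  · intro k hk
    have e : ψ k = 1 := Subtype.ext ((hψv k).trans (B.base _ (Or.inl ((hj k).trans hk))))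
    rw [hΦv, e, map_one, map_one]
  · intro k e he
    obtain ⟨ke, hke⟩ := hmk e ⟨he.1.1.1.2.2.symm, he.1.1.2.2.2.symm, he.1.2.2.2.symm, he.2.2.2.symm⟩
    have hx : ((k : ↥(Subgroup.centralizer ({z} : Set G))) : G) * e *
        ((k : ↥(Subgroup.centralizer ({z} : Set G))) : G)⁻¹ ∈ nbS D a b c d := by
      obtain ⟨k1, k2, k3, k4⟩ := mem_fix4.1 k.2
      have hm : ∀ {x}, Commute ((k : ↥(Subgroup.centralizer ({z} : Set G))) : G) x → e ∈ nbr D x →
          ((k : ↥(Subgroup.centralizer ({z} : Set G))) : G) * e *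
            ((k : ↥(Subgroup.centralizer ({z} : Set G))) : G)⁻¹ ∈ nbr D x := by
        intro x hx hex
        have := nbr_conj hG ((k : ↥(Subgroup.centralizer ({z} : Set G))) : G) hex
        rwa [hx.eq, mul_inv_cancel_right] at this
      exact ⟨⟨⟨hm k1 he.1.1.1, hm k2 he.1.1.2⟩, hm k3 he.1.2⟩, hm k4 he.2⟩
    have e1 := (hel (k * ke * k⁻¹) (by
      show _ * _ * _⁻¹ ∈ _; rw [hke]; exact hx)).2
    rw [map_mul, map_mul, map_inv, (hel ke (hke.symm ▸ he)).2, hke,
      conj_tv4 hF _ (hiso e he).1] at e1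
    obtain ⟨s, hs, hse⟩ := tv4_inj hF (CfsgLib.Unitary.herm_sv_self_eq_zero _ (hiso e he).1)
      (hiso _ hx).1 (fun h0 => (hiso e he).2 (by
        rw [← CfsgLib.Unitary.sv_inv_sv (Φ k) (u e), h0]; exact Matrix.mulVec_zero _))
      (e1.trans (by
        show tv4 hF (u (_ * _ * _⁻¹)) = _
        rw [hke]))
    exact ⟨s⁻¹, inv_ne_zero hs, by rw [hse, inv_smul_smul₀ hs]⟩
  · intro k hk
    have hcomm_el : ∀ v : Fin 4 → M.F, hermForm 4 M.F 2 v v = 0 → Commute (Φ k) (tv4 hF v) := by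
      intro v hv
      by_cases hv0 : v = 0
      · rw [show tv4 hF v = 1 from CfsgLib.Unitary.sv_ext fun x => by
          rw [sv_tv4 hF hv, hv0, smul_zero, add_zero, CfsgLib.Unitary.sv_one]]
        exact Commute.one_right _
      obtain ⟨e, he, s, hs, hse⟩ := honto v hv hv0
      obtain ⟨ke, hke⟩ := hmk e ⟨he.1.1.1.2.2.symm, he.1.1.2.2.2.symm, he.1.2.2.2.symm, he.2.2.2.symm⟩
      have hcx : Commute k ke := Subtype.ext (Subtype.ext (by
        show _ * _ = _ * _; rw [hke]; exact (hk e he).eq))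
      have hs1 : tv4 hF (s • v) = tv4 hF v := CfsgLib.Unitary.sv_ext fun x => by
        rw [sv_tv4 hF hv, sv_tv4 hF (by
          rw [CfsgLib.Unitary.herm_smul_left, CfsgLib.Unitary.herm_smul_right, hv, mul_zero, mul_zero]),
          CfsgLib.Unitary.herm_smul_right, smul_smul,
          show s ^ 2 * hermForm 4 M.F 2 x v * s = s ^ 3 * hermForm 4 M.F 2 x v by ring,
          F4.cube_eq_one hF hs, one_mul]
      have := hcx.map Φ
      rwa [(hel ke (hke.symm ▸ he)).2, hke, hse, hs1] at this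
    have hΦ1 : Φ k = 1 := by
      have hcen : Φ k ∈ Subgroup.center ↥(SU 4 M.F 2) := by
        have hcl : (⊤ : Subgroup ↥(SU 4 M.F 2)) ≤ Subgroup.centralizer {Φ k} := by
          rw [← CfsgLib.Unitary.transvGroup_eq_top (PSU62.card_sq hF) (n := 4)
              (fun h => absurd h.1 (by norm_num)), CfsgLib.Unitary.transvGroup, Subgroup.closure_le]
          rintro A ⟨v, c', hv, hA⟩
          rw [SetLike.mem_coe, Subgroup.mem_centralizer_singleton_iff]
          rcases transv_coeff hF hv hA with rfl | rfl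
          · simp
          · exact (hcomm_el v hv).symm.eq
        exact Subgroup.mem_center_iff.2 fun A =>
          Subgroup.mem_centralizer_singleton_iff.1 (hcl (Subgroup.mem_top A))
      rwa [Pair25.center_SU_four hF, Subgroup.mem_bot] at hcen
    refine hsmall k (hpdef ▸ ker_center hF Co ((hΦv k).symm.trans hΦ1) fun A hA => ?_)
    -- every element of the kernel comes from the pair group
    obtain ⟨q, rfl⟩ := hχs A
    obtain ⟨x, hx⟩ := B.surj (q : Q)
    obtain ⟨hq1, hq2⟩ := Pair25.mem_centralizer_pair.1 q.2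
    have hmove : ∀ y (hy : y ∈ nbr D a ∩ nbr D b), Commute (q : Q) (B.f ⟨y, inN hy⟩) →
        Commute (x : G) y := by
      intro y hy hqy
      obtain ⟨xa, xb⟩ := Pair25.mem_centralizer_pair.1 x.2
      have hy' : (x : G) * y * (x : G)⁻¹ ∈ nbr D a ∩ nbr D b := by
        have h1 := nbr_conj hG (x : G) hy.1
        have h2 := nbr_conj hG (x : G) hy.2
        rw [xa.eq, mul_inv_cancel_right] at h1
        rw [xb.eq, mul_inv_cancel_right] at h2
        exact ⟨h1, h2⟩
      refine mul_inv_eq_iff_eq_mul.1 (Subtype.ext_iff.1 (B.inj ⟨_, inN hy'⟩ ⟨y, inN hy⟩ hy' hy ?_))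
      rw [show (⟨_, inN hy'⟩ : ↥(Subgroup.centralizer ({a, b} : Set G))) = x * ⟨y, inN hy⟩ * x⁻¹ from
        Subtype.ext rfl, map_mul, map_mul, map_inv, hx, hqy.eq, mul_inv_cancel_right]
    obtain ⟨xa, xb⟩ := Pair25.mem_centralizer_pair.1 x.2
    obtain ⟨kx, hkx⟩ := hmk (x : G) ⟨xa, xb, hmove c hcN (hcb.symm ▸ hq1),
      hmove d hdN (hdb.symm ▸ hq2)⟩
    have hψx : ψ kx = q := Subtype.ext (by
      rw [hψv, ← hx]; exact congrArg B.f (Subtype.ext ((hj kx).trans hkx)))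
    have hk' : Commute k kx := by
      have hkG : ∀ w ∈ Subgroup.closure ({w | ∃ e ∈ nbS D a b c d, w = e} ∪ ({a, b, c, d} : Set G)),
          Commute ((k : ↥(Subgroup.centralizer ({z} : Set G))) : G) w := by
        intro w hw
        induction hw using Subgroup.closure_induction with
        | mem w hw =>
          rcases hw with ⟨e, he, rfl⟩ | hw
          · exact hk w he
          · obtain ⟨k1, k2, k3, k4⟩ := mem_fix4.1 k.2
            rcases hw with rfl | rfl | rfl | rfl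
            exacts [k1, k2, k3, k4]
        | one => exact Commute.one_right _
        | mul x y _ _ h1 h2 => exact h1.mul_right h2
        | inv x _ h1 => exact h1.inv_right
      refine Subtype.ext (Subtype.ext ?_)
      show _ * _ = _ * _
      rw [hkx]
      refine (hkG _ ?_).eq
      -- the element is a word in the members commuting with the four
      have hA' : Φ kx = 1 := by rw [hΦv, hψx]; exact hA
      have key : ∀ v : Fin 4 → M.F, ∃ w : ↥(fix4 z a b c d), Φ w = 1 ∧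
          ((w : ↥(Subgroup.centralizer ({z} : Set G))) : G) ∈
            Subgroup.closure ({w | ∃ e ∈ nbS D a b c d, w = e} ∪ ({a, b, c, d} : Set G)) ∧
          delta f g (χ (ψ w)) = v := by
        intro v
        refine add_closure hF (P := fun v => ∃ w : ↥(fix4 z a b c d), Φ w = 1 ∧
          ((w : ↥(Subgroup.centralizer ({z} : Set G))) : G) ∈
            Subgroup.closure ({w | ∃ e ∈ nbS D a b c d, w = e} ∪ ({a, b, c, d} : Set G)) ∧
          delta f g (χ (ψ w)) = v) ⟨1, map_one _, one_mem _, ?_⟩ ?_ ?_ v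
        · rw [map_one, map_one, delta_one hF Co]
        · rintro v₁ v₂ ⟨w₁, h1, h2, rfl⟩ ⟨w₂, g1, g2, rfl⟩
          exact ⟨w₁ * w₂, by rw [map_mul, h1, g1, one_mul], mul_mem h2 g2,
            by rw [map_mul, map_mul, delta_mul hF Co ((hΦv w₁).symm.trans h1)]⟩
        · intro v hv
          by_cases hv0 : v = 0
          · exact ⟨1, map_one _, one_mem _, by rw [map_one, map_one, delta_one hF Co, hv0]⟩
          obtain ⟨T, hT1, hww, hTk, hTd⟩ := exists_twist hF Co hv
          have hvp : PSU62.hm (lift4 g v) p = 0 := hpdef ▸ Co.lift_perp v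
          have hvv : PSU62.hm (lift4 g v) (lift4 g v) = 0 := by
            rw [Co.hm_coord hF (Co.lift_perp v) (Co.lift_perp v), Co.coord_lift hF]; exact hv
          have hwp : PSU62.hm (lift4 g v + M.pt db) p = 0 := by
            rw [PSU62.hm_addL, hvp, hpdef, hpp, add_zero]
          obtain ⟨y, hy, k1, hk1, hy1⟩ := hat _ hvv hvp (by rw [Co.coord_lift hF]; exact hv0)
          obtain ⟨m, hm, k2, hk2, hm1⟩ := hat _ hww hwp (by
            rw [coord_add, Co.coord_lift hF, Co.coord_p hF, add_zero]; exact hv0)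
          obtain ⟨ky, hky⟩ := hmk y ⟨hy.1.1.1.2.2.symm, hy.1.1.2.2.2.symm, hy.1.2.2.2.symm, hy.2.2.2.symm⟩
          obtain ⟨km, hkm⟩ := hmk m ⟨hm.1.1.1.2.2.symm, hm.1.1.2.2.2.symm, hm.1.2.2.2.symm, hm.2.2.2.symm⟩
          have hval : ∀ (x : G) (hx : x ∈ nbS D a b c d) (kx : ↥(fix4 z a b c d))
              (w : Fin 6 → M.F) (s : M.F),
              ((kx : ↥(Subgroup.centralizer ({z} : Set G))) : G) = x → s ≠ 0 →
              w = s • M.pt (bar x (hN hx)) → (χ (ψ kx)).1 = PSU62.tv hF w := by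
            intro x hx kx w s hkx hs hw
            subst hkx
            rw [(hel kx hx).1, hw, PSU62.tv_smul hF (M.iso _ (hΔ _ hx).1).1 hs, hbar]
            exact congrArg _ (congrArg _ (congrArg B.f (Subtype.ext (hj kx))))
          have hT' : χ (ψ (ky * km)) = T := by
            refine Subtype.ext ?_
            rw [hT1, map_mul, map_mul, Subgroup.coe_mul, hval y hy ky _ k1 hky hk1 hy1,
              hval m hm km _ k2 hkm hk2 hm1]
          refine ⟨ky * km, by rw [hΦv, hT', hTk], ?_, by rw [hT', hTd]⟩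
          refine mul_mem (Subgroup.subset_closure (Or.inl ⟨y, hy, hky⟩))
            (Subgroup.subset_closure (Or.inl ⟨m, hm, hkm⟩))
      obtain ⟨w, hw1, hwC, hwd⟩ := key (delta f g (χ (ψ kx)))
      have hwk : ((w⁻¹ * kx : ↥(fix4 z a b c d)) : ↥(Subgroup.centralizer ({z} : Set G))).1 ∈
          Subgroup.closure ({a, b, c, d} : Set G) := by
        refine hsmall _ (hpdef ▸ delta_eq_zero hF Co ?_ ?_)
        · rw [← hΦv, map_mul, map_inv, hw1, hA', inv_one, one_mul]
        · have e := delta_mul hF Co (A := χ (ψ w)) (B := χ (ψ (w⁻¹ * kx))) ((hΦv w).symm.trans hw1)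
          rw [← map_mul, ← map_mul, mul_inv_cancel_left, hwd, eq_comm, add_eq_left] at e
          exact e
      have := mul_mem hwC (Subgroup.closure_mono Set.subset_union_right hwk)
      simpa [hkx] using this
    have := (hk'.map ψ).map χ
    rwa [hψx] at this
  · obtain ⟨gb, hg1, hg2, hg3⟩ := Pair25.swap_not_inner hT hp22 h22 hca hda M Co
    obtain ⟨x, rfl⟩ := B.surj gb
    obtain ⟨xa, xb⟩ := Pair25.mem_centralizer_pair.1 x.2
    have hxy : ∀ y (hy : y ∈ nbr D a ∩ nbr D b),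
        ∃ hy' : (x : G) * y * (x : G)⁻¹ ∈ nbr D a ∩ nbr D b,
          B.f ⟨_, inN hy'⟩ = B.f x * B.f ⟨y, inN hy⟩ * (B.f x)⁻¹ := by
      intro y hy
      have h1 := nbr_conj hG (x : G) hy.1
      have h2 := nbr_conj hG (x : G) hy.2
      rw [xa.eq, mul_inv_cancel_right] at h1
      rw [xb.eq, mul_inv_cancel_right] at h2
      refine ⟨⟨h1, h2⟩, ?_⟩
      rw [show (⟨_, inN ⟨h1, h2⟩⟩ : ↥(Subgroup.centralizer ({a, b} : Set G))) = x * ⟨y, inN hy⟩ * x⁻¹
        from Subtype.ext rfl, map_mul, map_mul, map_inv]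
    obtain ⟨hc', ec⟩ := hxy c hcN
    obtain ⟨hd', ed⟩ := hxy d hdN
    have exc : (x : G) * c * (x : G)⁻¹ = d :=
      congrArg Subtype.val (B.inj ⟨_, inN hc'⟩ ⟨d, inN hdN⟩ hc' hdN (by rw [ec, hcb, hg1, hdb]))
    have exd : (x : G) * d * (x : G)⁻¹ = c :=
      congrArg Subtype.val (B.inj ⟨_, inN hd'⟩ ⟨c, inN hcN⟩ hd' hcN (by rw [ed, hdb, hg2, hcb]))
    refine ⟨x, by rw [xa.eq, mul_inv_cancel_right], by rw [xb.eq, mul_inv_cancel_right], exc, exd,
      fun A hA => hg3 A fun y hya hyb => ?_⟩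
    obtain ⟨e, he, rfl⟩ := hlift y hya hyb
    have hxe : (x : G) * e * (x : G)⁻¹ ∈ nbS D a b c d := by
      have h1 := nbr_conj hG (x : G) he.1.2
      have h2 := nbr_conj hG (x : G) he.2
      rw [exc] at h1
      rw [exd] at h2
      exact ⟨⟨(hxy e (hN he)).1, h2⟩, h1⟩
    have e2 := hA e he
    rw [hu e he, hu _ hxe] at e2
    obtain ⟨he', e3⟩ := hxy e (hN he)
    rwa [hbar _ (hN hxe), e3, ← hbar e (hN he)] at e2

end m24

end CfsgLib.Quad81
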