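import Mathlib.Data.List.Basic
import Mathlib.Data.Fin.Basic
import Cfsg.Agent.ThreeTransp.U43.Code

/-!
Finite checks on the 126 points: the 45 commuting with the base point, the 18 of support two among
them, and the reflections.
-/

set_option autoImplicit false

namespace CfsgLib.Quad81

open CfsgLib.U43

/-- the point with a given code -/
def ixN (n : ℕ) : Fin 126 := ⟨posN 1 n % 126, Nat.mod_lt _ (by decide)⟩

/-- the reflection, on numbers -/
def rfn (i j : Fin 126) : Fin 126 :=
  ⟨phiPosN 1 (reflN (phiN 1 i) (phiN 1 j)) % 126, Nat.mod_lt _ (by decide)⟩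

/-- orthogonal and different -/
def adjB (i j : Fin 126) : Bool :=
  !Nat.beq i j && Nat.beq (hN (ptN 1 i) (ptN 1 j)) 0

def p0 : Fin 126 := ixN 3
def p1 : Fin 126 := ixN 12
def q1 : Fin 126 := ixN 48
def q2 : Fin 126 := ixN 2064
def q3 : Fin 126 := rfn q1 q2
def p2 : Fin 126 := ixN 516
def p3 : Fin 126 := ixN 524
def r0 : Fin 126 := ixN 129

/-- orthogonal to the base point -/
def nb0 (i : Fin 126) : Bool := adjB p0 i

/-- support two among those orthogonal to the base point -/
def std (i : Fin 126) : Bool := nb0 i && Nat.beq (wtN (ptN 1 i)) 2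

/-- the coordinates `2, 3, 4, 5` -/
def tailN (n : ℕ) : ℕ := n &&& 3900

/-- the six points of the first two lines -/
def six : List (Fin 126) := [p1, p2, p3, q1, q2, q3]

def all126 : List (Fin 126) := List.finRange 126

def N0 : List (Fin 126) := all126.filter nb0

def far0 : List (Fin 126) := all126.filter fun i => !Nat.beq i p0 && !nb0 i

/-- one round of images -/
def step (gens R : List (Fin 126)) : List (Fin 126) :=
  (R ++ gens.flatMap fun x => R.map (rfn x)).eraseDups

theorem base_check : Nat.beq (ptN 1 p0) 3 && nb0 p1 && nb0 q1 && nb0 q2 && nb0 q3 && nb0 p2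
    && nb0 p3 && !nb0 r0 && !Nat.beq r0 p0 && adjB p1 q1 && adjB p1 q2 && !adjB q1 q2
    && !Nat.beq q1 q2 && !Nat.beq p2 p1 && !Nat.beq p3 p1 && !Nat.beq p2 p3 && adjB q1 p2
    && adjB q1 p3 = true := by
  decide +kernel

theorem count_check : Nat.beq N0.length 45 && Nat.beq far0.length 80
    && Nat.beq (all126.filter std).length 18 = true := by decide +kernel

theorem lambda_check : (N0.all fun i => Nat.beq (N0.filter (adjB i)).length 12) = true := by
  decide +kernel

theorem local_check : (N0.all fun j => adjB p1 j || Nat.beq j p1 ||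
    (let L := N0.filter fun k => adjB p1 k && adjB j k
     Nat.beq L.length 3 && L.all fun k => L.all fun l => !adjB k l)) = true := by
  decide +kernel

theorem line_common_check : ((N0.filter (adjB p1)).all fun j => (N0.filter (adjB p1)).all fun k =>
    adjB j k || Nat.beq j k || N0.any fun y => !Nat.beq y p1 && !adjB p1 y && adjB y j && adjB y k)
    = true := by
  decide +kernel

theorem trans32_check : (let far := N0.filter fun (y : Fin 126) => !Nat.beq y p1 && !adjB p1 y
    let gens := N0.filter (adjB p1)
    far.all fun y => (step gens (step gens (step gens (far.take 1)))).contains y) = true := by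
  decide +kernel

theorem trans80_check :
    (far0.all fun y => (step N0 (step N0 (step N0 [r0]))).contains y) = true := by
  decide +kernel

theorem trans45_check : (N0.all fun y => (step N0 (step N0 [p1])).contains y) = true := by
  decide +kernel

/-- the product of four reflections -/
def four (a b c d j : Fin 126) : Fin 126 := rfn a (rfn b (rfn c (rfn d j)))

theorem five_check : (N0.all fun w => !adjB q1 w || adjB p1 w || Nat.beq w p1 || Nat.beq w p2
    || Nat.beq w p3 ||
    ((all126.any fun j => !Nat.beq (four p1 w q1 q2 j) j) &&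
      all126.all fun j => Nat.beq (four p1 w q1 q2 (four p1 w q1 q2 (four p1 w q1 q2
        (four p1 w q1 q2 (four p1 w q1 q2 j))))) j)) = true := by
  decide +kernel

theorem six_check : (N0.all fun w => six.any (Nat.beq w ·) || six.any (adjB w ·) || std w) = true
    ∧ six.all std = true := by
  decide +kernel

theorem six_nbr_check : (six.all fun u => Nat.beq (six.filter (adjB u)).length 3) = true := by
  decide +kernel

theorem fix_check : ((all126.filter std).all fun u => Nat.beq (rfn u r0) r0 && adjB r0 u)
    && (N0.all fun u => std u || !adjB r0 u) = true := by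
  decide +kernel

theorem r0_nbr_check : (all126.all fun j => adjB r0 j ==
    (std j || (N0.any fun u => !std u && Nat.beq (rfn p0 (rfn u r0)) j))) = true := by
  decide +kernel

/-- the common neighbours with the base point, as a mask -/
def mask0 (j : Fin 126) : ℕ :=
  N0.foldl (fun s k => 2 * s + if adjB j k then 1 else 0) 0

theorem fibre_check : (let L := far0.map fun j => (j, mask0 j)
    L.all fun x => L.all fun y => !Nat.beq x.2 y.2 || Nat.beq y.1 x.1 || Nat.beq y.1 (rfn p0 x.1))
    = true := by
  decide +kernel

theorem move_check : (all126.all fun i => all126.all fun j => adjB i j || Nat.beq i j ||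
    (!Nat.beq (rfn i j) j && !Nat.beq (rfn i j) i && !adjB i (rfn i j))) = true := by
  decide +kernel

theorem tail_inj_check : (N0.all fun i => N0.all fun j => Nat.beq i j ||
    [1, 2, 3].all fun a => !Nat.beq (smulN a (tailN (ptN 1 i))) (tailN (ptN 1 j))) = true := by
  decide +kernel

theorem tail_onto_check : ((List.range 4096).all fun n => !Nat.beq (tailN n) n || Nat.beq n 0 ||
    !Nat.beq (hN n n) 0 || N0.any fun i => [1, 2, 3].any fun a =>
      Nat.beq (smulN a (tailN (ptN 1 i))) n) = true := by
  decide +kernel

def b5 : Fin 126 := ixN 20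

def g5 (j : Fin 126) : Fin 126 := four (ixN 1028) b5 (ixN 2056) (ixN 40) j

theorem chain_check : (List.all [ixN 1028, b5, ixN 2056, ixN 40, p1, p2, q1, q2, q3] std)
    && ([p1, q1, q2, p2].all fun b => Nat.beq (g5 b) b) && !Nat.beq (g5 b5) b5
    && !Nat.beq (g5 (g5 b5)) b5 && !Nat.beq (g5 (g5 b5)) (g5 b5)
    && Nat.beq (rfn q1 p1) p1 && Nat.beq (rfn q2 p1) p1 && Nat.beq (rfn q1 q1) q1
    && !Nat.beq (rfn q1 q2) q2
    && ([p1, q1, q2].all fun b => Nat.beq (rfn p1 b) b) && Nat.beq (rfn p1 p2) p3
    && (let S := all126.filter std
        S.all fun y => (step S (step S (step S [p1]))).contains y)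
    && (let R := step [q1, q2] (step [q1, q2] [q1])
        R.contains q1 && R.contains q2 && R.contains q3) = true := by
  decide +kernel

end CfsgLib.Quad81
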