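import Mathlib
import Cfsg.Agent.ThreeTransp.U43.Facts
import Cfsg.Agent.ThreeTransp.U6Radical25
import Cfsg.Agent.ThreeTransp.M22Pair25
import Cfsg.Agent.ThreeTransp.Quad81.Tables

/-!
The stabilizer of a point among the 126: it is the product of `SU(4, 2)` and a group of order two,
seen in its action on the coordinates and in the parity.
-/

set_option autoImplicit false
set_option linter.unusedSectionVars false

namespace CfsgLib.Quad81

open Cfsg CfsgLib.U43 CfsgLib.ThreeTransp CfsgLib.ThreeTransp.PSU62 CfsgLib.ThreeTransp.U62Point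

theorem one_mem_code : (1 : ℕ) ∈ [1, 2, 3] := by decide

/-- the reflection -/
noncomputable def rp (i : Fin 126) : Equiv.Perm (Fin 126) :=
  sig one_mem_code (CfsgLib.U43.rf (phi_norm one_mem_code i))

theorem rp_apply (i j : Fin 126) : rp i j = rfn i j := by
  show lineIx6 1 (act6 _ _) = _
  rw [rf_dec]
  have hr : reflN (phiN 1 i) (phiN 1 j) < 729 := by unfold reflN addMul3; omega
  have h := List.all_eq_true.1 (List.all_eq_true.1 (List.all_eq_true.1 conj_check 1 one_mem_code) i
    (List.mem_range.2 i.2)) j (List.mem_range.2 j.2)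
  simp only [Bool.and_eq_true, Nat.beq_eq] at h
  have hlt : phiPosN 1 (reflN (phiN 1 i) (phiN 1 j)) < 126 := by
    have hp := List.all_eq_true.1 (List.all_eq_true.1 pos_check 1 one_mem_code)
      (tvN (ptN 1 i) (ptN 1 j)) (List.mem_range.2 (Nat.xor_lt_two_pow (n := 12)
        (pt_facts one_mem_code j).1 (by
          have hs : ∀ (a n : ℕ), n < 4096 → smulN a n < 4096 := by
            intro a n hn
            have ho : ∀ k, omN k < 2 ^ 12 := fun k => Nat.or_lt_two_pow
              (lt_of_le_of_lt Nat.and_le_right (by norm_num))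
              (by
                have : lo k ^^^ hi k < 2 ^ 6 := Nat.xor_lt_two_pow
                  (lt_of_le_of_lt Nat.and_le_right (by norm_num))
                  (lt_of_le_of_lt Nat.and_le_right (by norm_num))
                rw [Nat.shiftLeft_eq]; omega)
            match a with
            | 0 => norm_num [smulN]
            | 1 => exact hn
            | 2 => exact ho _
            | (k + 3) => exact ho _
          exact hs _ _ (pt_facts one_mem_code i).1)))
    simp only [Bool.or_eq_true, Bool.and_eq_true, Bool.not_eq_true', Nat.beq_eq, Nat.blt_eq, h.1,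
      Bool.true_eq_false, false_or] at hp
    rw [← h.2]
    exact hp.1.1
  refine Fin.ext ?_
  unfold lineIx6
  rw [enc6_dec hr, dif_pos hlt]
  show _ = phiPosN 1 _ % 126
  rw [Nat.mod_eq_of_lt hlt]

/-- adjacency -/
def AdjP (i j : Fin 126) : Prop := adjB i j = true

theorem adjP_sym_check : (all126.all fun i => all126.all fun j => adjB i j == adjB j i) = true := by
  decide +kernel

theorem fix_adj_check : (all126.all fun i => all126.all fun j =>
    !(adjB i j || Nat.beq i j) || Nat.beq (rfn i j) j) = true := by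
  decide +kernel

theorem mem_all126 (i : Fin 126) : i ∈ all126 := List.mem_finRange i

theorem AdjP.symm {i j : Fin 126} (h : AdjP i j) : AdjP j i := by
  have := List.all_eq_true.1 (List.all_eq_true.1 adjP_sym_check i (mem_all126 _)) j (mem_all126 _)
  unfold AdjP at *
  rw [h] at this
  simpa using this

theorem AdjP.ne {i j : Fin 126} (h : AdjP i j) : i ≠ j := by
  rintro rfl
  simp [AdjP, adjB, Nat.beq_eq] at h

theorem rp_fix {i j : Fin 126} (h : AdjP i j ∨ i = j) : rp i j = j := by
  have := List.all_eq_true.1 (List.all_eq_true.1 fix_adj_check i (mem_all126 _)) j (mem_all126 _)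
  simp only [Bool.or_eq_true, Bool.not_eq_true', Nat.beq_eq] at this
  rw [rp_apply]
  refine Fin.ext (this.resolve_left ?_)
  rcases h with h | rfl
  · rw [show adjB i j = true from h]; simp
  · simp

theorem rp_move {i j : Fin 126} (h : ¬ AdjP i j) (hne : i ≠ j) :
    rp i j ≠ j ∧ rp i j ≠ i ∧ ¬ AdjP i (rp i j) := by
  have := List.all_eq_true.1 (List.all_eq_true.1 move_check i (mem_all126 _)) j (mem_all126 _)
  simp only [Bool.or_eq_true, Bool.and_eq_true, Bool.not_eq_true', Nat.beq_eq] at this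
  rw [rp_apply]
  rcases this with (h' | h') | ⟨⟨h1, h2⟩, h3⟩
  · exact absurd h' h
  · exact absurd (Fin.ext h') hne
  · exact ⟨fun e => by simp [e, Nat.beq_eq] at h1, fun e => by simp [e, Nat.beq_eq] at h2,
      fun e => by rw [show adjB i _ = true from e] at h3; exact Bool.noConfusion h3⟩

section field

variable {F : Type} [Field F] [Fintype F] (hF : Fintype.card F = 4)
include hF

theorem hm_code (m n : ℕ) : hm (vec hF m) (vec hF n) = 0 ↔ hN m n = 0 := by
  rw [hm_vec]
  refine el_eq_zero hF ?_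
  have hp : ∀ x, par x ≤ 1 := fun x => Nat.and_le_right
  have := hp ((lo m &&& lo n) ^^^ (lo m &&& hi n) ^^^ (hi m &&& hi n))
  have := hp ((lo m &&& hi n) ^^^ (hi m &&& lo n))
  unfold hN
  omega

/-- the point -/
noncomputable abbrev ptv (i : Fin 126) : Fin 6 → F := pt hF 1 i

theorem adjP_iff (i j : Fin 126) : AdjP i j ↔ i ≠ j ∧ hm (ptv hF i) (ptv hF j) = 0 := by
  unfold AdjP adjB ptv pt
  rw [hm_code hF, Bool.and_eq_true, Bool.not_eq_true']
  refine and_congr ⟨fun h e => ?_, fun h => ?_⟩ (by rw [Nat.beq_eq])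
  · simp [e, Nat.beq_eq] at h
  · rw [← Bool.not_eq_true, Nat.beq_eq]
    exact fun e => h (Fin.ext e)

theorem hm_ptv (i j : Fin 126) : hm (ptv hF i) (ptv hF j) = 0 ↔ AdjP i j ∨ i = j := by
  rw [adjP_iff hF]
  by_cases h : i = j
  · subst h
    simp [pt_isotropic hF one_mem_code i]
  · simp [h]

theorem rho_adj (g : ↥(stabP hF 1)) (i j : Fin 126) :
    AdjP (rho hF one_mem_code g i) (rho hF one_mem_code g j) ↔ AdjP i j := by
  rw [adjP_iff hF, adjP_iff hF]
  refine and_congr (rho hF one_mem_code g).injective.ne_iff ?_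
  obtain ⟨a, ha, ea⟩ := lineIx_spec hF one_mem_code ((g.2 (pt hF 1 i)).2 (P_pt hF one_mem_code i))
  obtain ⟨b, hb, eb⟩ := lineIx_spec hF one_mem_code ((g.2 (pt hF 1 j)).2 (P_pt hF one_mem_code j))
  have h := CfsgLib.Unitary.sv_herm (g : ↥(SU 6 F 2)) (pt hF 1 i) (pt hF 1 j)
  rw [ea, eb] at h
  show hm (pt hF 1 (lineIx hF 1 _)) (pt hF 1 (lineIx hF 1 _)) = 0 ↔ _
  have h' : hm (a • pt hF 1 (lineIx hF 1 (CfsgLib.Unitary.sv (g : ↥(SU 6 F 2)) (pt hF 1 i))))
      (b • pt hF 1 (lineIx hF 1 (CfsgLib.Unitary.sv (g : ↥(SU 6 F 2)) (pt hF 1 j)))) =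
      hm (pt hF 1 i) (pt hF 1 j) := h
  show _ ↔ hm (pt hF 1 i) (pt hF 1 j) = 0
  rw [← h', hm_smulL, hm_smulR]
  simp [ha, hb]

theorem rho_rp (i : Fin 126) : rho hF one_mem_code ⟨_, tv_mem_stabP hF one_mem_code i⟩ = rp i :=
  rho_tv hF one_mem_code i

theorem rp_adj (x i j : Fin 126) : AdjP (rp x i) (rp x j) ↔ AdjP i j := by
  rw [← rho_rp hF x]
  exact rho_adj hF _ i j

theorem ptv_p0 : ptv hF p0 = vec hF 3 := by
  have h := base_check
  simp only [Bool.and_eq_true, Nat.beq_eq] at h
  unfold ptv pt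
  rw [h.1.1.1.1.1.1.1.1.1.1.1.1.1.1.1.1.1]

theorem om_basics : el hF 2 * el hF 2 = el hF 3 ∧ el hF 2 + el hF 3 = (1 : F) := by
  refine ⟨?_, ?_⟩
  · rw [← el_mul hF (by norm_num) (by norm_num)]; rfl
  · rw [← el_add hF (by norm_num) (by norm_num)]; rfl

/-- the partner of the base point -/
noncomputable def fvec : Fin 6 → F := vec hF 194

omit hF in
/-- the basis of the complement -/
noncomputable def gvec (_hF : Fintype.card F = 4) (k : Fin 4) : Fin 6 → F := Pi.single ⟨k + 2, by omega⟩ 1

theorem hm_single_right (x : Fin 6 → F) (i : Fin 6) : hm x (Pi.single i (1 : F)) = x i := by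
  show hermForm 6 F 2 x (Pi.single i 1) = x i
  unfold hermForm
  rw [Finset.sum_eq_single i]
  · simp
  · intro b _ hb; simp [hb]
  · simp

theorem coord0 (v : Fin 6 → F) (k : Fin 4) : coord (gvec hF) v k = v ⟨k + 2, by omega⟩ :=
  hm_single_right hF v _

theorem coord0_p : ∀ k : Fin 4, vec hF 3 ⟨k + 2, by omega⟩ = 0 ∧
    fvec hF ⟨k + 2, by omega⟩ = 0 := by
  intro k
  obtain ⟨a, b⟩ : digN 3 (k + 2) = 0 ∧ digN 194 (k + 2) = 0 := by revert k; decide
  unfold fvec
  constructor
  · show el hF (digN 3 (k + 2)) = 0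
    rw [a]; rfl
  · show el hF (digN 194 (k + 2)) = 0
    rw [b]; rfl

theorem coord_model : Coord (vec hF 3) (fvec hF) (gvec hF) := by
  have hT : ∀ n, n = 3 ∨ n = 194 → hm (vec hF n) (vec hF n) = 0 := by
    rintro n (rfl | rfl) <;> rw [hm_code hF] <;> decide
  refine ⟨⟨trivial, trivial, hT 3 (Or.inl rfl), hT _ (Or.inr rfl), ?_⟩, ?_, ?_, ?_, ?_⟩
  · show hm (vec hF 3) (vec hF 194) = 1
    rw [hm_vec hF, show hN 3 194 = 1 by decide]
    rfl
  · intro i j
    show hermForm 6 F 2 (gvec hF i) (Pi.single _ 1) = _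
    rw [show hermForm 6 F 2 (gvec hF i) (Pi.single ⟨(j : ℕ) + 2, by omega⟩ 1) =
      hm (gvec hF i) (Pi.single _ 1) from rfl, hm_single_right hF]
    unfold gvec
    by_cases h : i = j
    · subst h; simp
    · rw [if_neg h, Pi.single_eq_of_ne]
      intro e
      exact h (Fin.ext (by have := congrArg Fin.val e; simp at this; omega))
  · intro i
    refine hm_flip hF ?_
    rw [show gvec hF i = Pi.single _ (1 : F) from rfl, hm_single_right hF]
    exact (coord0_p hF i).1
  · intro i
    refine hm_flip hF ?_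
    rw [show gvec hF i = Pi.single _ (1 : F) from rfl, hm_single_right hF]
    exact (coord0_p hF i).2
  · refine le_antisymm ?_ fun x hx => ?_
    · rw [Submodule.span_le]
      rintro _ ⟨i, rfl⟩
      refine U62.mem_hypPerp.2 ⟨trivial, ?_, ?_⟩
      · refine hm_flip hF ?_
        rw [show gvec hF i = Pi.single _ (1 : F) from rfl, hm_single_right hF]
        exact (coord0_p hF i).1
      · refine hm_flip hF ?_
        rw [show gvec hF i = Pi.single _ (1 : F) from rfl, hm_single_right hF]
        exact (coord0_p hF i).2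
    · obtain ⟨-, hxp, hxf⟩ := U62.mem_hypPerp.1 hx
      have h3 := om_basics hF
      have e1 : hm x (vec hF 3) = x 0 + x 1 := by
        show hermForm 6 F 2 x (vec hF 3) = _
        simp [hermForm, Fin.sum_univ_six, vec, show digN 3 0 = 1 from rfl, show digN 3 1 = 1 from rfl,
          show digN 3 2 = 0 from rfl, show digN 3 3 = 0 from rfl, show digN 3 4 = 0 from rfl,
          show digN 3 5 = 0 from rfl, show el hF 0 = 0 from rfl, show el hF 1 = 1 from rfl]
      have e2 : hm x (fvec hF) = x 0 * el hF 2 ^ 2 + x 1 * el hF 3 ^ 2 := by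
        show hermForm 6 F 2 x (vec hF 194) = _
        simp [hermForm, Fin.sum_univ_six, vec, show digN 194 0 = 2 from rfl,
          show digN 194 1 = 3 from rfl, show digN 194 2 = 0 from rfl, show digN 194 3 = 0 from rfl,
          show digN 194 4 = 0 from rfl, show digN 194 5 = 0 from rfl, show el hF 0 = 0 from rfl]
      rw [e1] at hxp
      have h33 : el hF 3 ^ 2 = el hF 2 := by
        rw [pow_two, ← el_mul hF (by norm_num) (by norm_num)]; rfl
      rw [e2, pow_two, h3.1, h33] at hxf
      have h0 : x 0 = 0 := by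
        have : x 0 * (el hF 3 - el hF 2) = 0 := by linear_combination hxf - el hF 2 * hxp
        refine (mul_eq_zero.1 this).resolve_right (sub_ne_zero.2 ?_)
        intro e
        have := el_inj hF (a := 3) (b := 2) (by norm_num) (by norm_num) e
        omega
      have h1 : x 1 = 0 := by rw [h0, zero_add] at hxp; exact hxp
      rw [Submodule.mem_span_range_iff_exists_fun]
      refine ⟨fun k => x ⟨k + 2, by omega⟩, funext fun i => ?_⟩
      simp only [Finset.sum_apply, Pi.smul_apply, smul_eq_mul, gvec, Fin.sum_univ_four]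
      fin_cases i <;> simp_all

/-- the stabilizer of the base point -/
noncomputable def H0 : Subgroup ↥(SU 6 F 2) := stabVec (vec hF 3) ⊓ stabP hF 1

/-- the action of the stabilizer on the points -/
noncomputable def rho0 : ↥(H0 hF) →* Equiv.Perm (Fin 126) :=
  (rho hF one_mem_code).comp (Subgroup.inclusion inf_le_right)

/-- the action of the stabilizer on the coordinates -/
noncomputable def res0 : ↥(H0 hF) →* ↥(SU 4 F 2) :=
  (res hF (coord_model hF)).comp (Subgroup.inclusion inf_le_left)

/-- the parity -/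
noncomputable def par0 : ↥(stabP hF 1) →* Multiplicative (ZMod 2) :=
  haveI := Classical.decPred (· ∈ C3 hF one_mem_code)
  MonoidHom.mk' (fun g => if g ∈ C3 hF one_mem_code then 1 else Multiplicative.ofAdd 1) fun g h => by
    have e := Subgroup.mul_mem_iff_of_index_two (C3_facts hF one_mem_code).1 (a := g) (b := h)
    by_cases hg : g ∈ C3 hF one_mem_code <;> by_cases hh : h ∈ C3 hF one_mem_code <;>
      simp [hg, hh, e] <;> decide

theorem par0_tv (i : Fin 126) :
    par0 hF ⟨_, tv_mem_stabP hF one_mem_code i⟩ = Multiplicative.ofAdd 1 := by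
  have h : (⟨_, tv_mem_stabP hF one_mem_code i⟩ : ↥(stabP hF 1)) ∉ C3 hF one_mem_code :=
    fun h => tv_not_mem_K3 hF one_mem_code i ⟨_, h, rfl⟩
  simp [par0, h]

theorem par0_eq_one {g : ↥(stabP hF 1)} : par0 hF g = 1 ↔ g ∈ C3 hF one_mem_code := by
  by_cases h : g ∈ C3 hF one_mem_code <;> simp [par0, h]

/-- the parity of the stabilizer -/
noncomputable def chi0 : ↥(H0 hF) →* Multiplicative (ZMod 2) :=
  (par0 hF).comp (Subgroup.inclusion inf_le_right)

/-- a point orthogonal to the base point, or the base point -/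
def Near (i : Fin 126) : Prop := nb0 i = true ∨ i = p0

theorem near_hm {i : Fin 126} (h : Near i) : hm (vec hF 3) (ptv hF i) = 0 := by
  rw [← ptv_p0 hF, hm_ptv hF]
  exact h.elim Or.inl fun e => Or.inr e.symm

theorem tv_mem_H0 {i : Fin 126} (h : Near i) : tv hF (ptv hF i) ∈ H0 hF :=
  ⟨tv_mem_stabVec hF (pt_isotropic hF one_mem_code i) (near_hm hF h),
    tv_mem_stabP hF one_mem_code i⟩

/-- the element of a point -/
noncomputable def el0 {i : Fin 126} (h : Near i) : ↥(H0 hF) := ⟨_, tv_mem_H0 hF h⟩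

theorem rho0_el0 {i : Fin 126} (h : Near i) : rho0 hF (el0 hF h) = rp i := rho_rp hF i

theorem chi0_el0 {i : Fin 126} (h : Near i) : chi0 hF (el0 hF h) = Multiplicative.ofAdd 1 :=
  par0_tv hF i

theorem res0_el0 {i : Fin 126} (h : nb0 i = true) :
    res0 hF (el0 hF (Or.inl h)) = tv4 hF (coord (gvec hF) (ptv hF i)) :=
  res_tv hF (coord_model hF) (pt_isotropic hF one_mem_code i)
    (hm_flip hF (near_hm hF (Or.inl h)))

theorem res0_base : res0 hF (el0 hF (Or.inr rfl : Near p0)) = 1 := by
  have h := res_tv hF (coord_model hF) (pt_isotropic hF one_mem_code p0)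
    (hm_flip hF (near_hm hF (Or.inr rfl : Near p0)))
  refine h.trans (CfsgLib.Unitary.sv_ext fun x => ?_)
  have hz : coord (gvec hF) (ptv hF p0) = 0 := by
    rw [ptv_p0 hF]; exact (coord_model hF).coord_p hF
  rw [hz, sv_tv4 hF (CfsgLib.Unitary.herm_zero_left _), smul_zero, add_zero,
    CfsgLib.Unitary.sv_one]

theorem lift_coord0 (n : ℕ) : lift4 (gvec hF) (coord (gvec hF) (vec hF n)) = vec hF (tailN n) := by
  have hd : ∀ i : Fin 6, digN (tailN n) i = if 2 ≤ (i : ℕ) then digN n i else 0 := by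
    intro i
    obtain ⟨a, b⟩ : (tailN n).testBit i = (n.testBit i && decide (2 ≤ (i : ℕ))) ∧
        (tailN n).testBit (i + 6) = (n.testBit (i + 6) && decide (2 ≤ (i : ℕ))) := by
      unfold tailN
      rw [Nat.testBit_and, Nat.testBit_and]
      fin_cases i <;> exact ⟨rfl, rfl⟩
    rw [digN_eq, a, b]
    by_cases h : 2 ≤ (i : ℕ)
    · rw [if_pos h, digN_eq]; simp [h]
    · rw [if_neg h]; simp [h]
  funext i
  show _ = el hF (digN (tailN n) i)
  rw [hd]
  simp only [lift4, Finset.sum_apply, Pi.smul_apply, smul_eq_mul, gvec, Fin.sum_univ_four, coord0 hF]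
  fin_cases i <;> simp [vec] <;> rfl

/-- two points orthogonal to the base point with proportional coordinates are equal -/
theorem coord0_inj {i j : Fin 126} (hi : nb0 i = true) (hj : nb0 j = true) {k : F} (hk : k ≠ 0)
    (h : coord (gvec hF) (ptv hF j) = k • coord (gvec hF) (ptv hF i)) : i = j := by
  obtain ⟨a, ha, rfl⟩ := el_surj hF k
  have ha0 : a ≠ 0 := fun e => hk (by subst e; rfl)
  have e := congrArg (lift4 (gvec hF)) h
  rw [show lift4 (gvec hF) (el hF a • coord (gvec hF) (ptv hF i)) =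
      el hF a • lift4 (gvec hF) (coord (gvec hF) (ptv hF i)) by
    simp [lift4, Finset.smul_sum, smul_smul]] at e
  unfold ptv pt at e
  rw [lift_coord0 hF, lift_coord0 hF, ← vec_smul hF ha] at e
  have hlt : ∀ n, tailN n < 4096 := fun n => lt_of_le_of_lt Nat.and_le_right (by norm_num)
  have e' := vec_inj hF (hlt _) (smulN_lt hF a (hlt _)) e
  have mem : ∀ i, nb0 i = true → i ∈ N0 := fun i hi => List.mem_filter.2 ⟨mem_all126 i, hi⟩
  have := List.all_eq_true.1 (List.all_eq_true.1 tail_inj_check i (mem i hi)) j (mem j hj)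
  simp only [Bool.or_eq_true, Nat.beq_eq, List.all_eq_true] at this
  rcases this with h' | h'
  · exact Fin.ext h'
  · have := h' a (by simp only [List.mem_cons, List.not_mem_nil, or_false]; omega)
    rw [e'] at this
    simp [Nat.beq_eq] at this

/-- every isotropic vector of the coordinates is that of a point -/
theorem coord0_onto {u : Fin 4 → F} (hu : hermForm 4 F 2 u u = 0) (hu0 : u ≠ 0) :
    ∃ (i : Fin 126) (k : F), nb0 i = true ∧ k ≠ 0 ∧ u = k • coord (gvec hF) (ptv hF i) := by
  have C := coord_model hF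
  obtain ⟨n, hn, he⟩ := vec_surj hF (lift4 (gvec hF) u)
  have hlt : ∀ n, tailN n < 4096 := fun n => lt_of_le_of_lt Nat.and_le_right (by norm_num)
  have ht : tailN n = n := by
    refine vec_inj hF (hlt n) hn ?_
    rw [← lift_coord0 hF, he, C.coord_lift hF]
  have hn0 : n ≠ 0 := by
    intro e
    refine hu0 ?_
    rw [← C.coord_lift hF u, ← he, e]
    funext k
    rw [coord0 hF]
    show el hF (digN 0 _) = 0
    simp [digN]
    rfl
  have hiso : hN n n = 0 := by
    rw [← hm_code hF, he, C.hm_coord hF (C.lift_perp u) (C.lift_perp u), C.coord_lift hF]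
    exact hu
  have := List.all_eq_true.1 tail_onto_check n (List.mem_range.2 hn)
  simp only [Bool.or_eq_true, Bool.not_eq_true', ← Bool.not_eq_true, Nat.beq_eq, List.any_eq_true,
    ht, hiso, hn0, not_true, false_or, not_false_eq_true] at this
  obtain ⟨i, hi, a, ha, e⟩ := this
  simp only [List.mem_cons, List.not_mem_nil, or_false] at ha
  have ha4 : a < 4 := by omega
  refine ⟨i, el hF a, (List.mem_filter.1 hi).2, fun h0 => ?_, ?_⟩
  · have := (el_eq_zero hF ha4).1 h0
    omega
  · rw [← C.coord_lift hF u, ← he, ← e, vec_smul hF ha4, ← lift_coord0 hF, coord_smul,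
      C.coord_lift hF]
    rfl

theorem rho0_inj {h : ↥(H0 hF)} (e : rho0 hF h = 1) : h = 1 := by
  have := (rho_eq_one hF one_mem_code).1 e
  refine Subtype.ext (center_inf_stabVec hF (p := vec hF 3) ?_ this h.2.1)
  intro h0
  exact one_ne_zero (congrFun h0 0)

theorem pair_inj {h : ↥(H0 hF)} (e : res0 hF h = 1) (e' : chi0 hF h = 1) : h = 1 := by
  have C := coord_model hF
  refine rho0_inj hF ?_
  -- fixed orthogonal points
  have hfix : ∀ i, nb0 i = true → ∃ k : F, k ≠ 0 ∧
      CfsgLib.Unitary.sv h.1 (ptv hF i) = k • ptv hF i := by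
    intro i hi
    obtain ⟨b, hb, eb⟩ := lineIx_spec hF one_mem_code ((h.2.2 (pt hF 1 i)).2 (P_pt hF one_mem_code i))
    have hp : hm (ptv hF i) (vec hF 3) = 0 := hm_flip hF (near_hm hF (Or.inl hi))
    have hj : nb0 (lineIx hF 1 (CfsgLib.Unitary.sv h.1 (pt hF 1 i))) = true := by
      show AdjP p0 _
      have hfx : rho0 hF h p0 = p0 := by
        show lineIx hF 1 (CfsgLib.Unitary.sv h.1 (ptv hF p0)) = p0
        rw [ptv_p0 hF, (h.2.1 : CfsgLib.Unitary.sv h.1 (vec hF 3) = vec hF 3), ← ptv_p0 hF,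
          ← one_smul F (ptv hF p0)]
        exact lineIx_smul hF one_mem_code one_ne_zero p0
      have := (rho_adj hF (Subgroup.inclusion inf_le_right h) p0 i).2 hi
      rwa [show rho hF one_mem_code (Subgroup.inclusion inf_le_right h) p0 = p0 from hfx] at this
    have hcoord : coord (gvec hF) (CfsgLib.Unitary.sv h.1 (ptv hF i)) = coord (gvec hF) (ptv hF i) := by
      have := res_coord hF C ⟨h.1, h.2.1⟩ hp
      rw [show res hF C ⟨h.1, h.2.1⟩ = res0 hF h from rfl, e, CfsgLib.Unitary.sv_one] at this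
      exact this.symm
    refine ⟨b, hb, eb.trans ?_⟩
    have := coord0_inj hF hj hi hb (by rw [← coord_smul, ← eb, hcoord])
    rw [this]
  -- so every point orthogonal to the base point is fixed
  have h45 : ∀ i, nb0 i = true → CfsgLib.Unitary.sv h.1 (ptv hF i) = ptv hF i := by
    intro i hi
    obtain ⟨k, -, hk⟩ := hfix i hi
    have hp : hm (ptv hF i) (vec hF 3) = 0 := hm_flip hF (near_hm hF (Or.inl hi))
    obtain ⟨t, ht⟩ := res_ker_apply hF C (A := ⟨h.1, h.2.1⟩) e hp
    rw [show CfsgLib.Unitary.sv h.1 (ptv hF i) = _ from ht] at hk ⊢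
    have hk1 : coord (gvec hF) (ptv hF i) = k • coord (gvec hF) (ptv hF i) := by
      rw [← coord_smul, ← hk, coord_add, coord_smul, C.coord_p hF, smul_zero, add_zero]
    have hc0 : coord (gvec hF) (ptv hF i) ≠ 0 := by
      intro h0
      have hz : ptv hF i = hm (ptv hF i) (fvec hF) • vec hF 3 := C.eq_smul hF hp h0
      have hne : hm (ptv hF i) (fvec hF) ≠ 0 := fun hh => by
        rw [hh, zero_smul] at hz
        exact (P_isotropic hF (by norm_num) (P_pt hF one_mem_code i)).1 hz
      have := congrArg (lineIx hF 1) hz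
      rw [← ptv_p0 hF, lineIx_smul hF one_mem_code hne, ← one_smul F (ptv hF i),
        lineIx_smul hF one_mem_code one_ne_zero] at this
      exact (show AdjP p0 i from hi).ne this.symm
    have : k = 1 := smul_left_injective F hc0 (show k • _ = (1 : F) • _ by rw [one_smul]; exact hk1.symm)
    rw [this, one_smul] at hk
    exact hk
  have hperp : ∀ x, hm x (vec hF 3) = 0 → CfsgLib.Unitary.sv h.1 x = x := by
    have hbase : CfsgLib.Unitary.sv h.1 (vec hF 3) = vec hF 3 := h.2.1
    intro x hx
    have hz : coord (gvec hF) x = ∑ k : Fin 4, Pi.single k (coord (gvec hF) x k) :=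
      (Finset.univ_sum_single _).symm
    have key : ∀ u : Fin 4 → F, hermForm 4 F 2 u u = 0 →
        CfsgLib.Unitary.sv h.1 (lift4 (gvec hF) u) = lift4 (gvec hF) u := by
      intro u hu
      by_cases hu0 : u = 0
      · subst hu0
        simp [lift4, CfsgLib.Unitary.sv, Matrix.mulVec_zero]
      obtain ⟨i, k, hi, hk, rfl⟩ := coord0_onto hF hu hu0
      have hp : hm (ptv hF i) (vec hF 3) = 0 := hm_flip hF (near_hm hF (Or.inl hi))
      have hd := C.decomp_perp hF hp
      have hl : lift4 (gvec hF) (k • coord (gvec hF) (ptv hF i)) =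
          k • (ptv hF i + hm (ptv hF i) (fvec hF) • vec hF 3) := by
        conv_rhs => arg 2; arg 1; rw [hd]
        rw [add_assoc, vec_add_self hF, add_zero]
        simp [lift4, Finset.smul_sum, smul_smul]
      rw [hl, CfsgLib.Unitary.sv_smul, CfsgLib.Unitary.sv_add, CfsgLib.Unitary.sv_smul, h45 i hi,
        hbase]
    rw [C.decomp_perp hF hx, CfsgLib.Unitary.sv_add, CfsgLib.Unitary.sv_smul, hbase]
    congr 1
    refine add_closure hF (P := fun u => CfsgLib.Unitary.sv h.1 (lift4 (gvec hF) u) =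
      lift4 (gvec hF) u) ?_ ?_ key (coord (gvec hF) x)
    · exact key 0 (CfsgLib.Unitary.herm_zero_left _)
    · intro u v h1 h2
      have : lift4 (gvec hF) (u + v) = lift4 (gvec hF) u + lift4 (gvec hF) v := by
        simp [lift4, add_smul, Finset.sum_add_distrib]
      rw [this, CfsgLib.Unitary.sv_add, h1, h2]
  rcases eq_one_or_tv hF C hperp with h1 | h1
  · rw [show h = 1 from Subtype.ext h1, map_one]
  · exfalso
    have heq : h = el0 hF (Or.inr rfl : Near p0) := Subtype.ext (by
      rw [h1]; show _ = tv hF (ptv hF p0); rw [ptv_p0 hF])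
    rw [heq] at e'
    exact absurd ((chi0_el0 hF _).symm.trans e') (by decide)

theorem pair_surj (u : ↥(SU 4 F 2)) (s : Multiplicative (ZMod 2)) :
    ∃ h, res0 hF h = u ∧ chi0 hF h = s := by
  have hb : ∀ s : Multiplicative (ZMod 2), ∃ h, res0 hF h = 1 ∧ chi0 hF h = s := by
    intro s
    rcases (show s = 1 ∨ s = Multiplicative.ofAdd 1 by revert s; decide) with rfl | rfl
    · exact ⟨1, map_one _, map_one _⟩
    · exact ⟨_, res0_base hF, chi0_el0 hF _⟩
  have hs : Function.Surjective (res0 hF) := by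
    rw [← MonoidHom.range_eq_top, eq_top_iff,
      ← CfsgLib.Unitary.transvGroup_eq_top (card_sq hF) (n := 4) (fun h => absurd h.1 (by norm_num)),
      CfsgLib.Unitary.transvGroup, Subgroup.closure_le]
    rintro A ⟨u, c, hu, hA⟩
    rcases transv_coeff hF hu hA with rfl | rfl
    · exact one_mem _
    by_cases hu0 : u = 0
    · have : tv4 hF u = 1 := CfsgLib.Unitary.sv_ext fun x => by
        rw [sv_tv4 hF hu, hu0, smul_zero, add_zero, CfsgLib.Unitary.sv_one]
      rw [this]
      exact one_mem _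
    obtain ⟨i, k, hi, hk, rfl⟩ := coord0_onto hF hu hu0
    refine ⟨el0 hF (Or.inl hi), ?_⟩
    rw [res0_el0 hF hi]
    have hiso : hermForm 4 F 2 (coord (gvec hF) (ptv hF i)) (coord (gvec hF) (ptv hF i)) = 0 := by
      rw [← (coord_model hF).hm_coord hF (hm_flip hF (near_hm hF (Or.inl hi)))
        (hm_flip hF (near_hm hF (Or.inl hi)))]
      exact pt_isotropic hF one_mem_code i
    refine CfsgLib.Unitary.sv_ext fun x => ?_
    rw [sv_tv4 hF hu, sv_tv4 hF hiso, CfsgLib.Unitary.herm_smul_right, smul_smul,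
      show k ^ 2 * hermForm 4 F 2 x (coord (gvec hF) (ptv hF i)) * k =
        k ^ 3 * hermForm 4 F 2 x (coord (gvec hF) (ptv hF i)) by ring,
      F4.cube_eq_one hF hk, one_mul]
  obtain ⟨h1, rfl⟩ := hs u
  obtain ⟨h2, e1, e2⟩ := hb (s * (chi0 hF h1)⁻¹)
  exact ⟨h2 * h1, by rw [map_mul, e1, one_mul], by rw [map_mul, e2, inv_mul_cancel_right]⟩

theorem card_H0 : Nat.card ↥(H0 hF) = 51840 := by
  obtain ⟨f, hf⟩ : ∃ f : ↥(H0 hF) →* ↥(SU 4 F 2) × Multiplicative (ZMod 2),
      f = (res0 hF).prod (chi0 hF) := ⟨_, rfl⟩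
  have hi : Function.Injective f := by
    rw [← MonoidHom.ker_eq_bot_iff, eq_bot_iff]
    intro h hh
    rw [hf, MonoidHom.mem_ker, MonoidHom.prod_apply, Prod.mk_eq_one] at hh
    exact Subgroup.mem_bot.2 (pair_inj hF hh.1 hh.2)
  have hs : Function.Surjective f := by
    rintro ⟨u, s⟩
    obtain ⟨h, h1, h2⟩ := pair_surj hF u s
    exact ⟨h, by rw [hf, MonoidHom.prod_apply, h1, h2]⟩
  rw [Nat.card_congr (Equiv.ofBijective f ⟨hi, hs⟩), Nat.card_prod,
    Pair25.card_SU_four hF, show Nat.card (Multiplicative (ZMod 2)) = 2 by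
      rw [Nat.card_eq_fintype_card]; rfl]

/-- homomorphisms to the pair lift to the stabilizer -/
theorem exists_lift {A : Type*} [Group A] (u : A →* ↥(SU 4 F 2))
    (s : A →* Multiplicative (ZMod 2)) :
    ∃ θ : A →* ↥(H0 hF), ∀ x, res0 hF (θ x) = u x ∧ chi0 hF (θ x) = s x := by
  choose t ht using fun x => pair_surj hF (u x) (s x)
  refine ⟨MonoidHom.mk' t fun x y => ?_, ht⟩
  refine mul_inv_eq_one.1 (pair_inj hF ?_ ?_)
  · rw [map_mul, map_inv, map_mul, (ht _).1, (ht _).1, (ht _).1, map_mul, mul_inv_cancel]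
  · rw [map_mul, map_inv, map_mul, (ht _).2, (ht _).2, (ht _).2, map_mul, mul_inv_cancel]

end field

end CfsgLib.Quad81
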