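import Mathlib
import Cfsg.Agent.ThreeTransp.Quad81.Coords
import Cfsg.Agent.ThreeTransp.Quad81.Model

/-!
Type M(24): the four-sets commuting with a base four-set as the 45 points orthogonal to the base
point among the 126.
-/

set_option autoImplicit false

namespace CfsgLib.Quad81

open Cfsg CfsgLib.U43 CfsgLib.ThreeTransp CfsgLib.ThreeTransp.PSU62 CfsgLib.ThreeTransp.U62Point

section model

variable {F : Type} [Field F] [Fintype F] (hF : Fintype.card F = 4)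
include hF

theorem tv4_zero : tv4 hF (0 : Fin 4 → F) = 1 := CfsgLib.Unitary.sv_ext fun x => by
  rw [sv_tv4 hF (CfsgLib.Unitary.herm_zero_left _), smul_zero, add_zero, CfsgLib.Unitary.sv_one]

theorem tv4_smul {v : Fin 4 → F} (hv : hermForm 4 F 2 v v = 0) {s : F} (hs : s ≠ 0) :
    tv4 hF (s • v) = tv4 hF v := CfsgLib.Unitary.sv_ext fun x => by
  rw [sv_tv4 hF hv, sv_tv4 hF (by
    rw [CfsgLib.Unitary.herm_smul_left, CfsgLib.Unitary.herm_smul_right, hv, mul_zero, mul_zero]),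
    CfsgLib.Unitary.herm_smul_right, smul_smul,
    show s ^ 2 * hermForm 4 F 2 x v * s = s ^ 3 * hermForm 4 F 2 x v by ring,
    F4.cube_eq_one hF hs, one_mul]

theorem top_eq_tv4 (K : Subgroup ↥(SU 4 F 2))
    (h : ∀ v : Fin 4 → F, hermForm 4 F 2 v v = 0 → v ≠ 0 → tv4 hF v ∈ K) : K = ⊤ := by
  rw [eq_top_iff, ← CfsgLib.Unitary.transvGroup_eq_top (card_sq hF) (n := 4)
    (fun h => absurd h.1 (by norm_num)), CfsgLib.Unitary.transvGroup, Subgroup.closure_le]
  rintro A ⟨v, c, hv, hA⟩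
  rcases transv_coeff hF hv hA with rfl | rfl
  · exact one_mem _
  by_cases hv0 : v = 0
  · rw [hv0, tv4_zero hF]; exact one_mem _
  exact h v hv hv0

/-- only the identity fixes every isotropic line -/
theorem eq_one_of_lines {A : ↥(SU 4 F 2)}
    (h : ∀ v : Fin 4 → F, hermForm 4 F 2 v v = 0 → v ≠ 0 →
      ∃ c : F, CfsgLib.Unitary.sv A v = c • v) : A = 1 := by
  have hK : Subgroup.centralizer ({A} : Set ↥(SU 4 F 2)) = ⊤ := by
    refine top_eq_tv4 hF _ fun v hv hv0 => Subgroup.mem_centralizer_singleton_iff.2 ?_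
    obtain ⟨c, hc⟩ := h v hv hv0
    have hc0 : c ≠ 0 := by
      rintro rfl
      rw [zero_smul] at hc
      refine hv0 ?_
      rw [← CfsgLib.Unitary.sv_inv_sv A v, hc]
      exact Matrix.mulVec_zero _
    have e := conj_tv4 hF A hv
    rw [hc, tv4_smul hF hv hc0] at e
    exact (mul_inv_eq_iff_eq_mul.1 e).symm
  have hcen : A ∈ Subgroup.center ↥(SU 4 F 2) := Subgroup.mem_center_iff.2 fun B =>
    Subgroup.mem_centralizer_singleton_iff.1 (hK ▸ Subgroup.mem_top B)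
  rwa [Pair25.center_SU_four hF, Subgroup.mem_bot] at hcen

theorem rho0_p0 (h : ↥(H0 hF)) : rho0 hF h p0 = p0 := by
  show lineIx hF 1 (CfsgLib.Unitary.sv h.1 (ptv hF p0)) = p0
  rw [ptv_p0 hF, (h.2.1 : CfsgLib.Unitary.sv h.1 (vec hF 3) = vec hF 3), ← ptv_p0 hF,
    ← one_smul F (ptv hF p0)]
  exact lineIx_smul hF one_mem_code one_ne_zero p0

theorem rho0_adj (h : ↥(H0 hF)) (i j : Fin 126) :
    AdjP (rho0 hF h i) (rho0 hF h j) ↔ AdjP i j :=
  rho_adj hF (Subgroup.inclusion inf_le_right h) i j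

theorem rho0_nb0 (h : ↥(H0 hF)) {i : Fin 126} (hi : nb0 i = true) : nb0 (rho0 hF h i) = true := by
  have := (rho0_adj hF h p0 i).2 hi
  rwa [rho0_p0 hF h] at this

theorem res0_coord (h : ↥(H0 hF)) {i : Fin 126} (hi : nb0 i = true) :
    ∃ b : F, b ≠ 0 ∧ CfsgLib.Unitary.sv (res0 hF h) (coord (gvec hF) (ptv hF i)) =
      b • coord (gvec hF) (ptv hF (rho0 hF h i)) := by
  obtain ⟨b, hb, eb⟩ := lineIx_spec hF one_mem_code ((h.2.2 (pt hF 1 i)).2 (P_pt hF one_mem_code i))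
  refine ⟨b, hb, ?_⟩
  rw [show res0 hF h = res hF (coord_model hF) (Subgroup.inclusion inf_le_left h) from rfl,
    res_coord hF (coord_model hF) _ (hm_flip hF (near_hm hF (Or.inl hi))), ← coord_smul]
  exact congrArg _ eb

theorem pair_ext {g h : ↥(H0 hF)} (e : res0 hF g = res0 hF h) (e' : chi0 hF g = chi0 hF h) :
    g = h :=
  mul_inv_eq_one.1 (pair_inj hF (by rw [map_mul, map_inv, e, mul_inv_cancel])
    (by rw [map_mul, map_inv, e', mul_inv_cancel]))

theorem coord0_ne {i : Fin 126} (hi : nb0 i = true) : coord (gvec hF) (ptv hF i) ≠ 0 := by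
  intro h0
  have hp : hm (ptv hF i) (vec hF 3) = 0 := hm_flip hF (near_hm hF (Or.inl hi))
  have hz : ptv hF i = hm (ptv hF i) (fvec hF) • vec hF 3 := (coord_model hF).eq_smul hF hp h0
  have hne : hm (ptv hF i) (fvec hF) ≠ 0 := fun hh => by
    rw [hh, zero_smul] at hz
    exact (P_isotropic hF (by norm_num) (P_pt hF one_mem_code i)).1 hz
  have := congrArg (lineIx hF 1) hz
  rw [← ptv_p0 hF, lineIx_smul hF one_mem_code hne, ← one_smul F (ptv hF i),
    lineIx_smul hF one_mem_code one_ne_zero] at this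
  exact (show AdjP p0 i from hi).ne this.symm

/-- the group of the reflections is that of the stabilizer of the set of points -/
theorem stab_p0 {τ : Equiv.Perm (Fin 126)} (hτ : τ ∈ Subgroup.closure (Set.range rp))
    (h0 : τ p0 = p0) : ∃ h : ↥(H0 hF), rho0 hF h = τ := by
  have hle : Subgroup.closure (Set.range rp) ≤ (rho hF one_mem_code).range := by
    rw [Subgroup.closure_le]
    rintro _ ⟨i, rfl⟩
    exact ⟨_, rho_rp hF i⟩
  obtain ⟨g, rfl⟩ := hle hτ
  obtain ⟨b, hb, eb⟩ := lineIx_spec hF one_mem_code ((g.2 (pt hF 1 p0)).2 (P_pt hF one_mem_code p0))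
  rw [show lineIx hF 1 (CfsgLib.Unitary.sv (g : ↥(SU 6 F 2)) (pt hF 1 p0)) = p0 from h0] at eb
  change CfsgLib.Unitary.sv (g : ↥(SU 6 F 2)) (ptv hF p0) = b • ptv hF p0 at eb
  obtain ⟨g', hg'⟩ : ∃ g' : ↥(stabP hF 1),
      g' = g * ⟨scal hF (Units.mk0 b hb)⁻¹, scal_mem_stabP hF one_mem_code _⟩ := ⟨_, rfl⟩
  have hv : (g' : ↥(SU 6 F 2)) ∈ stabVec (vec hF 3) := by
    show CfsgLib.Unitary.sv (g' : ↥(SU 6 F 2)) (vec hF 3) = vec hF 3
    rw [hg', Subgroup.coe_mul, CfsgLib.Unitary.sv_mul, sv_scal, CfsgLib.Unitary.sv_smul,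
      ← ptv_p0 hF, eb, smul_smul, Units.val_inv_eq_inv_val, Units.val_mk0, inv_mul_cancel₀ hb,
      one_smul]
  refine ⟨⟨g', hv, g'.2⟩, ?_⟩
  show rho hF one_mem_code g' = _
  have h1 : rho hF one_mem_code
      ⟨scal hF (Units.mk0 b hb)⁻¹, scal_mem_stabP hF one_mem_code _⟩ = 1 :=
    (rho_eq_one hF one_mem_code).2 (by rw [← scal_range hF]; exact ⟨_, rfl⟩)
  rw [hg', map_mul, h1, mul_one]

end model

universe u

variable {G : Type u} [Group G] {D : Set G}

/-- the blocks near the base -/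
def Nr {z : G} (B0 B : Om D z) : Prop := B = B0 ∨ Adj B0 B

/-- The four-sets near the base four-set as points. -/
structure Loc [Finite G] (hc : Ctx D) {z : G} (hz : IsQuad D z) (a b c d : G)
    (haT : a ∈ commMembers53 D z) : Type u where
  σ : ↥(fix4 z a b c d) →* Equiv.Perm (Fin 126)
  ι : Om D z → Fin 126
  base : ι (qd haT) = p0
  near : ∀ B, Adj (qd haT) B → nb0 (ι B) = true
  inj : ∀ B B', Nr (qd haT) B → Nr (qd haT) B' → ι B = ι B' → B = B'
  onto : ∀ i, nb0 i = true → ∃ B, Adj (qd haT) B ∧ ι B = i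
  adj : ∀ B B', Nr (qd haT) B → Nr (qd haT) B' → (Adj B B' ↔ AdjP (ι B) (ι B'))
  fix_base : ∀ k : ↥(fix4 z a b c d), act hc hz k.1 (qd haT) = qd haT
  equiv : ∀ (k : ↥(fix4 z a b c d)) B, Nr (qd haT) B → ι (act hc hz k.1 B) = σ k (ι B)
  el : ∀ (k : ↥(fix4 z a b c d)) (x : G) (hx : x ∈ commMembers53 D z),
    ((k : ↥(Subgroup.centralizer ({z} : Set G))) : G) = x → x = a ∨ Adj (qd haT) (qd hx) →
      σ k = rp (ι (qd hx))
  lift : ∀ x (hx : x ∈ commMembers53 D z), x = a ∨ Adj (qd haT) (qd hx) →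
    ∃ k : ↥(fix4 z a b c d), k.1 = mel hc hx
  fixp : ∀ k, σ k p0 = p0
  adjσ : ∀ k i j, AdjP (σ k i) (σ k j) ↔ AdjP i j
  card : Nat.card ↥(fix4 z a b c d) = 106168320
  range : Nat.card ↥σ.range = 51840
  stab : ∀ τ ∈ Subgroup.closure (Set.range rp), τ p0 = p0 → τ ∈ σ.range
  ker : ∀ k, σ k = 1 → ((k : ↥(Subgroup.centralizer ({z} : Set G))) : G) ∈ pairSub D z
  small : ∀ k, (∀ i, nb0 i = true → σ k i = i) → σ k = 1 ∨ σ k = rp p0
  outer : ∃ g, act hc hz g (qd haT) = qd haT ∧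
    ∀ k : ↥(fix4 z a b c d), ¬ ∀ B, Adj (qd haT) B → ι (act hc hz g B) = σ k (ι B)

section m24

variable [Finite G] (hc : Ctx D)
include hc

theorem pairSub_le_ker (φ : G →* Multiplicative (ZMod 2)) (hφ : ∀ x ∈ D, φ x ≠ 1) {z : G}
    {w : G} (hw : w ∈ pairSub D z) : φ w = 1 := by
  refine (Subgroup.closure_le (K := φ.ker)).2 ?_ hw
  rintro w ⟨e, -, x, hx, y, hy, rfl⟩
  rw [SetLike.mem_coe, MonoidHom.mem_ker, map_mul]
  have h2 : ∀ t : Multiplicative (ZMod 2), t ≠ 1 → t = Multiplicative.ofAdd 1 := by decide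
  rw [h2 _ (hφ x (blk_mem hc hx).1), h2 _ (hφ y (blk_mem hc hy).1)]
  decide

set_option maxHeartbeats 1000000 in
theorem exists_loc (φ : G →* Multiplicative (ZMod 2)) (hφ : ∀ x ∈ D, φ x ≠ 1) {z a b c d : G}
    (h : Clique4_53 D a b c d) (hzp : a * b * c * d = z) (hz : IsQuad D z)
    (haT : a ∈ commMembers53 D z) : Nonempty (Loc hc hz a b c d haT) := by
  classical
  have hD := hc.hG.1
  obtain ⟨C⟩ := exists_coords hc φ hφ h hzp
  have hF := C.hF
  have h2 : ∀ t : Multiplicative (ZMod 2), t ≠ 1 → t = Multiplicative.ofAdd 1 := by decide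
  -- the blocks adjacent to the base
  have hmemN : ∀ {B : Om D z}, Adj (qd haT) B → ∀ {x}, x ∈ B.1 → x ∈ nbS D a b c d := by
    intro B hB x hx
    obtain ⟨hxT, rfl⟩ := eq_qd hc B hx
    have hne : x ∉ blk D z a := fun hh => hB.1 (Subtype.ext (blk_congr hc hh).symm)
    have hall : ∀ y ∈ blk D z a, Commute y x := fun y hy => hB.2 y hy x hx
    rw [blk_eq hc h hzp] at hne hall
    simp only [Set.mem_insert_iff, Set.mem_singleton_iff, not_or] at hne
    exact ⟨⟨⟨⟨hxT.1, hne.1, hall a (by simp)⟩, hxT.1, hne.2.1, hall b (by simp)⟩,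
      hxT.1, hne.2.2.1, hall c (by simp)⟩, hxT.1, hne.2.2.2, hall d (by simp)⟩
  have hnbsA : ∀ {x} (hx : x ∈ nbS D a b c d),
      Adj (qd haT) (qd (nbS_mem_T hc h hzp hx)) := by
    intro x hx
    have hne : qd haT ≠ qd (nbS_mem_T hc h hzp hx) := fun e => nbS_not_base hc h hzp hx (by
      have e' : blk D z a = blk D z x := congrArg Subtype.val e
      rw [e']; exact blk_self hc hz (nbS_mem_T hc h hzp hx))
    exact (adj_qd hc hz haT _ hne).2 hx.1.1.1.2.2
  have huniq : ∀ {x : G}, x ∈ nbS D a b c d → ∀ {i j : Fin 126}, nb0 i = true → nb0 j = true →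
      (∃ t : C.F, t ≠ 0 ∧ C.u x = t • coord (gvec hF) (ptv hF i)) →
      (∃ t : C.F, t ≠ 0 ∧ C.u x = t • coord (gvec hF) (ptv hF j)) → i = j := by
    rintro x hx i j hi hj ⟨s, hs, es⟩ ⟨t, ht, et⟩
    refine coord0_inj hF hi hj (k := t⁻¹ * s) (mul_ne_zero (inv_ne_zero ht) hs) ?_
    rw [mul_smul, ← es, et, inv_smul_smul₀ ht]
  have hex : ∀ {x}, x ∈ nbS D a b c d → ∃ i, nb0 i = true ∧
      ∃ t : C.F, t ≠ 0 ∧ C.u x = t • coord (gvec hF) (ptv hF i) := by
    intro x hx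
    obtain ⟨i, t, hi, ht, e⟩ := coord0_onto hF (C.iso x hx).1 (C.iso x hx).2
    exact ⟨i, hi, t, ht, e⟩
  obtain ⟨ι, hι⟩ : ∃ ι : Om D z → Fin 126, ∀ B, ι B =
      if hB : ∃ x ∈ B.1, x ∈ nbS D a b c d then (hex hB.choose_spec.2).choose else p0 :=
    ⟨_, fun _ => rfl⟩
  have hιbase : ι (qd haT) = p0 := by
    rw [hι, dif_neg]
    rintro ⟨x, hx, hxn⟩
    exact nbS_not_base hc h hzp hxn hx
  have hιspec : ∀ {B : Om D z}, Adj (qd haT) B → ∀ {x}, x ∈ B.1 →
      nb0 (ι B) = true ∧ ∃ t : C.F, t ≠ 0 ∧ C.u x = t • coord (gvec hF) (ptv hF (ι B)) := by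
    intro B hB x hx
    have hBx : ∃ y ∈ B.1, y ∈ nbS D a b c d := ⟨x, hx, hmemN hB hx⟩
    rw [hι, dif_pos hBx]
    obtain ⟨hi, t, ht, e⟩ := (hex hBx.choose_spec.2).choose_spec
    refine ⟨hi, ?_⟩
    obtain ⟨hxT, hBe⟩ := eq_qd hc B hx
    obtain ⟨hyT, hBy⟩ := eq_qd hc B hBx.choose_spec.1
    obtain ⟨k, hk, ek⟩ := (C.blk_iff _ hBx.choose_spec.2 x (hmemN hB hx)).1
      (congrArg Subtype.val (hBy.symm.trans hBe))
    exact ⟨k * t, mul_ne_zero hk ht, ek.trans ((congrArg (k • ·) e).trans (smul_smul _ _ _))⟩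
  have hιeq : ∀ {B : Om D z}, Adj (qd haT) B → ∀ {x}, x ∈ B.1 → ∀ {i}, nb0 i = true →
      (∃ t : C.F, t ≠ 0 ∧ C.u x = t • coord (gvec hF) (ptv hF i)) → ι B = i :=
    fun hB _ hx _ hi e => huniq (hmemN hB hx) (hιspec hB hx).1 hi (hιspec hB hx).2 e
  -- the homomorphism
  obtain ⟨θ, hθ⟩ := exists_lift hF C.Φ
    (φ.comp ((Subgroup.centralizer ({z} : Set G)).subtype.comp (fix4 z a b c d).subtype))
  have hθu : ∀ k, res0 hF (θ k) = C.Φ k := fun k => (hθ k).1
  have hθs : ∀ k, chi0 hF (θ k) = φ ((k : ↥(Subgroup.centralizer ({z} : Set G))) : G) :=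
    fun k => (hθ k).2
  obtain ⟨σ, hσ⟩ : ∃ σ : ↥(fix4 z a b c d) →* Equiv.Perm (Fin 126), σ = (rho0 hF).comp θ :=
    ⟨_, rfl⟩
  have hσv : ∀ k, σ k = rho0 hF (θ k) := fun k => by rw [hσ]; rfl
  have hin : ∀ {x} (hx : x ∈ nbS D a b c d), mel hc (nbS_mem_T hc h hzp hx) ∈ fix4 z a b c d :=
    fun hx => mem_fix4.2 ⟨hx.1.1.1.2.2.symm, hx.1.1.2.2.2.symm, hx.1.2.2.2.symm, hx.2.2.2.symm⟩
  have hain : mel hc haT ∈ fix4 z a b c d :=
    mem_fix4.2 ⟨Commute.refl _, h.hb.2.2, h.hc.1.2.2, h.hd.1.1.2.2⟩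
  have hlift : ∀ x (hx : x ∈ commMembers53 D z), x = a ∨ Adj (qd haT) (qd hx) →
      ∃ k : ↥(fix4 z a b c d), k.1 = mel hc hx := by
    rintro x hx (rfl | hA)
    · exact ⟨⟨_, hain⟩, rfl⟩
    · exact ⟨⟨_, hin (hmemN hA (blk_self hc hz hx))⟩, rfl⟩
  have hel : ∀ (k : ↥(fix4 z a b c d)) (x : G) (hx : x ∈ commMembers53 D z),
      ((k : ↥(Subgroup.centralizer ({z} : Set G))) : G) = x → x = a ∨ Adj (qd haT) (qd hx) →
        ∃ hn : Near (ι (qd hx)), θ k = el0 hF hn := by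
    intro k x hx hk hor
    have hs : chi0 hF (θ k) = Multiplicative.ofAdd 1 := by rw [hθs, hk]; exact h2 _ (hφ x hx.1)
    rcases hor with rfl | hA
    · refine ⟨Or.inr hιbase, pair_ext hF ?_ (hs.trans (chi0_el0 hF _).symm)⟩
      rw [hθu, C.base k hk]
      have e : el0 hF (Or.inr hιbase : Near (ι (qd hx))) = el0 hF (Or.inr rfl : Near p0) :=
        Subtype.ext (by show tv hF (ptv hF (ι (qd hx))) = _; rw [hιbase]; rfl)
      rw [e, res0_base hF]
    · have hxn := hmemN hA (blk_self hc hz hx)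
      obtain ⟨hi, t, ht, e⟩ := hιspec hA (blk_self hc hz hx)
      refine ⟨Or.inl hi, pair_ext hF ?_ (hs.trans (chi0_el0 hF _).symm)⟩
      have hiso : hermForm 4 C.F 2 (coord (gvec hF) (ptv hF (ι (qd hx))))
          (coord (gvec hF) (ptv hF (ι (qd hx)))) = 0 := by
        rw [← (coord_model hF).hm_coord hF (hm_flip hF (near_hm hF (Or.inl hi)))
          (hm_flip hF (near_hm hF (Or.inl hi)))]
        exact pt_isotropic hF one_mem_code _
      rw [hθu, C.el k (hk ▸ hxn), hk, res0_el0 hF hi, e, tv4_smul hF hiso ht]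
  -- surjectivity
  have hΦs : C.Φ.range = ⊤ := top_eq_tv4 hF _ fun v hv hv0 => by
    obtain ⟨e, he, s, hs, hse⟩ := C.onto v hv hv0
    refine ⟨⟨_, hin he⟩, ?_⟩
    rw [C.el _ (by exact he)]
    show tv4 hF (C.u e) = _
    rw [hse, tv4_smul hF hv hs]
  have hθsurj : Function.Surjective θ := by
    intro g
    obtain ⟨k, hk⟩ : res0 hF g ∈ C.Φ.range := hΦs ▸ Subgroup.mem_top _
    obtain ⟨_, hka⟩ := hel ⟨_, hain⟩ a haT rfl (Or.inl rfl)
    by_cases hs : chi0 hF (θ k) = chi0 hF g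
    · exact ⟨k, pair_ext hF ((hθu k).trans hk) hs⟩
    · refine ⟨k * ⟨_, hain⟩, pair_ext hF ?_ ?_⟩
      · rw [map_mul, map_mul, hθu, hθu, C.base ⟨_, hain⟩ rfl, mul_one, hk]
      · rw [map_mul, map_mul, hka, chi0_el0 hF]
        revert hs
        generalize chi0 hF (θ k) = s
        generalize chi0 hF g = t
        revert s t
        decide
  have hfix : ∀ k : ↥(fix4 z a b c d), act hc hz k.1 (qd haT) = qd haT := by
    intro k
    refine Subtype.ext ?_
    show cj _ (blk D z a) = blk D z a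
    rw [blk_conj hc hz k.1.2 haT, (mem_fix4.1 k.2).1.eq, mul_inv_cancel_right]
  have hadjk : ∀ (k : ↥(fix4 z a b c d)) B,
      Adj (qd haT) B → Adj (qd haT) (act hc hz k.1 B) := by
    intro k B hB
    have := (act_adj hc hz k.1).2 hB
    rwa [hfix] at this
  have hequiv : ∀ (k : ↥(fix4 z a b c d)) B, Adj (qd haT) B →
      ι (act hc hz k.1 B) = σ k (ι B) := by
    intro k B hB
    obtain ⟨x, hx⟩ := nonempty_blk hc hz B
    obtain ⟨hi, t, ht, e⟩ := hιspec hB hx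
    obtain ⟨s, hs, hse⟩ := C.conj k x (hmemN hB hx)
    obtain ⟨r, hr, hre⟩ := res0_coord hF (θ k) hi
    rw [hθu] at hre
    refine hιeq (hadjk k B hB) (act_mem hc hz hx) (by rw [hσv]; exact rho0_nb0 hF _ hi) ?_
    refine ⟨s * t * r, mul_ne_zero (mul_ne_zero hs ht) hr, ?_⟩
    rw [hse, e, CfsgLib.Unitary.sv_smul, hre, smul_smul, smul_smul, hσv, mul_assoc]
  have hkerσ : ∀ k, σ k = 1 → θ k = 1 := fun k hk => rho0_inj hF ((hσv k).symm.trans hk)
  refine ⟨{
    σ := σ, ι := ι, base := hιbase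
    near := fun B hB => ?_, inj := ?_, onto := fun i hi => ?_, adj := ?_, fix_base := hfix
    equiv := ?_, el := fun k x hx hk hor => ?_, lift := hlift
    fixp := fun k => by rw [hσv]; exact rho0_p0 hF _
    adjσ := fun k i j => by rw [hσv]; exact rho0_adj hF _ i j
    card := ?_, range := ?_, stab := fun τ hτ h0 => ?_, ker := fun k hk => ?_
    small := fun k hk => ?_, outer := ?_ }⟩
  · obtain ⟨x, hx⟩ := nonempty_blk hc hz B
    exact (hιspec hB hx).1
  · have hne : ∀ {B}, Adj (qd haT) B → ι B ≠ p0 := fun {B} hB => by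
      obtain ⟨x, hx⟩ := nonempty_blk hc hz B
      exact (AdjP.ne (show AdjP p0 (ι B) from (hιspec hB hx).1)).symm
    rintro B B' (rfl | hB) (rfl | hB') e
    · rfl
    · exact absurd (e.symm.trans hιbase) (hne hB')
    · exact absurd (e.trans hιbase) (hne hB)
    obtain ⟨x, hx⟩ := nonempty_blk hc hz B
    obtain ⟨y, hy⟩ := nonempty_blk hc hz B'
    obtain ⟨-, t, ht, et⟩ := hιspec hB hx
    obtain ⟨-, s, hs, es⟩ := hιspec hB' hy
    obtain ⟨_, eB⟩ := eq_qd hc B hx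
    obtain ⟨_, eB'⟩ := eq_qd hc B' hy
    rw [eB, eB']
    refine Subtype.ext ((C.blk_iff x (hmemN hB hx) y (hmemN hB' hy)).2
      ⟨s * t⁻¹, mul_ne_zero hs (inv_ne_zero ht), ?_⟩)
    rw [et, es, e, smul_smul, inv_mul_cancel_right₀ ht]
  · obtain ⟨v, hv⟩ : ∃ v, coord (gvec hF) (ptv hF i) = v := ⟨_, rfl⟩
    have hviso : hermForm 4 C.F 2 v v = 0 := by
      rw [← hv, ← (coord_model hF).hm_coord hF (hm_flip hF (near_hm hF (Or.inl hi)))
          (hm_flip hF (near_hm hF (Or.inl hi)))]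
      exact pt_isotropic hF one_mem_code _
    have hv0 : v ≠ 0 := hv ▸ coord0_ne hF hi
    obtain ⟨e, he, s, hs, hse⟩ := C.onto v hviso hv0
    exact ⟨_, hnbsA he, hιeq (hnbsA he) (blk_self hc hz (nbS_mem_T hc h hzp he)) hi ⟨s, hs, hv ▸ hse⟩⟩
  · rintro B B' (rfl | hB) (rfl | hB')
    · exact ⟨fun e => absurd rfl e.1, fun e => absurd rfl e.ne⟩
    · obtain ⟨y, hy⟩ := nonempty_blk hc hz B'
      rw [hιbase]
      exact ⟨fun _ => (hιspec hB' hy).1, fun _ => hB'⟩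
    · obtain ⟨x, hx⟩ := nonempty_blk hc hz B
      rw [hιbase]
      exact ⟨fun _ => (show AdjP p0 (ι B) from (hιspec hB hx).1).symm, fun _ => hB.symm⟩
    obtain ⟨x, hx⟩ := nonempty_blk hc hz B
    obtain ⟨y, hy⟩ := nonempty_blk hc hz B'
    obtain ⟨hi, t, ht, et⟩ := hιspec hB hx
    obtain ⟨hj, s, hs, es⟩ := hιspec hB' hy
    have key : hm (ptv hF (ι B)) (ptv hF (ι B')) = 0 ↔ Commute x y := by
      rw [C.comm x (hmemN hB hx) y (hmemN hB' hy), et, es, CfsgLib.Unitary.herm_smul_left,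
        CfsgLib.Unitary.herm_smul_right, (coord_model hF).hm_coord hF
          (hm_flip hF (near_hm hF (Or.inl hi))) (hm_flip hF (near_hm hF (Or.inl hj)))]
      simp [ht, hs]
    by_cases hBB : B = B'
    · subst hBB
      exact ⟨fun e => absurd rfl e.1, fun e => absurd rfl e.ne⟩
    have hne : ι B ≠ ι B' := fun e => hBB (by
      obtain ⟨_, eB⟩ := eq_qd hc B hx
      obtain ⟨_, eB'⟩ := eq_qd hc B' hy
      rw [eB, eB']
      refine Subtype.ext ((C.blk_iff x (hmemN hB hx) y (hmemN hB' hy)).2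
        ⟨s * t⁻¹, mul_ne_zero hs (inv_ne_zero ht), ?_⟩)
      rw [et, es, e, smul_smul, inv_mul_cancel_right₀ ht])
    rw [adj_iff hc hz hBB hx hy, adjP_iff hF, ← key]
    exact ⟨fun e => ⟨hne, e⟩, fun e => e.2⟩
  · rintro k B (rfl | hB)
    · rw [hfix, hιbase, hσv, rho0_p0 hF]
    · exact hequiv k B hB
  · obtain ⟨hn, e⟩ := hel k x hx hk hor
    rw [hσv, e, rho0_el0 hF]
  · have hle : Subgroup.centralizer ({a} : Set G) ⊓ Subgroup.centralizer {b} ⊓
        Subgroup.centralizer {c} ⊓ Subgroup.centralizer {d} ≤ Subgroup.centralizer {z} := by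
      intro g hg
      simp only [Subgroup.mem_inf, Subgroup.mem_centralizer_singleton_iff] at hg ⊢
      rw [← hzp]
      exact (((show Commute g a from hg.1.1.1).mul_right hg.1.1.2).mul_right hg.1.2).mul_right hg.2 |>.eq
    rw [fix4, Nat.card_congr (Subgroup.subgroupOfEquivOfLe hle).toEquiv,
      (m24_card_quad53 hc.hG hc.hp hc.h24 h.ha h.hb h.hc h.hd).2.2]
    norm_num
  · have hr : σ.range = (rho0 hF).range := by
      rw [hσ, MonoidHom.range_comp, MonoidHom.range_eq_top.2 hθsurj, MonoidHom.range_eq_map]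
    rw [hr, Nat.card_congr (MonoidHom.ofInjective (f := rho0 hF) ((injective_iff_map_eq_one _).2
      fun g hg => rho0_inj hF hg)).symm.toEquiv, card_H0 hF]
  · obtain ⟨g, rfl⟩ := stab_p0 hF hτ h0
    obtain ⟨k, rfl⟩ := hθsurj g
    exact ⟨k, hσv k⟩
  · have h1 := hkerσ k hk
    have hu : C.Φ k = 1 := by rw [← hθu, h1, map_one]
    have hs : φ ((k : ↥(Subgroup.centralizer ({z} : Set G))) : G) = 1 := by
      rw [← hθs, h1, map_one]
    refine (C.ker k hu).resolve_right fun e => ?_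
    have := pairSub_le_ker hc φ hφ e
    rw [map_mul, hs, one_mul] at this
    exact hφ a h.ha this
  · have hres : res0 hF (θ k) = 1 := eq_one_of_lines hF fun v hv hv0 => by
      obtain ⟨i, t, hi, ht, rfl⟩ := coord0_onto hF hv hv0
      obtain ⟨r, -, hre⟩ := res0_coord hF (θ k) hi
      rw [← hσv, hk i hi] at hre
      exact ⟨r, by rw [CfsgLib.Unitary.sv_smul, hre, smul_comm]⟩
    rw [hσv]
    rcases (show chi0 hF (θ k) = 1 ∨ chi0 hF (θ k) = Multiplicative.ofAdd 1 by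
      generalize chi0 hF (θ k) = s
      revert s
      decide) with hs | hs
    · left
      rw [pair_inj hF hres hs, map_one]
    · right
      exact (congrArg (rho0 hF) (pair_ext hF (h := el0 hF (Or.inr rfl : Near p0)) (hres.trans (res0_base hF).symm)
        (hs.trans (chi0_el0 hF _).symm))).trans (rho0_el0 hF _)
  · obtain ⟨g, g1, g2, g3, g4, hg⟩ := C.swap
    have hgz : g ∈ Subgroup.centralizer ({z} : Set G) := by
      rw [Subgroup.mem_centralizer_singleton_iff, ← mul_inv_eq_iff_eq_mul, ← hzp,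
        conj_prod4_53, g1, g2, g3, g4]
      exact (swap34 h).2
    have hg0 : act hc hz ⟨g, hgz⟩ (qd haT) = qd haT := by
      refine Subtype.ext ?_
      show cj g (blk D z a) = blk D z a
      rw [blk_conj hc hz hgz haT, g1]
    refine ⟨⟨g, hgz⟩, hg0, fun k hk => hg (C.Φ k) fun e he => ?_⟩
    have hB := hnbsA he
    have hgB : Adj (qd haT) (act hc hz ⟨g, hgz⟩ (qd (nbS_mem_T hc h hzp he))) := by
      have := (act_adj hc hz ⟨g, hgz⟩).2 hB
      rwa [hg0] at this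
    obtain ⟨s, hs, hse⟩ := C.conj k e he
    obtain ⟨-, t, ht, et⟩ := hιspec hgB (act_mem hc hz (blk_self hc hz (nbS_mem_T hc h hzp he)))
    have hkB := hadjk k _ hB
    obtain ⟨-, r, hr, er⟩ := hιspec hkB (act_mem hc hz (blk_self hc hz (nbS_mem_T hc h hzp he)))
    rw [hk _ hB, ← hequiv k _ hB] at et
    have hiso : hermForm 4 C.F 2 (CfsgLib.Unitary.sv (C.Φ k) (C.u e))
        (CfsgLib.Unitary.sv (C.Φ k) (C.u e)) = 0 :=
      CfsgLib.Unitary.herm_sv_self_eq_zero _ (C.iso e he).1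
    rw [conj_tv4 hF _ (C.iso e he).1]
    have heq : C.u (g * e * g⁻¹) = (t * r⁻¹ * s) • CfsgLib.Unitary.sv (C.Φ k) (C.u e) := by
      rw [mul_smul, ← hse, er, smul_smul, inv_mul_cancel_right₀ hr]
      exact et
    rw [heq, tv4_smul hF hiso (mul_ne_zero (mul_ne_zero ht (inv_ne_zero hr)) hs)]

end m24

end CfsgLib.Quad81
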