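import Mathlib
import Cfsg.Agent.ThreeTransp.Quad81.Local
import Cfsg.Agent.ThreeTransp.SrgCount
import Cfsg.Agent.ThreeTransp.M22Primitive

/-!
Type M(24): there are 126 four-sets with a given product, any two nonadjacent ones with 18 common
neighbours, and the fixator of one is transitive on the 80 nonadjacent ones.
-/

set_option autoImplicit false

namespace CfsgLib.Quad81

open Cfsg CfsgLib.ThreeTransp

universe u

theorem step_closed {P : Fin 126 → Prop} {gens R : List (Fin 126)} (hR : ∀ i ∈ R, P i)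
    (hs : ∀ x ∈ gens, ∀ i, P i → P (rfn x i)) : ∀ i ∈ step gens R, P i := by
  intro i hi
  rw [step, List.mem_eraseDups, List.mem_append, List.mem_flatMap] at hi
  rcases hi with hi | ⟨x, hx, hi⟩
  · exact hR i hi
  · obtain ⟨j, hj, rfl⟩ := List.mem_map.1 hi
    exact hs x hx j (hR j hj)

theorem mem_N0 {i : Fin 126} : i ∈ N0 ↔ nb0 i = true := by
  simp [N0, List.mem_filter, mem_all126]

theorem base_facts : nb0 p1 = true ∧ nb0 q1 = true ∧ nb0 q2 = true ∧ ¬ AdjP q1 q2 ∧ q1 ≠ q2 ∧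
    AdjP p1 q1 ∧ AdjP p1 q2 ∧ nb0 r0 = false ∧ r0 ≠ p0 := by
  unfold AdjP
  decide +kernel

/-- the parameters -/
def candCheck (m n : ℕ) : Bool :=
  srgCheck 45 12 m || !((45 * 32) % m == 0) || decide (638 < n * (46 + 45 * 32 / m)) ||
    !((n * (46 + 45 * 32 / m)) % 5 == 1) || (m == 18 && n == 1)

theorem cand_check : ((List.range 46).drop 1).all (fun m => (List.range 14).all (candCheck m)) =
    true := by decide +kernel

variable {G : Type u} [Group G] {D : Set G}

theorem perm_inv_cancel {α : Type*} (f : Equiv.Perm α) (x : α) : f (f⁻¹ x) = x :=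
  Equiv.apply_symm_apply f x

theorem perm_inv_apply {α : Type*} (f : Equiv.Perm α) (x : α) : f⁻¹ (f x) = x :=
  Equiv.symm_apply_apply f x

/-- common neighbours -/
def com {z : G} (B B' : Om D z) : Set (Om D z) := {W | Adj B W ∧ Adj B' W}

/-- equal, adjacent or with a common neighbour -/
def Close {z : G} (B B' : Om D z) : Prop := B = B' ∨ Adj B B' ∨ ∃ W, W ∈ com B B'

section m24

variable [Finite G] {hc : Ctx D} {z : G} {hz : IsQuad D z} {a b c d : G}
  {haT : a ∈ commMembers53 D z} (L : Loc hc hz a b c d haT)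
include L

/-- the element of a block near the base -/
theorem Loc.elem {i : Fin 126} (hi : nb0 i = true) :
    ∃ (B : Om D z) (x : G) (hx : x ∈ commMembers53 D z) (k : ↥(fix4 z a b c d)),
      Adj (qd haT) B ∧ L.ι B = i ∧ B = qd hx ∧ k.1 = mel hc hx ∧ L.σ k = rp i := by
  obtain ⟨B, hB, hBi⟩ := L.onto i hi
  obtain ⟨x, hx⟩ := nonempty_blk hc hz B
  obtain ⟨hxT, e⟩ := eq_qd hc B hx
  subst e
  obtain ⟨k, hk⟩ := L.lift x hxT (Or.inr hB)
  refine ⟨_, x, hxT, k, hB, hBi, rfl, hk, ?_⟩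
  rw [L.el k x hxT (by rw [hk]; rfl) (Or.inr hB), hBi]

theorem Loc.elem_base : ∃ k : ↥(fix4 z a b c d), k.1 = mel hc haT ∧ L.σ k = rp p0 := by
  obtain ⟨k, hk⟩ := L.lift a haT (Or.inl rfl)
  exact ⟨k, hk, by rw [L.el k a haT (by rw [hk]; rfl) (Or.inl rfl), L.base]⟩

theorem Loc.trans45 {B B' : Om D z} (h : Adj (qd haT) B) (h' : Adj (qd haT) B') :
    ∃ k : ↥(fix4 z a b c d), act hc hz k.1 B = B' := by
  have key : ∀ i, nb0 i = true → ∃ k, L.σ k p1 = i := by
    intro i hi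
    have hgen : ∀ x ∈ N0, ∀ j, (∃ k, L.σ k p1 = j) → ∃ k, L.σ k p1 = rfn x j := by
      rintro x hx j ⟨k, rfl⟩
      obtain ⟨_, _, _, kx, -, -, -, -, e⟩ := L.elem (mem_N0.1 hx)
      exact ⟨kx * k, by rw [map_mul, Equiv.Perm.mul_apply, e, rp_apply]⟩
    have hmem := List.all_eq_true.1 trans45_check i (mem_N0.2 hi)
    exact step_closed (step_closed (fun j hj => ⟨1, by simp_all⟩) hgen) hgen i
      (List.contains_iff_mem.1 hmem)
  obtain ⟨k, hk⟩ := key _ (L.near B h)
  obtain ⟨k', hk'⟩ := key _ (L.near B' h')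
  refine ⟨k' * k⁻¹, L.inj _ _ ?_ (Or.inr h') ?_⟩
  · right
    have := (act_adj hc hz (k' * k⁻¹).1).2 h
    rwa [L.fix_base] at this
  · rw [L.equiv _ _ (Or.inr h), map_mul, Equiv.Perm.mul_apply, ← hk, map_inv,
      perm_inv_apply, hk']

theorem Loc.transfer {u U : Om D z} (hu : Adj (qd haT) u) (hU : Adj (qd haT) U) :
    ∃ g, act hc hz g (qd haT) = u ∧ act hc hz g U = qd haT := by
  obtain ⟨g, hg⟩ := trans_Om hc hz (qd haT) u
  have hgi : act hc hz g ((act hc hz g)⁻¹ (qd haT)) = qd haT :=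
    Equiv.apply_symm_apply (act hc hz g) (qd haT)
  have hU' : Adj (qd haT) ((act hc hz g)⁻¹ (qd haT)) := by
    refine (act_adj hc hz g).1 ?_
    rw [hgi, hg]
    exact hu.symm
  obtain ⟨k, hk⟩ := L.trans45 hU hU'
  exact ⟨g * k.1, by rw [map_mul, Equiv.Perm.mul_apply, L.fix_base, hg],
    by rw [map_mul, Equiv.Perm.mul_apply, hk, hgi]⟩

/-- pulling back a block at distance two -/
theorem Loc.pull {u U h : Om D z} {g : ↥(Subgroup.centralizer ({z} : Set G))}
    (hgu : act hc hz g (qd haT) = u) (hgU : act hc hz g U = qd haT) (hh : Adj u h) :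
    ∃ H, Adj (qd haT) H ∧ act hc hz g H = h ∧ (H = U ↔ h = qd haT) ∧
      (Adj U H ↔ Adj (qd haT) h) := by
  refine ⟨(act hc hz g)⁻¹ h, ?_, Equiv.apply_symm_apply _ _, ?_, ?_⟩
  · refine (act_adj hc hz g).1 ?_
    rwa [hgu, perm_inv_cancel]
  · rw [← (act hc hz g).injective.eq_iff, perm_inv_cancel, hgU]
  · rw [← act_adj hc hz g, perm_inv_cancel, hgU]

theorem Loc.count (P : Fin 126 → Bool) :
    {B | Adj (qd haT) B ∧ P (L.ι B) = true}.ncard = (N0.filter P).length := by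
  classical
  have himg : L.ι '' {B | Adj (qd haT) B ∧ P (L.ι B) = true} =
      {i | i ∈ N0.filter P} := by
    ext i
    simp only [Set.mem_image, Set.mem_setOf_eq, List.mem_filter, mem_N0]
    constructor
    · rintro ⟨B, ⟨hB, hP⟩, rfl⟩
      exact ⟨L.near B hB, hP⟩
    · rintro ⟨hi, hP⟩
      obtain ⟨B, hB, rfl⟩ := L.onto i hi
      exact ⟨B, ⟨hB, hP⟩, rfl⟩
  have hnd : (N0.filter P).Nodup := ((List.nodup_finRange 126).filter _).filter _
  rw [← Set.ncard_image_of_injOn (f := L.ι) fun B hB B' hB' e =>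
      L.inj B B' (Or.inr hB.1) (Or.inr hB'.1) e, himg,
    show {i | i ∈ N0.filter P} = ↑(N0.filter P).toFinset by ext; simp, Set.ncard_coe_finset,
    List.toFinset_card_of_nodup hnd]

theorem Loc.adjB_iff {B B' : Om D z} (h : Adj (qd haT) B) (h' : Adj (qd haT) B') :
    Adj B B' ↔ adjB (L.ι B) (L.ι B') = true :=
  L.adj B B' (Or.inr h) (Or.inr h')

theorem Loc.degree : {B | Adj (qd haT) B}.ncard = 45 := by
  have h := L.count fun _ => true
  have hl := count_check
  simp only [Bool.and_eq_true, Nat.beq_eq] at hl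
  simpa [hl.1.1] using h

theorem Loc.lambda {u : Om D z} (hu : Adj (qd haT) u) : (com (qd haT) u).ncard = 12 := by
  have h := L.count (adjB (L.ι u))
  have hl := List.all_eq_true.1 lambda_check _ (mem_N0.2 (L.near u hu))
  rw [Nat.beq_eq] at hl
  rw [← hl, ← h]
  congr 1
  ext B
  exact and_congr_right fun hB => L.adjB_iff hu hB

/-- A common neighbour and two more blocks: three common ones, pairwise nonadjacent. -/
theorem Loc.three {u h : Om D z} (hu : Adj (qd haT) u) (huh : Adj u h) (hne : h ≠ qd haT)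
    (hna : ¬ Adj (qd haT) h) :
    {W | W ∈ com (qd haT) h ∧ Adj u W}.ncard = 3 ∧
      ∀ V W, V ∈ com (qd haT) h → Adj u V → W ∈ com (qd haT) h → Adj u W → ¬ Adj V W := by
  obtain ⟨U, hU, hU1⟩ := L.onto p1 base_facts.1
  obtain ⟨g, hgu, hgU⟩ := L.transfer hu hU
  obtain ⟨H, hH, hHh, hHU, hHadj⟩ := L.pull hgu hgU huh
  have hj1 : L.ι H ≠ p1 := fun e => hne (hHU.1 (L.inj _ _ (Or.inr hH) (Or.inr hU) (e.trans hU1.symm)))
  have hj2 : ¬ adjB p1 (L.ι H) = true := fun e => hna (hHadj.1 ((L.adjB_iff hU hH).2 (hU1.symm ▸ e)))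
  have hl := List.all_eq_true.1 local_check _ (mem_N0.2 (L.near H hH))
  simp only [Bool.or_eq_true, Bool.and_eq_true, Nat.beq_eq, List.all_eq_true, Bool.not_eq_true',
    hj2, false_or] at hl
  replace hl := hl.resolve_left fun e => e.elim (fun e => Bool.noConfusion e) fun e => hj1 (Fin.ext e)
  have hset : {W | W ∈ com (qd haT) h ∧ Adj u W} =
      act hc hz g '' {B | Adj (qd haT) B ∧ (fun k => adjB p1 k && adjB (L.ι H) k) (L.ι B) = true} := by
    ext W
    obtain ⟨V, rfl⟩ := (act hc hz g).surjective W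
    rw [(act hc hz g).injective.mem_set_image]
    simp only [com, Set.mem_setOf_eq, Bool.and_eq_true]
    have e1 : Adj (qd haT) (act hc hz g V) ↔ Adj U V := by
      rw [← act_adj hc hz g (B := U), hgU]
    have e2 : Adj h (act hc hz g V) ↔ Adj H V := by rw [← act_adj hc hz g (B := H), hHh]
    have e3 : Adj u (act hc hz g V) ↔ Adj (qd haT) V := by
      rw [← act_adj hc hz g (B := qd haT), hgu]
    rw [e1, e2, e3]
    constructor
    · rintro ⟨⟨h1, h2⟩, h3⟩
      exact ⟨h3, hU1 ▸ (L.adjB_iff hU h3).1 h1, (L.adjB_iff hH h3).1 h2⟩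
    · rintro ⟨h3, h1, h2⟩
      exact ⟨⟨(L.adjB_iff hU h3).2 (hU1.symm ▸ h1), (L.adjB_iff hH h3).2 h2⟩, h3⟩
  refine ⟨?_, fun V W hV hV' hW hW' hVW => ?_⟩
  · rw [hset, Set.ncard_image_of_injective _ (act hc hz g).injective]
    exact (L.count fun k => adjB p1 k && adjB (L.ι H) k).trans hl.1
  · obtain ⟨V', ⟨hV1, hV2⟩, rfl⟩ := hset.subset (⟨hV, hV'⟩ : _ ∧ _)
    obtain ⟨W', ⟨hW1, hW2⟩, rfl⟩ := hset.subset (⟨hW, hW'⟩ : _ ∧ _)
    have h1 := hl.2 _ (List.mem_filter.2 ⟨mem_N0.2 (L.near V' hV1), hV2⟩) _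
      (List.mem_filter.2 ⟨mem_N0.2 (L.near W' hW1), hW2⟩)
    rw [(L.adjB_iff hV1 hW1).1 ((act_adj hc hz g).1 hVW)] at h1
    exact Bool.noConfusion h1

/-- Transitivity of the fixator at distance two. -/
theorem Loc.trans_far {h h' : Om D z} (h1 : h ≠ qd haT) (h2 : ¬ Adj (qd haT) h)
    (h3 : ∃ u, u ∈ com (qd haT) h) (h1' : h' ≠ qd haT) (h2' : ¬ Adj (qd haT) h')
    (h3' : ∃ u, u ∈ com (qd haT) h') : ∃ k : ↥(fix4 z a b c d), act hc hz k.1 h = h' := by
  obtain ⟨u, hu, hhu⟩ := h3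
  obtain ⟨u', hu', hhu'⟩ := h3'
  obtain ⟨k0, hk0⟩ := L.trans45 hu' hu
  obtain ⟨U, hU, hU1⟩ := L.onto p1 base_facts.1
  obtain ⟨g, hgu, hgU⟩ := L.transfer hu hU
  obtain ⟨far, hfar⟩ : ∃ far, (N0.filter fun (y : Fin 126) => !Nat.beq y p1 && !adjB p1 y) = far :=
    ⟨_, rfl⟩
  obtain ⟨gens, hgens⟩ : ∃ gens, N0.filter (adjB p1) = gens := ⟨_, rfl⟩
  obtain ⟨Q, hQ⟩ : ∃ Q : Fin 126 → Om D z → Prop, ∀ i W, Q i W ↔ ∃ B, Adj (qd haT) B ∧ L.ι B = i ∧
      act hc hz g B = W := ⟨_, fun _ _ => Iff.rfl⟩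
  -- every such block comes from one list
  have hin : ∀ W, W ≠ qd haT → ¬ Adj (qd haT) W → Adj u W → ∃ i ∈ far, Q i W := by
    intro W w1 w2 w3
    obtain ⟨H, hH, hHh, hHU, hHadj⟩ := L.pull hgu hgU w3
    refine ⟨L.ι H, ?_, (hQ _ _).2 ⟨H, hH, rfl, hHh⟩⟩
    rw [← hfar, List.mem_filter, Bool.and_eq_true, Bool.not_eq_true', Bool.not_eq_true',
      ← Bool.not_eq_true, ← Bool.not_eq_true, Nat.beq_eq]
    exact ⟨mem_N0.2 (L.near H hH), fun e => w1 (hHU.1 (L.inj _ _ (Or.inr hH) (Or.inr hU)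
      ((Fin.ext e).trans hU1.symm))), fun e => w2 (hHadj.1 ((L.adjB_iff hU hH).2 (hU1.symm ▸ e)))⟩
  obtain ⟨W0, hW0⟩ : ∃ W0 : Fin 126 → Prop, ∀ i, W0 i ↔ ∀ i₀ ∈ far.take 1, ∀ V₀, Q i₀ V₀ →
      ∀ V, Q i V → ∃ k : ↥(fix4 z a b c d), act hc hz k.1 V₀ = V := ⟨_, fun _ => Iff.rfl⟩
  have hQu : ∀ {i V V'}, Q i V → Q i V' → V = V' := by
    intro i V V' e e'
    obtain ⟨B, hB, hBi, rfl⟩ := (hQ _ _).1 e
    obtain ⟨B', hB', hBi', rfl⟩ := (hQ _ _).1 e'
    rw [L.inj B B' (Or.inr hB) (Or.inr hB') (hBi.trans hBi'.symm)]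
  have hstart : ∀ i ∈ far.take 1, W0 i := by
    intro i hi
    rw [hW0]
    intro i₀ hi₀ V₀ e V e'
    have : i₀ = i := by
      rcases far with _ | ⟨f, fs⟩
      · simp at hi
      · simp only [List.take_succ_cons, List.take_zero, List.mem_singleton] at hi hi₀
        rw [hi, hi₀]
    exact ⟨1, by rw [hQu e' (this ▸ e)]; simp⟩
  have hgen : ∀ x ∈ gens, ∀ i, W0 i → W0 (rfn x i) := by
    intro x hx i hi
    rw [hW0] at hi ⊢
    intro i₀ hi₀ V₀ e V e'
    rw [← hgens, List.mem_filter, mem_N0] at hx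
    obtain ⟨X, m, hm, kx, hX, hXx, rfl, hkx, hσ⟩ := L.elem hx.1
    obtain ⟨B, hB, hBi, rfl⟩ := (hQ _ _).1 e'
    have hnb : nb0 i = true := by
      have h1 : AdjP (rp x p0) (rp x i) := by
        rw [← hσ, L.fixp, hσ, rp_apply, ← hBi]
        exact L.near B hB
      rw [← hσ] at h1
      exact (L.adjσ kx p0 i).1 h1
    obtain ⟨B', hB', hBi'⟩ := L.onto i hnb
    obtain ⟨k, hk⟩ := hi i₀ hi₀ V₀ e _ ((hQ _ _).2 ⟨B', hB', hBi', rfl⟩)
    have hBB : act hc hz kx.1 B' = B := by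
      refine L.inj _ _ (Or.inr ?_) (Or.inr hB) ?_
      · have := (act_adj hc hz kx.1).2 hB'
        rwa [L.fix_base] at this
      · rw [L.equiv _ _ (Or.inr hB'), hBi', hσ, rp_apply, hBi]
    -- the conjugate member fixes the base
    have hmy : (g : G) * m * (g : G)⁻¹ ∈ commMembers53 D z := conj_member hc g.2 hm
    have hy : Adj (qd haT) (qd hmy) := by
      have e1 : qd hmy = act hc hz g (qd hm) := Subtype.ext (blk_conj hc hz g.2 hm).symm
      rw [e1, ← hgU]
      exact (act_adj hc hz g).2 ((L.adjB_iff hU hX).2 (by rw [hU1, hXx]; exact hx.2))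
    obtain ⟨ky, hky⟩ := L.lift _ hmy (Or.inr hy)
    have hconj : ky.1 = g * kx.1 * g⁻¹ := by rw [hky, hkx]; rfl
    exact ⟨ky * k, by
      rw [Subgroup.coe_mul, map_mul, Equiv.Perm.mul_apply, hk, hconj, map_mul, map_mul,
        Equiv.Perm.mul_apply, Equiv.Perm.mul_apply, map_inv, perm_inv_apply, hBB]⟩
  have hall : ∀ i ∈ far, W0 i := by
    intro i hi
    have hc' := trans32_check
    simp only [hfar, hgens, List.all_eq_true, List.contains_iff_mem] at hc'
    exact step_closed (step_closed (step_closed hstart hgen) hgen) hgen i (hc' i hi)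
  -- the two blocks
  have e0 : act hc hz k0.1 (qd haT) = qd haT := L.fix_base k0
  obtain ⟨i, hi, hQi⟩ := hin h h1 h2 hhu.symm
  obtain ⟨i', hi', hQi'⟩ := hin (act hc hz k0.1 h') (fun e => h1' ((act hc hz k0.1).injective
    (e.trans e0.symm))) (fun e => h2' (by rw [← e0] at e; exact (act_adj hc hz k0.1).1 e))
    (by rw [← hk0]; exact (act_adj hc hz k0.1).2 hhu'.symm)
  obtain ⟨i₀, hi₀⟩ : ∃ i₀, i₀ ∈ far.take 1 := by
    rcases far with _ | ⟨f, fs⟩
    · simp at hi
    · exact ⟨f, by simp⟩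
  obtain ⟨B₀, hB₀, hB₀i⟩ := L.onto i₀ (mem_N0.1 (List.mem_filter.1 (hfar ▸ List.mem_of_mem_take hi₀)).1)
  have hQ0 : Q i₀ (act hc hz g B₀) := (hQ _ _).2 ⟨B₀, hB₀, hB₀i, rfl⟩
  obtain ⟨k1, hk1⟩ := (hW0 i).1 (hall i hi) i₀ hi₀ _ hQ0 h hQi
  obtain ⟨k2, hk2⟩ := (hW0 i').1 (hall i' hi') i₀ hi₀ _ hQ0 _ hQi'
  refine ⟨k0⁻¹ * k2 * k1⁻¹, ?_⟩
  rw [Subgroup.coe_mul, Subgroup.coe_mul, Subgroup.coe_inv, Subgroup.coe_inv, map_mul, map_mul,
    map_inv, map_inv, Equiv.Perm.mul_apply, Equiv.Perm.mul_apply, ← hk1,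
    perm_inv_apply, hk2, perm_inv_apply]

omit L in
theorem com_act (g : ↥(Subgroup.centralizer ({z} : Set G))) (B B' : Om D z) :
    com (act hc hz g B) (act hc hz g B') = act hc hz g '' com B B' := by
  ext W
  obtain ⟨V, rfl⟩ := (act hc hz g).surjective W
  rw [(act hc hz g).injective.mem_set_image]
  simp [com, act_adj]

omit L in
theorem close_act (g : ↥(Subgroup.centralizer ({z} : Set G))) {B B' : Om D z} :
    Close (act hc hz g B) (act hc hz g B') ↔ Close B B' := by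
  unfold Close
  rw [(act hc hz g).injective.eq_iff, act_adj, com_act]
  exact or_congr Iff.rfl (or_congr Iff.rfl Set.image_nonempty)

omit L in
include hc hz in
theorem close_trans {x y w : Om D z} (h1 : Close x y) (h2 : Close y w) : Close x w := by
  -- three steps become two
  have L3 : ∀ p q r s : Om D z, Adj p q → Adj q r → Adj r s → Close p s := by
    intro p q r s hpq hqr hrs
    by_cases e1 : p = r
    · subst e1; exact Or.inr (Or.inl hrs)
    by_cases c1 : Adj p r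
    · exact Or.inr (Or.inr ⟨r, c1, hrs.symm⟩)
    by_cases e2 : q = s
    · subst e2; exact Or.inr (Or.inl hpq)
    by_cases c2 : Adj q s
    · exact Or.inr (Or.inr ⟨q, hpq, c2.symm⟩)
    by_cases e3 : p = s
    · exact Or.inl e3
    by_cases c3 : Adj p s
    · exact Or.inr (Or.inl c3)
    obtain ⟨pm, hp⟩ := nonempty_blk hc hz p
    obtain ⟨qm, hq⟩ := nonempty_blk hc hz q
    obtain ⟨rm, hr⟩ := nonempty_blk hc hz r
    obtain ⟨sm, hs⟩ := nonempty_blk hc hz s
    obtain ⟨hpT, -⟩ := eq_qd hc p hp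
    obtain ⟨hqT, -⟩ := eq_qd hc q hq
    obtain ⟨hrT, -⟩ := eq_qd hc r hr
    obtain ⟨hsT, -⟩ := eq_qd hc s hs
    have hD := hc.hG.1
    obtain ⟨k1, k2⟩ := path_three_common53 hD hpT.1 hqT.1 hrT.1 hsT.1 (hpq.2 _ hp _ hq)
      (hqr.2 _ hq _ hr) (hrs.2 _ hr _ hs) (fun e => c1 ((adj_iff hc hz e1 hp hr).2 e))
      (fun e => c2 ((adj_iff hc hz e2 hq hs).2 e)) (fun e => c3 ((adj_iff hc hz e3 hp hs).2 e))
    have hcon : ∀ {w x : G}, w ∈ commMembers53 D z → x ∈ commMembers53 D z →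
        w * x * w ∈ commMembers53 D z := fun {w x} hw hx => by
      have := conj_member hc (mel hc hw).2 hx
      rwa [show ((mel hc hw : ↥(Subgroup.centralizer ({z} : Set G))) : G) = w from rfl,
        tt_inv hD hw.1] at this
    have hwT : rm * pm * sm * qm * sm * pm * rm ∈ commMembers53 D z := by
      have := hcon hrT (hcon hpT (hcon hsT hqT))
      simpa only [mul_assoc] using this
    have hsame : ∀ {B : Om D z} {x}, x ∈ B.1 → Commute x (rm * pm * sm * qm * sm * pm * rm) →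
        B = qd hwT ∨ Adj B (qd hwT) := fun {B x} hx e =>
      or_iff_not_imp_left.2 fun hne => (adj_iff hc hz hne hx (blk_self hc hz hwT)).2 e
    rcases hsame hp k1 with e | e
    · rcases hsame hs k2 with e' | e'
      · exact absurd (e.trans e'.symm) e3
      · exact absurd (e ▸ e'.symm) c3
    · rcases hsame hs k2 with e' | e'
      · exact absurd (e' ▸ e) c3
      · exact Or.inr (Or.inr ⟨_, e, e'⟩)
  have L2 : ∀ p q s : Om D z, Close p q → Adj q s → Close p s := by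
    rintro p q s (rfl | h | ⟨V, hV, hV'⟩) hs
    · exact Or.inr (Or.inl hs)
    · exact Or.inr (Or.inr ⟨q, h, hs.symm⟩)
    · exact L3 p V q s hV hV'.symm hs
  rcases h2 with rfl | h | ⟨V, hV, hV'⟩
  · exact h1
  · exact L2 _ _ _ h1 h
  · exact L2 _ _ _ (L2 _ _ _ h1 hV) hV'.symm

set_option maxHeartbeats 400000 in
/-- The counts. -/
theorem Loc.counts : Nat.card (Om D z) = 126 ∧
    ∀ h, h ≠ qd haT → ¬ Adj (qd haT) h → (com (qd haT) h).ncard = 18 := by
  classical
  haveI := Fintype.ofFinite (Om D z)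
  have hdeg : ∀ B : Om D z, {W | Adj B W}.ncard = 45 := by
    intro B
    obtain ⟨g, rfl⟩ := trans_Om hc hz (qd haT) B
    rw [← L.degree, ← Set.ncard_image_of_injective {W | Adj (qd haT) W} (act hc hz g).injective]
    congr 1
    ext W
    obtain ⟨V, rfl⟩ := (act hc hz g).surjective W
    rw [(act hc hz g).injective.mem_set_image, Set.mem_setOf_eq, Set.mem_setOf_eq, act_adj]
  have hcount : Nat.card (Om D z) % 5 = 1 ∧ Nat.card (Om D z) ≤ 638 := by
    obtain ⟨p, q, r, s, hq, hqz⟩ := hz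
    have h5 := m24_clique_modFive53 hc.hG hc.hp hc.h24 hq
    have hle := m24_members_le53 hc.hG hc.hp hc.h24 hq rfl
    rw [hqz, card_members hc ⟨p, q, r, s, hq, hqz⟩] at h5 hle
    omega
  obtain ⟨X, hX⟩ : ∃ X : Finset (Om D z), X = Finset.univ.filter (Close (qd haT)) := ⟨_, rfl⟩
  have hXmem : ∀ B, B ∈ X ↔ Close (qd haT) B := fun B => by simp [hX]
  have hsymm : ∀ {B B' : Om D z}, Close B B' → Close B' B := by
    rintro B B' (h | h | ⟨W, h1, h2⟩)
    exacts [Or.inl h.symm, Or.inr (Or.inl h.symm), Or.inr (Or.inr ⟨W, h2, h1⟩)]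
  by_cases hfar : ∃ h, h ≠ qd haT ∧ ¬ Adj (qd haT) h ∧ ∃ u, u ∈ com (qd haT) h
  swap
  · -- impossible: adjacency would be transitive
    exfalso
    push Not at hfar
    obtain ⟨U, hU, hU1⟩ := L.onto p1 base_facts.1
    obtain ⟨V, hV, hV1⟩ := L.onto q1 base_facts.2.1
    obtain ⟨g, hgU, hgV⟩ := L.transfer hU hV
    obtain ⟨W, hW, hW1⟩ := L.onto q2 base_facts.2.2.1
    refine hfar (act hc hz g W) (fun e => ?_) (fun e => ?_) U ⟨hU, ?_⟩
    · rw [← hgV] at e
      exact base_facts.2.2.2.2.1 (hV1.symm.trans ((congrArg L.ι ((act hc hz g).injective e).symm).trans hW1))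
    · rw [← hgV] at e
      exact base_facts.2.2.2.1 (hV1 ▸ hW1 ▸ (L.adjB_iff hV hW).1 ((act_adj hc hz g).1 e))
    · rw [← hgU]
      exact ((act_adj hc hz g).2 hW).symm
  obtain ⟨h0, f1, f2, f3⟩ := hfar
  obtain ⟨m, hm⟩ : ∃ m, (com (qd haT) h0).ncard = m := ⟨_, rfl⟩
  have hmconst : ∀ B B' : Om D z, B ≠ B' → ¬ Adj B B' → (∃ W, W ∈ com B B') →
      (com B B').ncard = m := by
    intro B B' n1 n2 n3
    obtain ⟨g, rfl⟩ := trans_Om hc hz (qd haT) B
    obtain ⟨V, rfl⟩ := (act hc hz g).surjective B'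
    rw [com_act] at n3 ⊢
    rw [Set.ncard_image_of_injective _ (act hc hz g).injective]
    obtain ⟨_, W, hW, -⟩ := n3
    obtain ⟨k, hk⟩ := L.trans_far f1 f2 f3 (fun e => n1 (congrArg _ e.symm))
      (fun e => n2 ((act_adj hc hz g).2 e)) ⟨W, hW⟩
    rw [← hm, ← hk]
    conv_lhs => rw [← L.fix_base k]
    rw [com_act, Set.ncard_image_of_injective _ (act hc hz k.1).injective]
  have hm1 : 1 ≤ m := hm ▸ (Set.ncard_pos (Set.toFinite _)).2 f3
  have hm45 : m ≤ 45 := by
    rw [← hm, ← L.degree]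
    exact Set.ncard_le_ncard (fun W hW => hW.1) (Set.toFinite _)
  -- the class of the base
  have hfin : ∀ (B : ↥X) (P : Om D z → Prop) [DecidablePred P], (∀ W, P W → Adj B.1 W) →
      (Finset.univ.filter fun W : ↥X => P W.1).card = {W | P W}.ncard := by
    intro B P _ hP
    rw [Set.ncard_eq_toFinset_card']
    refine Finset.card_bij (fun W _ => W.1) (fun W hW => by simpa using hW)
      (fun _ _ _ _ e => Subtype.ext e) fun W hW => ?_
    simp only [Set.mem_toFinset, Set.mem_setOf_eq] at hW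
    exact ⟨⟨W, (hXmem W).2 (close_trans (hc := hc) (hz := hz) ((hXmem _).1 B.2)
      (Or.inr (Or.inl (hP W hW))))⟩, by simpa using hW, rfl⟩
  obtain ⟨hfst, hj⟩ := Srg.srg_conditions (X := ↥X) (fun B B' => Adj B.1 B'.1)
    (fun _ _ h => h.symm) (fun _ h => h.1 rfl) (k := 45) (l := 12) (m := m) hm45
    (fun B => by rw [hfin B (fun W => Adj B.1 W) (fun _ h => h)]; exact hdeg B.1)
    (fun B B' hBB => by
      rw [hfin B (fun W => Adj B.1 W ∧ Adj B'.1 W) (fun _ h => h.1)]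
      show (com B.1 B'.1).ncard = 12
      obtain ⟨g, hg⟩ := trans_Om hc hz (qd haT) B.1
      obtain ⟨V, hV⟩ := (act hc hz g).surjective B'.1
      rw [← hg, ← hV, act_adj] at hBB
      rw [← hg, ← hV, com_act, Set.ncard_image_of_injective _ (act hc hz g).injective, L.lambda hBB])
    (fun B B' n1 n2 => by
      rw [hfin B (fun W => Adj B.1 W ∧ Adj B'.1 W) (fun _ h => h.1)]
      refine hmconst B.1 B'.1 (fun e => n1 (Subtype.ext e)) n2 ?_
      rcases close_trans (hc := hc) (hz := hz) (hsymm ((hXmem _).1 B.2)) ((hXmem _).1 B'.2) with e | e | e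
      exacts [absurd (Subtype.ext e) n1, absurd e n2, e])
    ⟨⟨qd haT, (hXmem _).2 (Or.inl rfl)⟩⟩
  rw [Fintype.card_coe] at hfst hj
  -- all classes have one size
  have hmul : X.card ∣ Nat.card (Om D z) := by
    refine ⟨(Finset.univ.image fun B : Om D z => Finset.univ.filter (Close B)).card, ?_⟩
    rw [Nat.card_eq_fintype_card, ← Finset.card_univ,
      Finset.card_eq_sum_card_image (fun B : Om D z => Finset.univ.filter (Close B)), mul_comm]
    refine Finset.sum_const_nat fun C hC => ?_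
    obtain ⟨B, -, rfl⟩ := Finset.mem_image.1 hC
    obtain ⟨g, rfl⟩ := trans_Om hc hz (qd haT) B
    rw [hX, show (Finset.univ.filter fun W => Finset.univ.filter (Close W) =
      Finset.univ.filter (Close (act hc hz g (qd haT)))) =
      (Finset.univ.filter (Close (qd haT))).image (act hc hz g) from ?_,
      Finset.card_image_of_injective _ (act hc hz g).injective]
    ext W
    obtain ⟨V, rfl⟩ := (act hc hz g).surjective W
    simp only [Finset.mem_filter, Finset.mem_univ, true_and, Finset.mem_image,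
      (act hc hz g).injective.eq_iff, exists_eq_right]
    constructor
    · intro e
      have : act hc hz g V ∈ Finset.univ.filter (Close (act hc hz g V)) := by simp [Close]
      rw [e, Finset.mem_filter] at this
      exact (close_act g).1 this.2
    · intro e
      ext Y
      simp only [Finset.mem_filter, Finset.mem_univ, true_and]
      exact ⟨fun h => close_trans (hc := hc) (hz := hz) ((close_act g).2 e) h,
        fun h => close_trans (hc := hc) (hz := hz) (hsymm ((close_act g).2 e)) h⟩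
  obtain ⟨n, hn⟩ := hmul
  obtain ⟨v, hv⟩ : ∃ v, X.card = v := ⟨_, rfl⟩
  rw [hv] at hfst hj hn
  have hL : ∃ L, v = 46 + L ∧ m * L = 1440 := by
    push_cast at hfst
    have h1 : (m : ℤ) * ((v : ℤ) - 46) = 1440 := by linarith
    have h2 : (46 : ℤ) ≤ v := by nlinarith
    refine ⟨v - 46, by omega, ?_⟩
    have : ((m * (v - 46) : ℕ) : ℤ) = 1440 := by
      rw [Nat.cast_mul, Nat.cast_sub (by omega)]; exact h1
    exact_mod_cast this
  obtain ⟨L', rfl, hmL⟩ := hL
  have hchk := srgCheck_false (k := 45) (l := 12) (μ := m) (L := L') hm1 hm45 (by simpa using hmL)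
    (by
      obtain ⟨j, hj⟩ := hj
      refine ⟨j, ?_⟩
      rw [← hj]
      push_cast
      ring)
  have hdiv : 1440 / m = L' := by rw [← hmL, Nat.mul_div_cancel_left _ hm1]
  have hn14 : n < 14 := by
    by_contra hh
    push Not at hh
    have := hcount.2
    have h2 : 46 * 14 ≤ (46 + L') * n := Nat.mul_le_mul (by omega) hh
    omega
  have hcand := List.all_eq_true.1 (List.all_eq_true.1 cand_check m
    ((by decide : ∀ k < 46, 1 ≤ k → k ∈ (List.range 46).drop 1) m (by omega) hm1)) n (List.mem_range.2 hn14)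
  have hmod : 1440 % m = 0 := by rw [← hmL, Nat.mul_mod_right]
  simp only [candCheck, hchk, Bool.false_or, show 45 * 32 = 1440 from rfl, hmod, hdiv,
    Bool.or_eq_true, Bool.and_eq_true, beq_iff_eq, Bool.not_eq_true', decide_eq_true_eq,
    ← Bool.not_eq_true] at hcand
  have hcard : n * (46 + L') = Nat.card (Om D z) := by rw [hn, mul_comm]
  rw [hcard] at hcand
  obtain ⟨rfl, rfl⟩ : m = 18 ∧ n = 1 := by
    rcases hcand with ((h | h) | h) | h
    · simp at h
    · have := hcount.2; omega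
    · exact absurd hcount.1 h
    · exact h
  obtain rfl : L' = 80 := by omega
  refine ⟨by omega, fun B n1 n2 => ?_⟩
  have hall : X = Finset.univ := Finset.eq_univ_of_card _ (by
    rw [hv, ← Nat.card_eq_fintype_card]; omega)
  rcases (hXmem B).1 (hall ▸ Finset.mem_univ B) with e | e | e
  exacts [absurd e.symm n1, absurd e n2, hmconst _ _ n1.symm n2 e]

theorem Loc.trans80 {h h' : Om D z} (h1 : h ≠ qd haT) (h2 : ¬ Adj (qd haT) h)
    (h1' : h' ≠ qd haT) (h2' : ¬ Adj (qd haT) h') :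
    ∃ k : ↥(fix4 z a b c d), act hc hz k.1 h = h' := by
  have := L.counts.2
  exact L.trans_far h1 h2 ((Set.ncard_pos (Set.toFinite _)).1 (by rw [this h h1 h2]; norm_num))
    h1' h2' ((Set.ncard_pos (Set.toFinite _)).1 (by rw [this h' h1' h2']; norm_num))

theorem Loc.card_far : {B | B ≠ qd haT ∧ ¬ Adj (qd haT) B}.ncard = 80 := by
  have h1 : ({B | B ≠ qd haT ∧ ¬ Adj (qd haT) B} : Set (Om D z)) =
      (insert (qd haT) {B | Adj (qd haT) B})ᶜ := by
    ext B; simp
  rw [h1, Set.ncard_compl, L.counts.1, Set.ncard_insert_of_notMem (by simp [Adj]) (Set.toFinite _),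
    L.degree]

end m24

end CfsgLib.Quad81
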