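import Mathlib
import Cfsg.Agent.ThreeTransp.Quad81.Count

/-!
Type M(24): a four-set nonadjacent to the base whose common neighbours are the 18 points of support
two.
-/

set_option autoImplicit false

namespace CfsgLib.Quad81

open Cfsg CfsgLib.ThreeTransp

universe u

/-- the fixator of a point under a homomorphism to the permutations -/
def stabOf {H X : Type*} [Group H] (f : H →* Equiv.Perm X) (x : X) : Subgroup H :=
  (MulAction.stabilizer (Equiv.Perm X) x).comap f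

theorem mem_stabOf {H X : Type*} [Group H] {f : H →* Equiv.Perm X} {x : X} {h : H} :
    h ∈ stabOf f x ↔ f h x = x := Iff.rfl

theorem card_stabOf {H X : Type*} [Group H] (f : H →* Equiv.Perm X) (x : X) :
    Nat.card ↥(stabOf f x) * {y | ∃ h, f h x = y}.ncard = Nat.card H := by
  letI := MulAction.compHom X f
  have h1 : stabOf f x = MulAction.stabilizer H x := rfl
  have h2 : {y | ∃ h, f h x = y} = MulAction.orbit H x := rfl
  rw [h1, h2, ← MulAction.index_stabilizer, Subgroup.card_mul_index]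

theorem six_mem : ∀ u ∈ six, nb0 u = true ∧ std u = true := by
  decide +kernel

theorem q1_nbrs : nb0 p2 = true ∧ nb0 p3 = true ∧ six.Nodup ∧ AdjP q1 p2 ∧ AdjP q1 p3 := by
  unfold AdjP
  decide +kernel

variable {G : Type u} [Group G] {D : Set G}

section m24

variable [Finite G] {hc : Ctx D} {z : G} {hz : IsQuad D z} {a b c d : G}
  {haT : a ∈ commMembers53 D z} (L : Loc hc hz a b c d haT)
include L

theorem Loc.card_stab_far {R : Om D z} (h1 : R ≠ qd haT) (h2 : ¬ Adj (qd haT) R) :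
    Nat.card ↥(stabOf ((act hc hz).comp (fix4 z a b c d).subtype) R) = 1327104 := by
  have h := card_stabOf ((act hc hz).comp (fix4 z a b c d).subtype) R
  have horb : {y | ∃ k, (act hc hz).comp (fix4 z a b c d).subtype k R = y} =
      {B | B ≠ qd haT ∧ ¬ Adj (qd haT) B} := by
    ext B
    constructor
    · rintro ⟨k, rfl⟩
      refine ⟨fun e => h1 ((act hc hz k.1).injective (e.trans (L.fix_base k).symm)), fun e => h2 ?_⟩
      rw [← L.fix_base k] at e
      exact (act_adj hc hz k.1).1 e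
    · exact fun hB => L.trans80 h1 h2 hB.1 hB.2
  rw [horb, L.card_far, L.card] at h
  omega

theorem Loc.frame : ∃ R, R ≠ qd haT ∧ ¬ Adj (qd haT) R ∧
    ∀ B, Adj (qd haT) B → (Adj R B ↔ std (L.ι B) = true) := by
  classical
  obtain ⟨b1, b2, b3, b4, b5, b6, b7, -, -⟩ := base_facts
  obtain ⟨U, hU, hU1⟩ := L.onto p1 b1
  obtain ⟨V1, hV1, hV1'⟩ := L.onto q1 b2
  obtain ⟨V2, hV2, hV2'⟩ := L.onto q2 b3
  obtain ⟨g, hgU, hgB⟩ := L.transfer hU hU
  have hUV1 : Adj U V1 := (L.adjB_iff hU hV1).2 (hU1.symm ▸ hV1'.symm ▸ b6)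
  have hUV2 : Adj U V2 := (L.adjB_iff hU hV2).2 (hU1.symm ▸ hV2'.symm ▸ b7)
  obtain ⟨H1, hH1, hH1e, -, hH1a⟩ := L.pull hgU hgB hUV1
  obtain ⟨H2, hH2, hH2e, -, hH2a⟩ := L.pull hgU hgB hUV2
  have hH12 : ¬ Adj H1 H2 := fun e => b4 (hV1' ▸ hV2' ▸ (L.adjB_iff hV1 hV2).1
    (hH1e ▸ hH2e ▸ (act_adj hc hz g).2 e))
  have hne12 : L.ι H1 ≠ L.ι H2 := fun e => b5 (by
    rw [← hV1', ← hV2', ← hH1e, ← hH2e, L.inj _ _ (Or.inr hH1) (Or.inr hH2) e])
  have hm : ∀ {H}, Adj (qd haT) H → Adj U H → L.ι H ∈ N0.filter (adjB p1) := fun {H} h h' =>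
    List.mem_filter.2 ⟨mem_N0.2 (L.near H h), hU1 ▸ (L.adjB_iff hU h).1 h'⟩
  have hlc := List.all_eq_true.1 (List.all_eq_true.1 line_common_check _ (hm hH1 (hH1a.2 hV1))) _
    (hm hH2 (hH2a.2 hV2))
  simp only [Bool.or_eq_true, List.any_eq_true, Bool.and_eq_true, Bool.not_eq_true',
    ← Bool.not_eq_true, Nat.beq_eq] at hlc
  replace hlc := hlc.resolve_left fun e => e.elim
    (fun e => hH12 ((L.adjB_iff hH1 hH2).2 e)) fun e => hne12 (Fin.ext e)
  obtain ⟨y, hy, ⟨⟨hy1, hy2⟩, hy3⟩, hy4⟩ := hlc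
  obtain ⟨Y, hY, rfl⟩ := L.onto y (mem_N0.1 hy)
  obtain ⟨R, hR⟩ : ∃ R, act hc hz g Y = R := ⟨_, rfl⟩
  have hR1 : R ≠ qd haT := fun e => hy1 (by
    rw [← hgB, ← hR] at e
    rw [(act hc hz g).injective e, hU1])
  have hR2 : ¬ Adj (qd haT) R := fun e => hy2 (by
    rw [← hgB, ← hR] at e
    exact hU1 ▸ (L.adjB_iff hU hY).1 ((act_adj hc hz g).1 e))
  have hRU : Adj R U := by rw [← hR, ← hgU]; exact ((act_adj hc hz g).2 hY).symm
  have hRV1 : Adj R V1 := by
    rw [← hR, ← hH1e]; exact (act_adj hc hz g).2 ((L.adjB_iff hY hH1).2 hy3)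
  have hRV2 : Adj R V2 := by
    rw [← hR, ← hH2e]; exact (act_adj hc hz g).2 ((L.adjB_iff hY hH2).2 hy4)
  refine ⟨R, hR1, hR2, ?_⟩
  -- the common neighbours
  obtain ⟨M, hM⟩ : ∃ M, M = L.ι '' com (qd haT) R := ⟨_, rfl⟩
  have hMmem : ∀ {B}, Adj (qd haT) B → (L.ι B ∈ M ↔ Adj R B) := by
    intro B hB
    rw [hM]
    constructor
    · rintro ⟨C, hC, e⟩
      rw [← L.inj C B (Or.inr hC.1) (Or.inr hB) e]
      exact hC.2
    · exact fun e => ⟨B, ⟨hB, e⟩, rfl⟩
  have hgenR : ∀ {B}, B ∈ com (qd haT) R → ∃ k : ↥(fix4 z a b c d),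
      L.σ k = rp (L.ι B) ∧ act hc hz k.1 R = R := by
    rintro B ⟨hB, hBR⟩
    obtain ⟨x, hx⟩ := nonempty_blk hc hz B
    obtain ⟨hxT, rfl⟩ := eq_qd hc B hx
    obtain ⟨k, hk⟩ := L.lift x hxT (Or.inr hB)
    exact ⟨k, L.el k x hxT (by rw [hk]; rfl) (Or.inr hB),
      by rw [hk]; exact rf_fix hc hz hxT (Or.inr hBR.symm)⟩
  have hdeg : ∀ u ∈ M, ({w | w ∈ M ∧ AdjP u w}).ncard = 3 ∧
      ∀ v w, v ∈ M → AdjP u v → w ∈ M → AdjP u w → ¬ AdjP v w := by
    rw [hM]
    rintro _ ⟨B, hB, rfl⟩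
    obtain ⟨h3, hna⟩ := L.three hB.1 hB.2.symm hR1 hR2
    constructor
    · rw [← h3, ← Set.InjOn.ncard_image (f := L.ι) (fun C hC C' hC' e =>
        L.inj C C' (Or.inr hC.1.1) (Or.inr hC'.1.1) e)]
      congr 1
      ext w
      constructor
      · rintro ⟨⟨C, hC, rfl⟩, hw⟩
        exact ⟨C, ⟨hC, (L.adj B C (Or.inr hB.1) (Or.inr hC.1)).2 hw⟩, rfl⟩
      · rintro ⟨C, hC, rfl⟩
        exact ⟨⟨C, hC.1, rfl⟩, (L.adj B C (Or.inr hB.1) (Or.inr hC.1.1)).1 hC.2⟩
    · rintro _ _ ⟨V, hV, rfl⟩ hv ⟨W, hW, rfl⟩ hw hvw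
      exact hna V W hV ((L.adj B V (Or.inr hB.1) (Or.inr hV.1)).2 hv) hW
        ((L.adj B W (Or.inr hB.1) (Or.inr hW.1)).2 hw)
        ((L.adj V W (Or.inr hV.1) (Or.inr hW.1)).2 hvw)
  have hp1 : p1 ∈ M := hU1 ▸ (hMmem hU).2 hRU
  have hq1 : q1 ∈ M := hV1' ▸ (hMmem hV1).2 hRV1
  have hq2 : q2 ∈ M := hV2' ▸ (hMmem hV2).2 hRV2
  have hrefl : ∀ {u w}, u ∈ M → w ∈ M → rfn u w ∈ M := by
    rw [hM]
    rintro _ _ ⟨B, hB, rfl⟩ ⟨C, hC, rfl⟩
    obtain ⟨k, hk, hkR⟩ := hgenR hB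
    refine ⟨act hc hz k.1 C, ⟨?_, ?_⟩, ?_⟩
    · have := (act_adj hc hz k.1).2 hC.1
      rwa [L.fix_base] at this
    · have := (act_adj hc hz k.1).2 hC.2
      rwa [hkR] at this
    · rw [L.equiv k C (Or.inr hC.1), hk, rp_apply]
  have hq3 : q3 ∈ M := hrefl hq1 hq2
  -- no element of order five fixes two nonadjacent four-sets
  have h5 : ∀ w ∈ M, AdjP q1 w → w = p1 ∨ w = p2 ∨ w = p3 := by
    intro w hw hqw
    by_contra hne
    simp only [not_or] at hne
    have hpw : ¬ AdjP p1 w := fun e =>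
      (hdeg q1 hq1).2 p1 w hp1 (AdjP.symm b6) hw hqw e
    have hwN : w ∈ N0 := by
      obtain ⟨B, hB, rfl⟩ := (hM ▸ hw : w ∈ L.ι '' com (qd haT) R)
      exact mem_N0.2 (L.near B hB.1)
    have hch := List.all_eq_true.1 five_check w hwN
    unfold AdjP at hqw hpw
    simp only [hqw, Bool.not_true, Bool.false_or, Bool.or_eq_true, Bool.and_eq_true, Nat.beq_eq,
      List.any_eq_true, List.all_eq_true, Bool.not_eq_true', ← Bool.not_eq_true] at hch
    rcases hch with (((h | h) | h) | h) | ⟨⟨j, -, hj⟩, h⟩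
    · exact hpw h
    · exact hne.1 (Fin.ext h)
    · exact hne.2.1 (Fin.ext h)
    · exact hne.2.2 (Fin.ext h)
    have hpick : ∀ u ∈ M, ∃ k ∈ stabOf ((act hc hz).comp (fix4 z a b c d).subtype) R,
        L.σ k = rp u := by
      rw [hM]
      rintro _ ⟨B, hB, rfl⟩
      obtain ⟨k, hk, hkR⟩ := hgenR hB
      exact ⟨k, hkR, hk⟩
    obtain ⟨k1, m1, e1⟩ := hpick p1 hp1
    obtain ⟨k2, m2, e2⟩ := hpick w hw
    obtain ⟨k3, m3, e3⟩ := hpick q1 hq1
    obtain ⟨k4, m4, e4⟩ := hpick q2 hq2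
    obtain ⟨τ, hτ⟩ : ∃ τ, L.σ (k1 * k2 * k3 * k4) = τ := ⟨_, rfl⟩
    have hτv : ∀ i, τ i = four p1 w q1 q2 i := fun i => by
      simp only [← hτ, map_mul, e1, e2, e3, e4, Equiv.Perm.mul_apply, rp_apply, four]
    have ho : orderOf τ = 5 := by
      haveI : Fact (Nat.Prime 5) := ⟨by norm_num⟩
      refine orderOf_eq_prime (Equiv.ext fun i => ?_) fun e => hj (by
        rw [← hτv, e, Equiv.Perm.one_apply])
      simp only [pow_succ, pow_zero, one_mul, Equiv.Perm.mul_apply, hτv, Equiv.Perm.one_apply]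
      exact Fin.ext (h i (mem_all126 i))
    have hmem : τ ∈ (stabOf ((act hc hz).comp (fix4 z a b c d).subtype) R).map L.σ :=
      ⟨_, mul_mem (mul_mem (mul_mem m1 m2) m3) m4, hτ⟩
    have hd := (Subgroup.orderOf_dvd_natCard _ hmem).trans
      (Subgroup.card_map_dvd (stabOf ((act hc hz).comp (fix4 z a b c d).subtype) R) L.σ)
    rw [ho, L.card_stab_far hR1 hR2] at hd
    norm_num at hd
  obtain ⟨hp2N, hp3N, hnd, hqp2, hqp3⟩ := q1_nbrs
  obtain ⟨hp2, hp3⟩ : p2 ∈ M ∧ p3 ∈ M := by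
    have e : {w | w ∈ M ∧ AdjP q1 w} = ({p1, p2, p3} : Set (Fin 126)) := by
      refine Set.eq_of_subset_of_ncard_le (fun w hw => h5 w hw.1 hw.2) ?_ (Set.toFinite _)
      rw [(hdeg q1 hq1).1]
      refine (Set.ncard_insert_le _ _).trans (Nat.add_le_add_right ((Set.ncard_insert_le _ _).trans ?_) 1)
      simp
    exact ⟨(e.symm.subset (by simp : p2 ∈ _)).1, (e.symm.subset (by simp : p3 ∈ _)).1⟩
  have hsix : ∀ u ∈ six, u ∈ M := by
    intro u hu
    simp only [six, List.mem_cons, List.not_mem_nil, or_false] at hu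
    rcases hu with rfl | rfl | rfl | rfl | rfl | rfl
    exacts [hp1, hp2, hp3, hq1, hq2, hq3]
  have hstd : M ⊆ {w | std w = true ∧ nb0 w = true} := by
    intro w hw
    have hwN : nb0 w = true := by
      obtain ⟨B, hB, rfl⟩ := (hM ▸ hw : w ∈ L.ι '' com (qd haT) R)
      exact L.near B hB.1
    refine ⟨?_, hwN⟩
    by_cases h6 : w ∈ six
    · exact (six_mem w h6).2
    have hch := List.all_eq_true.1 six_check.1 w (mem_N0.2 hwN)
    simp only [Bool.or_eq_true, List.any_eq_true, Nat.beq_eq] at hch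
    rcases hch with (⟨u, hu, e⟩ | ⟨u, hu, e⟩) | h
    · exact absurd ((Fin.ext e : w = u) ▸ hu) h6
    · exfalso
      refine h6 ?_
      have e2 : {v | v ∈ six.filter (adjB u)} = {v | v ∈ M ∧ AdjP u v} := by
        refine Set.eq_of_subset_of_ncard_le (fun v hv => ?_) ?_ (Set.toFinite _)
        · obtain ⟨hv1, hv2⟩ := List.mem_filter.1 hv
          exact ⟨hsix v hv1, hv2⟩
        · rw [(hdeg u (hsix u hu)).1,
            show {v | v ∈ six.filter (adjB u)} = ↑(six.filter (adjB u)).toFinset by ext; simp,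
            Set.ncard_coe_finset, List.toFinset_card_of_nodup (hnd.filter _)]
          exact (Nat.eq_of_beq_eq_true (List.all_eq_true.1 six_nbr_check u hu)).ge
      exact (List.mem_filter.1 (e2.symm.subset ⟨hw, (show AdjP w u from e).symm⟩)).1
    · exact h
  have heq : M = {w | std w = true ∧ nb0 w = true} := by
    refine Set.eq_of_subset_of_ncard_le hstd ?_ (Set.toFinite _)
    rw [hM, Set.InjOn.ncard_image (fun C hC C' hC' e => L.inj C C' (Or.inr hC.1) (Or.inr hC'.1) e),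
      L.counts.2 R hR1 hR2,
      show {w | std w = true ∧ nb0 w = true} = ↑(all126.filter std).toFinset by
        ext w
        simp only [Set.mem_setOf_eq, List.coe_toFinset, List.mem_filter, mem_all126, true_and]
        exact ⟨And.left, fun h => ⟨h, (Bool.and_eq_true _ _ ▸ h : _ ∧ _).1⟩⟩,
      Set.ncard_coe_finset, List.toFinset_card_of_nodup (l := all126.filter std) ((List.nodup_finRange 126).filter _)]
    have := count_check
    simp only [Bool.and_eq_true, Nat.beq_eq] at this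
    exact le_of_eq (by simpa using this.2)
  intro B hB
  rw [← hMmem hB, heq]
  exact ⟨And.left, fun h => ⟨h, L.near B hB⟩⟩

end m24

end CfsgLib.Quad81
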