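import Mathlib
import Cfsg.Agent.ThreeTransp.Quad81.Frame

/-!
The graph on the 45 points orthogonal to the base point has at most 51840 automorphisms: ten of the
points have a fixator trivial, and the possible images of each bound the order.
-/

set_option autoImplicit false

namespace CfsgLib.Quad81

/-- the ten points -/
def baseTen : List (Fin 126) := [17, 20, 50, 100, 77, 102, 119, 71, 48, 11]

/-- the points related to those in `B` as `b` is -/
def cls (B : List (Fin 126)) (b : Fin 126) : List (Fin 126) :=
  N0.filter fun x => B.all fun c =>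
    (adjB c x == adjB c b) && (Nat.beq c x == Nat.beq c b)

/-- the bound -/
def bnd : List (Fin 126) → List (Fin 126) → ℕ
  | _, [] => 1
  | B, b :: t => (cls B b).length * bnd (b :: B) t

theorem bnd_check : Nat.beq (bnd [] baseTen) 51840 = true ∧ baseTen.all nb0 = true := by
  decide +kernel

theorem resolve_check : (N0.all fun x => N0.all fun y => Nat.beq x y || baseTen.any fun c =>
    !(adjB c x == adjB c y) || !(Nat.beq c x == Nat.beq c y)) = true := by
  decide +kernel

/-- the points orthogonal to the base point -/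
abbrev Pt45 : Type := {i : Fin 126 // nb0 i = true}

theorem bnd_le : ∀ (t B : List (Fin 126)) (W : Subgroup (Equiv.Perm Pt45)),
    (∀ w ∈ W, ∀ x y : Pt45, AdjP (w x).1 (w y).1 ↔ AdjP x.1 y.1) →
    (∀ w ∈ W, ∀ x : Pt45, x.1 ∈ B → w x = x) →
    (∀ i ∈ t, nb0 i = true) → (∀ i ∈ B, nb0 i = true) →
    (∀ c ∈ baseTen, c ∈ B ∨ c ∈ t) → Nat.card ↥W ≤ bnd B t := by
  intro t
  induction t with
  | nil =>
    intro B W hadj hfix _ hB hcov
    have : W = ⊥ := by
      rw [eq_bot_iff]
      intro w hw
      refine Subgroup.mem_bot.2 (Equiv.ext fun x => Subtype.ext ?_)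
      have := List.all_eq_true.1 (List.all_eq_true.1 resolve_check _ (mem_N0.2 (w x).2)) _
        (mem_N0.2 x.2)
      simp only [Bool.or_eq_true, List.any_eq_true, Bool.not_eq_true', ← Bool.not_eq_true,
        beq_iff_eq, Nat.beq_eq] at this
      rcases this with h | ⟨c, hc, h⟩
      · exact Fin.ext h
      exfalso
      have hcB : c ∈ B := (hcov c hc).resolve_right (List.not_mem_nil)
      have hwc := hfix w hw ⟨c, hB c hcB⟩ hcB
      rcases h with h | h
      · refine h (Bool.eq_iff_iff.2 ?_)
        have := hadj w hw ⟨c, hB c hcB⟩ x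
        rwa [hwc] at this
      · refine h (Bool.eq_iff_iff.2 ?_)
        rw [Nat.beq_eq, Nat.beq_eq]
        constructor
        · intro e
          have : w ⟨c, hB c hcB⟩ = w x := hwc.trans (Subtype.ext (Fin.ext e))
          exact congrArg (fun p : Pt45 => (p.1 : ℕ)) (w.injective this)
        · intro e
          have : (⟨c, hB c hcB⟩ : Pt45) = x := Subtype.ext (Fin.ext e)
          rw [← this, hwc]
    rw [this, bnd, Subgroup.card_bot]
  | cons b t ih =>
    intro B W hadj hfix ht hB hcov
    obtain ⟨p, hp⟩ : ∃ p : Pt45, p.1 = b := ⟨⟨b, ht b (List.mem_cons_self ..)⟩, rfl⟩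
    have h := card_stabOf W.subtype p
    have h1 : Nat.card ↥(stabOf W.subtype p) ≤ bnd (b :: B) t := by
      rw [Nat.card_congr (Subgroup.equivMapOfInjective _ _ W.subtype_injective).toEquiv]
      refine ih (b :: B) _ ?_ ?_ (fun i hi => ht i (List.mem_cons_of_mem _ hi))
        (fun i hi => by
          rcases List.mem_cons.1 hi with rfl | hi
          exacts [ht _ (List.mem_cons_self ..), hB i hi]) fun c hc => ?_
      · rintro _ ⟨w, -, rfl⟩
        exact hadj _ w.2
      · rintro _ ⟨w, hw, rfl⟩ x hx
        rcases List.mem_cons.1 hx with e | e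
        · have : x = p := Subtype.ext (e.trans hp.symm)
          rw [this]
          exact hw
        · exact hfix _ w.2 x e
      · rcases hcov c hc with e | e
        · exact Or.inl (List.mem_cons_of_mem _ e)
        · rcases List.mem_cons.1 e with rfl | e
          exacts [Or.inl (List.mem_cons_self ..), Or.inr e]
    have h2 : {y | ∃ w, W.subtype w p = y}.ncard ≤ (cls B b).length := by
      rw [← Set.ncard_image_of_injective _ Subtype.val_injective]
      refine le_trans (Set.ncard_le_ncard (t := ↑(cls B b).toFinset) ?_ (Finset.finite_toSet _))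
        (by rw [Set.ncard_coe_finset]; exact List.toFinset_card_le _)
      rintro _ ⟨_, ⟨w, rfl⟩, rfl⟩
      rw [Finset.mem_coe, List.mem_toFinset, cls, List.mem_filter]
      refine ⟨mem_N0.2 (W.subtype w p).2, List.all_eq_true.2 fun c hc => ?_⟩
      have hwc := hfix _ w.2 ⟨c, hB c hc⟩ hc
      rw [Bool.and_eq_true, beq_iff_eq, beq_iff_eq]
      refine ⟨Bool.eq_iff_iff.2 ?_, Bool.eq_iff_iff.2 ?_⟩
      · have := hadj _ w.2 ⟨c, hB c hc⟩ p
        rw [hwc] at this
        rw [← hp]
        exact this
      · rw [Nat.beq_eq, Nat.beq_eq, ← hp]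
        constructor
        · intro e
          have : (w.1) ⟨c, hB c hc⟩ = w.1 p := hwc.trans (Subtype.ext (Fin.ext e))
          exact congrArg (fun q : Pt45 => (q.1 : ℕ)) (w.1.injective this)
        · intro e
          have : (⟨c, hB c hc⟩ : Pt45) = p := Subtype.ext (Fin.ext e)
          show (c : ℕ) = ((w.1 p).1 : ℕ)
          rw [← this, hwc]
    rw [bnd, ← h, mul_comm]
    exact Nat.mul_le_mul h2 h1

/-- The graph on the 45 points has at most 51840 automorphisms. -/
theorem card_aut45 (W : Subgroup (Equiv.Perm Pt45))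
    (h : ∀ w ∈ W, ∀ x y : Pt45, AdjP (w x).1 (w y).1 ↔ AdjP x.1 y.1) : Nat.card ↥W ≤ 51840 := by
  rw [← Nat.eq_of_beq_eq_true bnd_check.1]
  exact bnd_le baseTen [] W h (fun _ _ _ hx => absurd hx List.not_mem_nil)
    (List.all_eq_true.1 bnd_check.2) (fun _ hi => absurd hi List.not_mem_nil) fun c hc => Or.inr hc

end CfsgLib.Quad81
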