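import Mathlib
import Cfsg.Agent.ThreeTransp.Quad81.Frame

/-!
Type M(24): the 126 four-sets with a given product are the 126 points, each member acting as the
reflection of its four-set.
-/

set_option autoImplicit false

namespace CfsgLib.Quad81

open Cfsg CfsgLib.ThreeTransp

universe u

theorem mask0_congr {i j : Fin 126} (h : ∀ k ∈ N0, adjB i k = adjB j k) : mask0 i = mask0 j := by
  have key : ∀ (l : List (Fin 126)) (n : ℕ), (∀ k ∈ l, adjB i k = adjB j k) →
      l.foldl (fun s k => 2 * s + if adjB i k then 1 else 0) n =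
        l.foldl (fun s k => 2 * s + if adjB j k then 1 else 0) n := by
    intro l
    induction l with
    | nil => intro n _; rfl
    | cons a t ih =>
      intro n hl
      rw [List.foldl_cons, List.foldl_cons, hl a (List.mem_cons_self ..)]
      exact ih _ fun k hk => hl k (List.mem_cons_of_mem _ hk)
  exact key N0 0 h

theorem mem_far0 {i : Fin 126} : i ∈ far0 ↔ i ≠ p0 ∧ ¬ AdjP p0 i := by
  unfold far0 AdjP
  rw [List.mem_filter, Bool.and_eq_true, Bool.not_eq_true', Bool.not_eq_true', ← Bool.not_eq_true,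
    ← Bool.not_eq_true, Nat.beq_eq]
  simp [mem_all126, Fin.ext_iff, nb0]

theorem far_nbr_check : Nat.beq ((far0.filter (adjB r0)).length) 27 = true := by decide +kernel

/-- two points nonadjacent to `i` with the same common neighbours as `j`, other than `j`, are equal -/
theorem fibre_unique {h : Equiv.Perm (Fin 126)} (hh : ∀ x y, AdjP (h x) (h y) ↔ AdjP x y)
    {i j j₁ j₂ : Fin 126} (hi : h p0 = i)
    (hj : j ≠ i ∧ ¬ AdjP i j) (h1 : j₁ ≠ i ∧ ¬ AdjP i j₁) (h2 : j₂ ≠ i ∧ ¬ AdjP i j₂)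
    (s1 : ∀ k, AdjP i k → (AdjP j₁ k ↔ AdjP j k)) (s2 : ∀ k, AdjP i k → (AdjP j₂ k ↔ AdjP j k))
    (n1 : j₁ ≠ j) (n2 : j₂ ≠ j) : j₁ = j₂ := by
  subst hi
  obtain ⟨j', rfl⟩ := h.surjective j
  obtain ⟨a, rfl⟩ := h.surjective j₁
  obtain ⟨b, rfl⟩ := h.surjective j₂
  simp only [ne_eq, h.injective.eq_iff, hh] at hj h1 h2 n1 n2
  have hm : ∀ {x}, (∀ k, AdjP (h p0) k → (AdjP (h x) k ↔ AdjP (h j') k)) → mask0 x = mask0 j' := by
    intro x hx
    refine mask0_congr fun k hk => ?_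
    have := hx (h k) ((hh p0 k).2 (mem_N0.1 hk))
    rw [hh, hh] at this
    exact Bool.eq_iff_iff.2 this
  have key : ∀ {x}, x ≠ p0 ∧ ¬ AdjP p0 x → mask0 x = mask0 j' → x ≠ j' → x = rfn p0 j' := by
    intro x hx e ne
    have hc := fibre_check
    simp only [List.all_eq_true, List.forall_mem_map, Bool.or_eq_true, Bool.not_eq_true',
      ← Bool.not_eq_true, Nat.beq_eq] at hc
    rcases hc j' (mem_far0.2 hj) x (mem_far0.2 hx) with (h' | h') | h'
    · exact absurd e.symm h'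
    · exact absurd (Fin.ext h') ne
    · exact Fin.ext h'
  rw [key h1 (hm s1) n1, key h2 (hm s2) n2]

variable {G : Type u} [Group G] {D : Set G}

section m24

variable [Finite G] {hc : Ctx D} {z : G} {hz : IsQuad D z}

theorem act_pairSub {w : ↥(Subgroup.centralizer ({z} : Set G))} (hw : (w : G) ∈ pairSub D z) :
    act hc hz w = 1 := by
  have hle : pairSub D z ≤ (act hc hz).ker.map (Subgroup.centralizer ({z} : Set G)).subtype := by
    rw [pairSub, Subgroup.closure_le]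
    rintro _ ⟨e, he, x, hx, y, hy, rfl⟩
    have hxT := blk_mem hc hx
    have hyT := blk_mem hc hy
    refine ⟨mel hc hxT * mel hc hyT, ?_, rfl⟩
    rw [SetLike.mem_coe, MonoidHom.mem_ker, map_mul]
    show rf hc hz hxT * rf hc hz hyT = 1
    rw [rf_congr hc hz hxT hyT (Subtype.ext ((blk_congr hc hx).trans (blk_congr hc hy).symm))]
    show act hc hz (mel hc hyT) * act hc hz (mel hc hyT) = 1
    rw [← map_mul, show mel hc hyT * mel hc hyT = 1 from Subtype.ext (tt_mul_self hc.hG.1 hyT.1),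
      map_one]
  obtain ⟨w', hw', e⟩ := hle hw
  rwa [show w = w' from Subtype.ext e.symm]

variable {a b c d : G} {haT : a ∈ commMembers53 D z} (L : Loc hc hz a b c d haT)
include L

theorem Loc.card_ker : Nat.card ↥L.σ.ker = 2048 := by
  have h := Subgroup.card_mul_index L.σ.ker
  rw [Subgroup.index_ker, L.range, L.card] at h
  omega

theorem Loc.stab_r0 {R : Om D z} (h1 : R ≠ qd haT) (h2 : ¬ Adj (qd haT) R)
    (hM : ∀ B, Adj (qd haT) B → (Adj R B ↔ std (L.ι B) = true))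
    {k : ↥(fix4 z a b c d)} (hk : act hc hz k.1 R = R) : L.σ k r0 = r0 := by
  classical
  obtain ⟨S, hS⟩ : ∃ S, stabOf ((act hc hz).comp (fix4 z a b c d).subtype) R = S := ⟨_, rfl⟩
  obtain ⟨W, hW⟩ : ∃ W : Subgroup (Equiv.Perm (Fin 126)),
      W = Subgroup.closure {τ | ∃ i, std i = true ∧ τ = rp i} := ⟨_, rfl⟩
  have hrpW : ∀ i, std i = true → rp i ∈ W := fun i hi =>
    hW ▸ Subgroup.subset_closure ⟨i, hi, rfl⟩
  have hWle : W ≤ S.map L.σ := by
    rw [hW, Subgroup.closure_le]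
    rintro _ ⟨i, hi, rfl⟩
    obtain ⟨B, x, hx, k', hB, hBi, rfl, hk', e⟩ :=
      L.elem (i := i) (Bool.and_eq_true _ _ ▸ hi : _ ∧ _).1
    refine ⟨k', hS ▸ ?_, e⟩
    rw [SetLike.mem_coe, mem_stabOf]
    show act hc hz k'.1 R = R
    rw [hk']
    exact rf_fix hc hz hx (Or.inr ((hM _ hB).2 (hBi.symm ▸ hi)).symm)
  have hS648 : Nat.card ↥(S.map L.σ) = 648 := by
    have hker : L.σ.ker ≤ S := fun k' hk' => hS ▸ mem_stabOf.2 (by
      show act hc hz k'.1 R = R
      rw [act_pairSub (L.ker k' hk'), Equiv.Perm.one_apply])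
    have h := Subgroup.card_mul_index ((L.σ.comp S.subtype).ker)
    rw [Subgroup.index_ker, MonoidHom.range_comp, Subgroup.range_subtype,
      show (L.σ.comp S.subtype).ker = L.σ.ker.subgroupOf S from rfl,
      Nat.card_congr (Subgroup.subgroupOfEquivOfLe hker).toEquiv, L.card_ker, ← hS,
      L.card_stab_far h1 h2] at h
    rw [← hS]
    omega
  -- the lower bound
  obtain ⟨hall, g5p, g5b⟩ : (∀ i ∈ [ixN 1028, b5, ixN 2056, ixN 40, p1, p2, q1, q2, q3],
      std i = true) ∧ (g5 p1 = p1 ∧ g5 q1 = q1 ∧ g5 q2 = q2 ∧ g5 p2 = p2) ∧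
      (g5 b5 ≠ b5 ∧ g5 (g5 b5) ≠ b5 ∧ g5 (g5 b5) ≠ g5 b5) := by decide +kernel
  obtain ⟨r11, r21, r111, r122, rp11, rp12, rp13, rp1p, rne⟩ :
      rfn q1 p1 = p1 ∧ rfn q2 p1 = p1 ∧ rfn q1 q1 = q1 ∧ rfn q1 q2 ≠ q2 ∧ rfn p1 p1 = p1 ∧
        rfn p1 q1 = q1 ∧ rfn p1 q2 = q2 ∧ rfn p1 p2 = p3 ∧ p3 ≠ p2 := by decide +kernel
  obtain ⟨W1, hW1⟩ : ∃ W1, W1 = W ⊓ MulAction.stabilizer (Equiv.Perm (Fin 126)) p1 := ⟨_, rfl⟩
  obtain ⟨W2, hW2⟩ : ∃ W2, W2 = W1 ⊓ MulAction.stabilizer (Equiv.Perm (Fin 126)) q1 := ⟨_, rfl⟩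
  obtain ⟨W3, hW3⟩ : ∃ W3, W3 = W2 ⊓ MulAction.stabilizer (Equiv.Perm (Fin 126)) q2 := ⟨_, rfl⟩
  obtain ⟨W4, hW4⟩ : ∃ W4, W4 = W3 ⊓ MulAction.stabilizer (Equiv.Perm (Fin 126)) p2 := ⟨_, rfl⟩
  have hlow : ∀ (V V' : Subgroup (Equiv.Perm (Fin 126))) (x : Fin 126) (s : Finset (Fin 126)),
      V' = V ⊓ MulAction.stabilizer (Equiv.Perm (Fin 126)) x → (∀ y ∈ s, ∃ v ∈ V, v x = y) →
      s.card * Nat.card ↥V' ≤ Nat.card ↥V := by
    intro V V' x s hV' hs
    have h := card_stabOf V.subtype x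
    rw [show Nat.card ↥(stabOf V.subtype x) = Nat.card ↥V' by
      rw [hV']
      exact (Nat.card_congr (Subgroup.equivMapOfInjective _ _ V.subtype_injective).toEquiv).trans
        (by rw [show (stabOf V.subtype x).map V.subtype =
          V ⊓ MulAction.stabilizer (Equiv.Perm (Fin 126)) x from Subgroup.subgroupOf_map_subtype _ _
            |>.trans (inf_comm _ _)])] at h
    rw [← h, mul_comm]
    refine Nat.mul_le_mul_left _ ?_
    rw [← Set.ncard_coe_finset]
    refine Set.ncard_le_ncard (fun y hy => ?_) (Set.toFinite _)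
    obtain ⟨v, hv, e⟩ := hs y hy
    exact ⟨⟨v, hv⟩, e⟩
  have hfix : ∀ {i x}, rfn i x = x → rp i ∈ MulAction.stabilizer (Equiv.Perm (Fin 126)) x :=
    fun e => MulAction.mem_stabilizer_iff.2 ((rp_apply _ _).trans e)
  have m1 : rp q1 ∈ W1 ∧ rp q2 ∈ W1 ∧ rp p1 ∈ W1 := by
    rw [hW1]
    exact ⟨⟨hrpW _ (hall _ (by simp)), hfix r11⟩, ⟨hrpW _ (hall _ (by simp)), hfix r21⟩,
      ⟨hrpW _ (hall _ (by simp)), hfix rp11⟩⟩
  have m2 : rp q1 ∈ W2 ∧ rp p1 ∈ W2 := by
    rw [hW2]; exact ⟨⟨m1.1, hfix r111⟩, ⟨m1.2.2, hfix rp12⟩⟩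
  have m3 : rp p1 ∈ W3 := by rw [hW3]; exact ⟨m2.2, hfix rp13⟩
  obtain ⟨t, ht⟩ : ∃ t, t = rp (ixN 1028) * rp b5 * rp (ixN 2056) * rp (ixN 40) := ⟨_, rfl⟩
  have htv : ∀ j, t j = g5 j := fun j => by
    simp only [ht, Equiv.Perm.mul_apply, rp_apply, g5, four]
  have m4 : t ∈ W4 := by
    rw [hW4, hW3, hW2, hW1]
    refine ⟨⟨⟨⟨?_, ?_⟩, ?_⟩, ?_⟩, ?_⟩
    · rw [ht]
      exact mul_mem (mul_mem (mul_mem (hrpW _ (hall _ (by simp))) (hrpW _ (hall _ (by simp))))
        (hrpW _ (hall _ (by simp)))) (hrpW _ (hall _ (by simp)))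
    · exact MulAction.mem_stabilizer_iff.2 ((htv _).trans g5p.1)
    · exact MulAction.mem_stabilizer_iff.2 ((htv _).trans g5p.2.1)
    · exact MulAction.mem_stabilizer_iff.2 ((htv _).trans g5p.2.2.1)
    · exact MulAction.mem_stabilizer_iff.2 ((htv _).trans g5p.2.2.2)
  have c4 : 3 ≤ Nat.card ↥W4 := by
    refine le_trans ?_ (hlow W4 _ b5 {b5, g5 b5, g5 (g5 b5)} rfl ?_ |>.trans le_rfl)
    · rw [Finset.card_insert_of_notMem (by simp [g5b.1.symm, g5b.2.1.symm]),
        Finset.card_pair g5b.2.2.symm]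
      exact Nat.le_mul_of_pos_right _ Nat.card_pos
    · simp only [Finset.mem_insert, Finset.mem_singleton, forall_eq_or_imp, forall_eq]
      exact ⟨⟨1, one_mem _, rfl⟩, ⟨t, m4, htv _⟩,
        ⟨t * t, mul_mem m4 m4, by rw [Equiv.Perm.mul_apply, htv, htv]⟩⟩
  have c3 := hlow W3 W4 p2 {p2, p3} hW4 (by
    simp only [Finset.mem_insert, Finset.mem_singleton, forall_eq_or_imp, forall_eq]
    exact ⟨⟨1, one_mem _, rfl⟩, ⟨_, m3, (rp_apply _ _).trans rp1p⟩⟩)
  rw [Finset.card_pair rne.symm] at c3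
  have c2 := hlow W2 W3 q2 {q2, rfn q1 q2} hW3 (by
    simp only [Finset.mem_insert, Finset.mem_singleton, forall_eq_or_imp, forall_eq]
    exact ⟨⟨1, one_mem _, rfl⟩, ⟨_, m2.1, rp_apply _ _⟩⟩)
  rw [Finset.card_pair r122.symm] at c2
  have hchain := chain_check
  simp only [Bool.and_eq_true, List.all_eq_true, List.contains_iff_mem, decide_eq_true_eq] at hchain
  obtain ⟨⟨-, h18⟩, hR3⟩ := hchain
  have c1 := hlow W1 W2 q1 {q1, q2, q3} hW2 (by
    have key : ∀ j ∈ step [q1, q2] (step [q1, q2] [q1]), ∃ v ∈ W1, v q1 = j := by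
      have hs : ∀ x ∈ [q1, q2], ∀ j, (∃ v ∈ W1, v q1 = j) → ∃ v ∈ W1, v q1 = rfn x j := by
        rintro x hx j ⟨v, hv, rfl⟩
        simp only [List.mem_cons, List.not_mem_nil, or_false] at hx
        exact ⟨rp x * v, mul_mem (by rcases hx with rfl | rfl; exacts [m1.1, m1.2.1]) hv,
          by rw [Equiv.Perm.mul_apply, rp_apply]⟩
      exact step_closed (step_closed (fun j hj => ⟨1, one_mem _, by simp_all⟩) hs) hs
    simp only [Finset.mem_insert, Finset.mem_singleton, forall_eq_or_imp, forall_eq]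
    exact ⟨key _ hR3.1.1, key _ hR3.1.2, key _ hR3.2⟩)
  rw [Finset.card_insert_of_notMem (by decide +kernel), Finset.card_pair (by decide +kernel)] at c1
  have c0 := hlow W W1 p1 (all126.filter std).toFinset hW1 (by
    intro y hy
    have hs : ∀ x ∈ all126.filter std, ∀ j, (∃ v ∈ W, v p1 = j) → ∃ v ∈ W, v p1 = rfn x j := by
      rintro x hx j ⟨v, hv, rfl⟩
      exact ⟨rp x * v, mul_mem (hrpW x (List.mem_filter.1 hx).2) hv,
        by rw [Equiv.Perm.mul_apply, rp_apply]⟩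
    exact step_closed (step_closed (step_closed (fun j hj => ⟨1, one_mem _, by simp_all⟩) hs) hs)
      hs y (h18 y (List.mem_toFinset.1 hy)))
  rw [List.toFinset_card_of_nodup (l := all126.filter std) ((List.nodup_finRange 126).filter _),
    show (all126.filter std).length = 18 by
      have := count_check
      simp only [Bool.and_eq_true, Nat.beq_eq] at this
      simpa using this.2] at c0
  have heq : W = S.map L.σ := Subgroup.eq_of_le_of_card_ge hWle (by rw [hS648]; omega)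
  have hle : W ≤ MulAction.stabilizer (Equiv.Perm (Fin 126)) r0 := by
    rw [hW, Subgroup.closure_le]
    rintro _ ⟨i, hi, rfl⟩
    refine hfix ?_
    have hf := fix_check
    simp only [Bool.and_eq_true, List.all_eq_true, Nat.beq_eq] at hf
    exact Fin.ext (hf.1 i (List.mem_filter.2 ⟨mem_all126 _, hi⟩)).1
  exact hle (heq ▸ ⟨k, hS ▸ hk, rfl⟩)

set_option maxHeartbeats 800000 in
/-- The four-sets are the points. -/
theorem Loc.exists_iso : ∃ F : Om D z ≃ Fin 126, F (qd haT) = p0 ∧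
    (∀ B, Adj (qd haT) B → F B = L.ι B) ∧
    (∀ B B', Adj B B' ↔ AdjP (F B) (F B')) ∧
    (∀ (k : ↥(fix4 z a b c d)) B, F (act hc hz k.1 B) = L.σ k (F B)) ∧
    ∀ x (hx : x ∈ commMembers53 D z) B, F (rf hc hz hx B) = rp (F (qd hx)) (F B) := by
  classical
  haveI := Fintype.ofFinite (Om D z)
  obtain ⟨R, hR1, hR2, hM⟩ := L.frame
  obtain ⟨b8, b9⟩ := (base_facts).2.2.2.2.2.2.2
  have hr0far : r0 ∈ far0 := mem_far0.2 ⟨b9, fun e => Bool.noConfusion (b8.symm.trans e)⟩
  have hσfar : ∀ k, L.σ k r0 ≠ p0 ∧ ¬ AdjP p0 (L.σ k r0) := fun k => by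
    constructor
    · intro e
      exact b9 ((L.σ k).injective (e.trans (L.fixp k).symm))
    · intro e
      rw [← L.fixp k] at e
      exact (mem_far0.1 hr0far).2 ((L.adjσ k _ _).1 e)
  have hwd : ∀ k k' : ↥(fix4 z a b c d), act hc hz k.1 R = act hc hz k'.1 R →
      L.σ k r0 = L.σ k' r0 := by
    intro k k' e
    have h := L.stab_r0 hR1 hR2 hM (k := k'⁻¹ * k) (by
      rw [Subgroup.coe_mul, map_mul, Equiv.Perm.mul_apply, e, Subgroup.coe_inv, map_inv,
        perm_inv_apply])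
    rw [map_mul, Equiv.Perm.mul_apply, map_inv] at h
    calc L.σ k r0 = L.σ k' ((L.σ k')⁻¹ (L.σ k r0)) := (perm_inv_cancel _ _).symm
      _ = L.σ k' r0 := by rw [h]
  have hsplit : ∀ B : Om D z, Nr (qd haT) B ∨ ∃ k : ↥(fix4 z a b c d), act hc hz k.1 R = B := by
    intro B
    by_cases hB : Nr (qd haT) B
    · exact Or.inl hB
    · exact Or.inr (L.trans80 hR1 hR2 (fun e => hB (Or.inl e)) fun e => hB (Or.inr e))
  have hnotNr : ∀ k : ↥(fix4 z a b c d), ¬ Nr (qd haT) (act hc hz k.1 R) := by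
    rintro k (e | e)
    · exact hR1 ((act hc hz k.1).injective (e.trans (L.fix_base k).symm))
    · rw [← L.fix_base k] at e
      exact hR2 ((act_adj hc hz k.1).1 e)
  obtain ⟨Ff, hFf⟩ : ∃ Ff : Om D z → Fin 126, ∀ B, Ff B =
      if h : Nr (qd haT) B then L.ι B else L.σ ((hsplit B).resolve_left h).choose r0 :=
    ⟨_, fun _ => rfl⟩
  have hFn : ∀ B, Nr (qd haT) B → Ff B = L.ι B := fun B h => by rw [hFf, dif_pos h]
  have hFr : ∀ k : ↥(fix4 z a b c d), Ff (act hc hz k.1 R) = L.σ k r0 := fun k => by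
    rw [hFf, dif_neg (hnotNr k)]
    exact hwd _ _ ((hsplit (act hc hz k.1 R)).resolve_left (hnotNr k)).choose_spec
  have hF0 : Ff (qd haT) = p0 := (hFn _ (Or.inl rfl)).trans L.base
  have hequiv : ∀ (k : ↥(fix4 z a b c d)) B, Ff (act hc hz k.1 B) = L.σ k (Ff B) := by
    intro k B
    rcases hsplit B with h | ⟨k', rfl⟩
    · have h' : Nr (qd haT) (act hc hz k.1 B) := by
        rcases h with rfl | h
        · exact Or.inl (L.fix_base k)
        · refine Or.inr ?_
          have := (act_adj hc hz k.1).2 h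
          rwa [L.fix_base] at this
      rw [hFn _ h', hFn _ h, L.equiv k B h]
    · rw [← Equiv.Perm.mul_apply, ← map_mul, ← Subgroup.coe_mul, hFr, hFr, map_mul,
        Equiv.Perm.mul_apply]
  have hsurj : Function.Surjective Ff := by
    intro i
    by_cases hi : i = p0
    · exact ⟨_, hF0.trans hi.symm⟩
    by_cases hn : nb0 i = true
    · obtain ⟨B, hB, e⟩ := L.onto i hn
      exact ⟨B, (hFn B (Or.inr hB)).trans e⟩
    have key : ∃ k, L.σ k r0 = i := by
      have hgen : ∀ x ∈ N0, ∀ j, (∃ k, L.σ k r0 = j) → ∃ k, L.σ k r0 = rfn x j := by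
        rintro x hx j ⟨k, rfl⟩
        obtain ⟨_, _, _, kx, -, -, -, -, e⟩ := L.elem (mem_N0.1 hx)
        exact ⟨kx * k, by rw [map_mul, Equiv.Perm.mul_apply, e, rp_apply]⟩
      refine step_closed (step_closed (step_closed (fun j hj => ⟨1, by
        rw [map_one, Equiv.Perm.one_apply]; exact (List.mem_singleton.1 hj).symm⟩) hgen) hgen) hgen i ?_
      have hc' := trans80_check
      simp only [List.all_eq_true, List.contains_iff_mem] at hc'
      exact hc' i (mem_far0.2 ⟨hi, hn⟩)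
    obtain ⟨k, hk⟩ := key
    exact ⟨_, (hFr k).trans hk⟩
  have hbij : Function.Bijective Ff := (Fintype.bijective_iff_surjective_and_card Ff).2
    ⟨hsurj, by rw [← Nat.card_eq_fintype_card, L.counts.1, Fintype.card_fin]⟩
  -- the neighbours of the far block
  have hR0 : Ff R = r0 := by
    have := hFr 1
    rwa [Subgroup.coe_one, map_one, Equiv.Perm.one_apply, map_one, Equiv.Perm.one_apply] at this
  have hfarB : ∀ B, (B ≠ qd haT ∧ ¬ Adj (qd haT) B) ↔ Ff B ∈ far0 := by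
    intro B
    rw [mem_far0]
    rcases hsplit B with (rfl | h) | ⟨k, rfl⟩
    · simp [hF0]
    · rw [hFn B (Or.inr h)]
      exact ⟨fun e => absurd h e.2, fun e => absurd (L.near B h) e.2⟩
    · rw [hFr]
      exact ⟨fun _ => hσfar k, fun _ => ⟨fun e => hnotNr k (Or.inl e), fun e => hnotNr k (Or.inr e)⟩⟩
  have hkey : ∀ C, Adj R C ↔ AdjP r0 (Ff C) := by
    have hcomm : com (qd haT) R = {C | Adj R C ∧ Adj (qd haT) C} := by
      ext C; exact and_comm
    obtain ⟨A, hA⟩ : ∃ A, A = {C | (C ≠ qd haT ∧ ¬ Adj (qd haT) C) ∧ Adj R C} := ⟨_, rfl⟩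
    obtain ⟨A', hA'⟩ : ∃ A', A' = {C | Ff C ∈ far0 ∧ AdjP r0 (Ff C)} := ⟨_, rfl⟩
    have hAcard : A.ncard = 27 := by
      have hdegR : {C | Adj R C}.ncard = 45 := by
        obtain ⟨g, hg⟩ := trans_Om hc hz (qd haT) R
        rw [← L.degree, ← Set.ncard_image_of_injective {W | Adj (qd haT) W} (act hc hz g).injective,
          ← hg]
        congr 1
        ext W
        obtain ⟨V, rfl⟩ := (act hc hz g).surjective W
        rw [(act hc hz g).injective.mem_set_image, Set.mem_setOf_eq, Set.mem_setOf_eq, act_adj]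
      have e : A = {C | Adj R C} \ com (qd haT) R := by
        ext C
        simp only [hA, hcomm, Set.mem_setOf_eq, Set.mem_diff, not_and]
        exact ⟨fun h => ⟨h.2, fun _ => h.1.2⟩, fun h => ⟨⟨fun e => hR2 (e ▸ h.1).symm, h.2 h.1⟩, h.1⟩⟩
      rw [e, Set.ncard_diff (fun C hC => hC.2) (Set.toFinite _), hdegR, L.counts.2 R hR1 hR2]
    have hA'card : A'.ncard = 27 := by
      rw [hA', show {C | Ff C ∈ far0 ∧ AdjP r0 (Ff C)} = Ff ⁻¹' ↑(far0.filter (adjB r0)).toFinset by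
          ext C; simp [AdjP],
        Set.ncard_preimage_of_injective_subset_range hbij.1 (by simp [hsurj.range_eq]),
        Set.ncard_coe_finset, List.toFinset_card_of_nodup (l := far0.filter (adjB r0))
          (((List.nodup_finRange 126).filter _).filter _)]
      exact Nat.eq_of_beq_eq_true far_nbr_check
    have hsub : A' ⊆ A := by
      rw [hA, hA']
      intro C hC
      refine ⟨(hfarB C).2 hC.1, ?_⟩
      have hch := List.all_eq_true.1 r0_nbr_check (Ff C) (mem_all126 _)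
      rw [show adjB r0 (Ff C) = true from hC.2] at hch
      simp only [beq_iff_eq, Bool.true_eq, Bool.or_eq_true, List.any_eq_true, Bool.and_eq_true,
        Bool.not_eq_true', Nat.beq_eq] at hch
      rcases hch with h | ⟨i, hi, hns, he⟩
      · exact absurd (show AdjP p0 (Ff C) from (Bool.and_eq_true _ _ ▸ h : _ ∧ _).1)
          (mem_far0.1 hC.1).2
      obtain ⟨B, y, hy, ky, hB, hBi, rfl, hky, eσ⟩ := L.elem (mem_N0.1 hi)
      obtain ⟨ka, hka, eσa⟩ := L.elem_base
      have hC' : C = act hc hz (ka * ky).1 R := hbij.1 (by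
        rw [hFr, map_mul, Equiv.Perm.mul_apply, eσ, eσa, rp_apply, rp_apply]
        exact (Fin.ext he).symm)
      have hne : C ≠ R := fun e => (show AdjP r0 (Ff C) from hC.2).ne (by rw [e, hR0])
      obtain ⟨x, hx⟩ := nonempty_blk hc hz R
      obtain ⟨hxT, hRx⟩ := eq_qd hc R hx
      have hax : ¬ Commute a x := fun e =>
        hR2 ((adj_iff hc hz hR1.symm (blk_self hc hz haT) hx).2 e)
      have hyx : ¬ Commute y x := fun e => by
        have hne' : R ≠ qd hy := fun e' => hR2 (e' ▸ hB)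
        have := (hM _ hB).1 ((adj_iff hc hz hne' hx (blk_self hc hz hy)).2 e.symm)
        rw [hBi] at this
        rw [this] at hns
        exact Bool.noConfusion hns
      have hay : Commute a y := hB.2 a (blk_self hc hz haT) y (blk_self hc hz hy)
      have hD := hc.hG.1
      have hval : (((ka * ky : ↥(fix4 z a b c d)) : ↥(Subgroup.centralizer ({z} : Set G))) : G) =
          a * y := by
        rw [Subgroup.coe_mul, hka, hky]; rfl
      have hmem := act_mem hc hz (g := (ka * ky).1) hx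
      rw [← hC', hval] at hmem
      rw [adj_iff hc hz hne.symm hx hmem]
      have ba := tt_braid hD haT.1 hxT.1 hax
      have byx := tt_braid hD hy.1 hxT.1 hyx
      have hinv : (a * y)⁻¹ = y * a := by rw [mul_inv_rev, tt_inv hD haT.1, tt_inv hD hy.1]
      rw [hinv]
      obtain ⟨w, hw⟩ : ∃ w, a * y * x * (y * a) = w := ⟨_, rfl⟩
      rw [hw]
      have e1 : w = (x * a * x) * y * (x * a * x) := by
        calc w = a * (y * x * y) * a := by rw [← hw]; simp only [mul_assoc]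
          _ = a * x * y * x * a := by rw [byx]; simp only [mul_assoc]
          _ = (a * x * a) * (a * y * a) * (a * x * a) := by
            simp only [mul_assoc, tt_cancel_left hD haT.1]
          _ = (x * a * x) * y * (x * a * x) := by
            rw [ba, hay.eq, mul_assoc y a a, tt_mul_self hD haT.1, mul_one]
      have e2 : x * w * x = w := by
        conv_rhs => rw [e1]
        calc x * w * x = x * (a * (y * x * y) * a) * x := by rw [← hw]; simp only [mul_assoc]
          _ = (x * a * x) * y * (x * a * x) := by rw [byx]; simp only [mul_assoc]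
      show x * w = w * x
      conv_rhs => rw [← e2]
      rw [mul_assoc _ x x, tt_mul_self hD hxT.1, mul_one]
    have hAA : A' = A := Set.eq_of_subset_of_ncard_le hsub (by rw [hAcard, hA'card]) (Set.toFinite _)
    intro C
    rcases hsplit C with (rfl | h) | ⟨k, rfl⟩
    · rw [hF0]
      exact ⟨fun e => absurd e.symm hR2, fun e => absurd e.symm (mem_far0.1 hr0far).2⟩
    · rw [hM C h, hFn C (Or.inr h)]
      have hf := fix_check
      simp only [Bool.and_eq_true, List.all_eq_true, Bool.or_eq_true, decide_eq_true_eq] at hf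
      refine ⟨fun e => (hf.1 _ (List.mem_filter.2 ⟨mem_all126 _, e⟩)).2, fun e => ?_⟩
      rcases hf.2 _ (mem_N0.2 (L.near C h)) with h' | h'
      · exact h'
      · rw [show adjB r0 (L.ι C) = true from e] at h'
        exact Bool.noConfusion h'
    · have hfar : act hc hz k.1 R ≠ qd haT ∧ ¬ Adj (qd haT) (act hc hz k.1 R) :=
        ⟨fun e => hnotNr k (Or.inl e), fun e => hnotNr k (Or.inr e)⟩
      have h1 := Set.ext_iff.1 hAA (act hc hz k.1 R)
      rw [hA, hA'] at h1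
      exact ⟨fun e => (h1.2 ⟨hfar, e⟩).2, fun e => (h1.1 ⟨(hfarB _).1 hfar, e⟩).2⟩
  have hadj : ∀ B B', Adj B B' ↔ AdjP (Ff B) (Ff B') := by
    have hfarfirst : ∀ (k : ↥(fix4 z a b c d)) C,
        Adj (act hc hz k.1 R) C ↔ AdjP (Ff (act hc hz k.1 R)) (Ff C) := by
      intro k C
      obtain ⟨C', rfl⟩ := (act hc hz k.1).surjective C
      rw [act_adj, hkey, hequiv, hequiv, hR0, L.adjσ]
    intro B B'
    rcases hsplit B with h | ⟨k, rfl⟩
    · rcases hsplit B' with h' | ⟨k, rfl⟩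
      · rw [hFn B h, hFn B' h']
        exact L.adj B B' h h'
      · exact ⟨fun e => ((hfarfirst k B).1 e.symm).symm, fun e => ((hfarfirst k B).2 e.symm).symm⟩
    · exact hfarfirst k B'
  obtain ⟨F, hF⟩ : ∃ F : Om D z ≃ Fin 126, ⇑F = Ff := ⟨Equiv.ofBijective Ff hbij, rfl⟩
  refine ⟨F, by rw [hF, hF0], fun B hB => by rw [hF, hFn B (Or.inr hB)],
    fun B B' => by rw [hF]; exact hadj B B', fun k B => by rw [hF]; exact hequiv k B, ?_⟩
  intro x hx B
  rw [hF]
  by_cases hfx : B = qd hx ∨ Adj (qd hx) B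
  · rw [rf_fix hc hz hx hfx, rp_fix]
    exact hfx.symm.imp (hadj _ _).1 fun e => by rw [e]
  simp only [not_or] at hfx
  obtain ⟨g, hg⟩ := trans_Om hc hz (qd haT) (qd hx)
  obtain ⟨h, hh⟩ : ∃ h : Equiv.Perm (Fin 126), h = F.permCongr (act hc hz g) := ⟨_, rfl⟩
  have hhv : ∀ C, h (Ff C) = Ff (act hc hz g C) := fun C => by
    rw [hh, Equiv.permCongr_apply, ← hF, Equiv.symm_apply_apply]
  have hne : Ff B ≠ Ff (qd hx) := fun e => hfx.1 (hbij.1 e)
  have hna : ¬ AdjP (Ff (qd hx)) (Ff B) := fun e => hfx.2 ((hadj _ _).2 e)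
  obtain ⟨m1, m2, m3⟩ := rf_move hc hz hx hfx.1 hfx.2
  obtain ⟨n1, n2, n3⟩ := rp_move hna hne.symm
  refine fibre_unique (h := h) ?_ (i := Ff (qd hx)) ?_ ⟨hne, hna⟩
    ⟨fun e => m2 (hbij.1 e), fun e => m3 ((hadj _ _).2 e)⟩ ⟨n2, n3⟩ ?_ ?_ (fun e => m1 (hbij.1 e)) n1
  · intro i j
    obtain ⟨C, rfl⟩ := hsurj i
    obtain ⟨C', rfl⟩ := hsurj j
    rw [hhv, hhv, ← hadj, ← hadj, act_adj]
  · rw [← hF0, hhv, hg]
  · intro i hi
    obtain ⟨C, rfl⟩ := hsurj i
    have hfixC : rf hc hz hx C = C := rf_fix hc hz hx (Or.inr ((hadj _ _).2 hi))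
    rw [← hadj, ← hadj]
    conv_lhs => rw [← hfixC]
    exact act_adj hc hz (mel hc hx)
  · intro i hi
    obtain ⟨C, rfl⟩ := hsurj i
    conv_lhs => rw [← rp_fix (i := Ff (qd hx)) (j := Ff C) (Or.inl hi)]
    letI := Fintype.ofFinite (GaloisField 2 2)
    exact rp_adj (F := GaloisField 2 2) (by
      rw [← Nat.card_eq_fintype_card, GaloisField.card 2 2 two_ne_zero]; norm_num) _ _ _

end m24

end CfsgLib.Quad81
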