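import Mathlib
import Cfsg.Agent.ThreeTransp.Quad81.Iso
import Cfsg.Agent.ThreeTransp.Quad81.Aut45

/-!
Type M(24): the action of the centralizer of a product of four commuting members on the 126
four-sets; its kernel has order `3 * 2 ^ 13`.
-/

set_option autoImplicit false

namespace CfsgLib.Quad81

open Cfsg CfsgLib.U43 CfsgLib.ThreeTransp
open scoped commutatorElement

universe u

/-- the group of the reflections -/
noncomputable def Rg : Subgroup (Equiv.Perm (Fin 126)) := Subgroup.closure (Set.range rp)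

/-- its commutator group -/
noncomputable def Pg : Subgroup (Equiv.Perm (Fin 126)) := ⁅Rg, Rg⁆

theorem Pg_eq : Pg = (Cfsg.Omega (ZMod 3) Q6).map (sig one_mem_code) := by
  have hR : Rg = (W6 one_mem_code).map (sig one_mem_code) := by
    rw [Rg, W6, MonoidHom.map_closure, ← Set.range_comp]
    rfl
  rw [Pg, hR, ← Subgroup.map_commutator]
  congr 1
  refine le_antisymm ?_ ?_
  · exact Subgroup.commutator_mono le_top le_top
  · conv_lhs => rw [← omega_perfect]
    exact Subgroup.commutator_mono (omega_le _) (omega_le _)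

theorem Pg_le : Pg ≤ Rg := Subgroup.commutator_le_self Rg

theorem Pg_iso : Nonempty (↥Pg ≃* Cfsg.POmega (ZMod 3) Q6) := by
  obtain ⟨e⟩ := card_sig_omega one_mem_code
  exact ⟨(MulEquiv.subgroupCongr Pg_eq).trans e⟩

theorem card_Pg : Nat.card ↥Pg = 3265920 := by
  obtain ⟨e⟩ := Pg_iso
  rw [Nat.card_congr e.toEquiv, card_pomega6]

theorem rp_not_mem (i : Fin 126) : rp i ∉ Pg := by
  rw [Pg_eq]
  exact sig_rf_not_mem one_mem_code (phi_norm one_mem_code i)

theorem two_mul_le_of_not_mem {X : Type*} [Group X] [Finite X] {H K : Subgroup X} (h : H ≤ K)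
    {x : X} (hx : x ∈ K) (hx' : x ∉ H) : 2 * Nat.card ↥H ≤ Nat.card ↥K := by
  obtain ⟨m, hm⟩ := Subgroup.card_dvd_of_le h
  rcases Nat.lt_or_ge m 2 with hm2 | hm2
  · exfalso
    refine hx' ((Subgroup.eq_of_le_of_card_ge h ?_).symm ▸ hx)
    rw [hm]
    interval_cases m <;> simp
  · rw [hm, mul_comm]
    exact Nat.mul_le_mul_left _ hm2

theorem perm_four_check : ∀ p q : Equiv.Perm (Fin 4), p * p = 1 → Equiv.Perm.sign p = 1 →
    q * q = 1 → Equiv.Perm.sign q = 1 → (p * q) * (p * q) = 1 ∧ p * q = q * p := by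
  decide +kernel

theorem klein_card : (Finset.univ.filter fun p : Equiv.Perm (Fin 4) =>
    p * p = 1 ∧ Equiv.Perm.sign p = 1).card = 4 := by decide +kernel

theorem index_three_check : ∀ p : Equiv.Perm (Fin 4), p ^ 3 = 1 → p * p = 1 → p = 1 := by
  decide +kernel

variable {G : Type u} [Group G] {D : Set G}

section m24

variable [Finite G] {hc : Ctx D} {z : G} {hz : IsQuad D z} {a b c d : G}
  {haT : a ∈ commMembers53 D z}

/-- The data of the action. -/
structure Act (L : Loc hc hz a b c d haT) : Type u where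
  π : ↥(Subgroup.centralizer ({z} : Set G)) →* Equiv.Perm (Fin 126)
  F : Om D z ≃ Fin 126
  base : F (qd haT) = p0
  near : ∀ B, Adj (qd haT) B → F B = L.ι B
  adj : ∀ B B', Adj B B' ↔ AdjP (F B) (F B')
  spec : ∀ g B, π g (F B) = F (act hc hz g B)
  fix : ∀ k : ↥(fix4 z a b c d), π k.1 = L.σ k
  mem : ∀ x (hx : x ∈ commMembers53 D z), π (mel hc hx) = rp (F (qd hx))

theorem exists_act (L : Loc hc hz a b c d haT) : Nonempty (Act L) := by
  obtain ⟨F, h0, h1, h2, h3, h4⟩ := L.exists_iso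
  obtain ⟨π, hπ⟩ : ∃ π : ↥(Subgroup.centralizer ({z} : Set G)) →* Equiv.Perm (Fin 126),
      π = (F.permCongrHom).toMonoidHom.comp (act hc hz) := ⟨_, rfl⟩
  have hspec : ∀ g B, π g (F B) = F (act hc hz g B) := fun g B => by
    rw [hπ]
    show F (act hc hz g (F.symm (F B))) = _
    rw [Equiv.symm_apply_apply]
  refine ⟨⟨π, F, h0, h1, h2, hspec, fun k => Equiv.ext fun i => ?_, fun x hx => Equiv.ext fun i => ?_⟩⟩
  · obtain ⟨B, rfl⟩ := F.surjective i
    rw [hspec, h3]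
  · obtain ⟨B, rfl⟩ := F.surjective i
    rw [hspec]
    exact h4 x hx B

variable {L : Loc hc hz a b c d haT} (A : Act L)
include A

theorem Act.adj_π (g : ↥(Subgroup.centralizer ({z} : Set G))) (i j : Fin 126) :
    AdjP (A.π g i) (A.π g j) ↔ AdjP i j := by
  obtain ⟨B, rfl⟩ := A.F.surjective i
  obtain ⟨B', rfl⟩ := A.F.surjective j
  rw [A.spec, A.spec, ← A.adj, ← A.adj, act_adj]

theorem Act.fix_p0 {g : ↥(Subgroup.centralizer ({z} : Set G))} :
    A.π g p0 = p0 ↔ act hc hz g (qd haT) = qd haT := by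
  rw [← A.base, A.spec, A.F.injective.eq_iff]

theorem Act.rp_mem (i : Fin 126) : ∃ (x : G) (hx : x ∈ commMembers53 D z),
    A.π (mel hc hx) = rp i := by
  obtain ⟨B, rfl⟩ := A.F.surjective i
  obtain ⟨x, hx⟩ := nonempty_blk hc hz B
  obtain ⟨hxT, rfl⟩ := eq_qd hc B hx
  exact ⟨x, hxT, A.mem x hxT⟩

theorem Act.Rg_le : Rg ≤ A.π.range := by
  rw [Rg, Subgroup.closure_le]
  rintro _ ⟨i, rfl⟩
  obtain ⟨x, hx, e⟩ := A.rp_mem i
  exact ⟨_, e⟩

theorem Act.conj_rp (g : ↥(Subgroup.centralizer ({z} : Set G))) (i : Fin 126) :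
    A.π g * rp i * (A.π g)⁻¹ = rp (A.π g i) := by
  obtain ⟨B, rfl⟩ := A.F.surjective i
  obtain ⟨x, hx⟩ := nonempty_blk hc hz B
  obtain ⟨hxT, rfl⟩ := eq_qd hc B hx
  have hyT : (g : G) * x * (g : G)⁻¹ ∈ commMembers53 D z := conj_member hc g.2 hxT
  have e1 : qd hyT = act hc hz g (qd hxT) := Subtype.ext (blk_conj hc hz g.2 hxT).symm
  rw [A.spec, ← e1, ← A.mem _ hyT, ← A.mem x hxT, ← map_inv, ← map_mul, ← map_mul]
  rfl

theorem Act.conj_Pg (g : ↥(Subgroup.centralizer ({z} : Set G))) {τ : Equiv.Perm (Fin 126)}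
    (hτ : τ ∈ Pg) : A.π g * τ * (A.π g)⁻¹ ∈ Pg := by
  have hR : Rg.map (MulAut.conj (A.π g)).toMonoidHom ≤ Rg := by
    rw [Rg, MonoidHom.map_closure, Subgroup.closure_le]
    rintro _ ⟨_, ⟨i, rfl⟩, rfl⟩
    show A.π g * rp i * (A.π g)⁻¹ ∈ Subgroup.closure (Set.range rp)
    rw [A.conj_rp]
    exact Subgroup.subset_closure ⟨_, rfl⟩
  have h : Pg.map (MulAut.conj (A.π g)).toMonoidHom ≤ Pg := by
    rw [Pg, Subgroup.map_commutator]
    exact Subgroup.commutator_mono hR hR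
  exact h ⟨τ, hτ, rfl⟩

theorem Act.card_cz : Nat.card ↥(Subgroup.centralizer ({z} : Set G)) = 321052999680 := by
  obtain ⟨p, q, r, s, hq, hqz⟩ := id hz
  rw [← hqz, m24_clique_card53 hc.hG hc.hp hc.h24 hq, hqz, card_members hc hz, L.counts.1]
  norm_num

theorem Act.range_ge : 13063680 ≤ Nat.card ↥A.π.range := by
  have h1 : 2 * Nat.card ↥Pg ≤ Nat.card ↥Rg :=
    two_mul_le_of_not_mem Pg_le (Subgroup.subset_closure ⟨p0, rfl⟩) (rp_not_mem p0)
  obtain ⟨g, hg0, hg⟩ := L.outer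
  have h2 : A.π g ∉ Rg := by
    intro hR
    obtain ⟨k, hk⟩ := L.stab _ hR (A.fix_p0.2 hg0)
    refine hg k fun B hB => ?_
    have hB' : Adj (qd haT) (act hc hz g B) := by
      have := (act_adj hc hz g).2 hB
      rwa [hg0] at this
    rw [← A.near _ hB', ← A.spec, ← hk, A.near B hB]
  have h3 := two_mul_le_of_not_mem A.Rg_le ⟨g, rfl⟩ h2
  rw [card_Pg] at h1
  omega

theorem Act.ker_le : Nat.card ↥A.π.ker ≤ 24576 := by
  have h := Subgroup.card_mul_index A.π.ker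
  rw [Subgroup.index_ker, A.card_cz] at h
  have := A.range_ge
  nlinarith

theorem Act.ker_fix {k : ↥(fix4 z a b c d)} : k.1 ∈ A.π.ker ↔ L.σ k = 1 := by
  rw [MonoidHom.mem_ker, A.fix]

/-- an element of order three acting trivially -/
theorem Act.exists_three : ∃ g ∈ A.π.ker, orderOf g = 3 := by
  classical
  obtain ⟨T0, hT0⟩ : ∃ T0, stabOf (act hc hz) (qd haT) = T0 := ⟨_, rfl⟩
  have hT0card : Nat.card ↥T0 = 2548039680 := by
    have h := card_stabOf (act hc hz) (qd haT)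
    rw [hT0, show {y | ∃ g, act hc hz g (qd haT) = y} = Set.univ from
      Set.eq_univ_of_forall fun B => trans_Om hc hz (qd haT) B, Set.ncard_univ, L.counts.1,
      A.card_cz] at h
    omega
  have hp : ∀ {g}, g ∈ T0 → A.π g p0 = p0 := fun {g} hg => A.fix_p0.2 (show g ∈ stabOf (act hc hz) (qd haT) by rw [hT0]; exact hg)
  have hN : ∀ {g}, g ∈ T0 → ∀ i, nb0 (A.π g i) = true ↔ nb0 i = true := by
    intro g hg i
    show AdjP p0 (A.π g i) ↔ AdjP p0 i
    conv_lhs => rw [← hp hg]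
    exact A.adj_π g p0 i
  obtain ⟨ρ, hρ⟩ : ∃ ρ : ↥T0 →* Equiv.Perm Pt45, ∀ g i, ((ρ g) i).1 = A.π g.1 i.1 := by
    refine ⟨MonoidHom.mk' (fun g => (A.π g.1).subtypePerm fun i => hN g.2 i) fun g h => ?_,
      fun g i => rfl⟩
    refine Equiv.ext fun i => Subtype.ext ?_
    show A.π (g * h : ↥T0).1 i.1 = A.π g.1 (A.π h.1 i.1)
    rw [Subgroup.coe_mul, map_mul, Equiv.Perm.mul_apply]
  have hle : Nat.card ↥ρ.range ≤ 51840 := by
    refine card_aut45 _ ?_
    rintro _ ⟨g, rfl⟩ x y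
    rw [hρ, hρ]
    exact A.adj_π _ _ _
  have hmem : ∀ k : ↥(fix4 z a b c d), k.1 ∈ T0 := fun k => hT0 ▸ mem_stabOf.2 (L.fix_base k)
  obtain ⟨ι0, hι0⟩ : ∃ ι0 : ↥(fix4 z a b c d) →* ↥T0, ∀ k, (ι0 k).1 = k.1 :=
    ⟨MonoidHom.mk' (fun k => ⟨k.1, hmem k⟩) fun _ _ => rfl, fun _ => rfl⟩
  have hsub : (ρ.comp ι0).range ≤ ρ.range := by
    rintro _ ⟨k, rfl⟩
    exact ⟨_, rfl⟩
  have hval : ∀ k i, (((ρ.comp ι0) k) i).1 = L.σ k i.1 := fun k i => by
    rw [MonoidHom.comp_apply, hρ, hι0, A.fix]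
  have hkercard : Nat.card ↥(ρ.comp ι0).ker = 4096 := by
    obtain ⟨ka, hka, hσa⟩ := L.elem_base
    obtain ⟨f, hf⟩ : ∃ f : ↥(ρ.comp ι0).ker →* Equiv.Perm (Fin 126),
        f = L.σ.comp (ρ.comp ι0).ker.subtype := ⟨_, rfl⟩
    have hfr : (f.range : Set (Equiv.Perm (Fin 126))) = {1, rp p0} := by
      ext τ
      simp only [SetLike.mem_coe, MonoidHom.mem_range, Set.mem_insert_iff, Set.mem_singleton_iff]
      constructor
      · rintro ⟨k, rfl⟩
        rw [hf]
        refine L.small k.1 fun i hi => ?_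
        have := hval k.1 ⟨i, hi⟩
        rw [MonoidHom.mem_ker.1 k.2] at this
        exact this.symm
      · rintro (rfl | rfl)
        · exact ⟨1, map_one _⟩
        · refine ⟨⟨ka, MonoidHom.mem_ker.2 (Equiv.ext fun i => Subtype.ext ?_)⟩, by rw [hf]; exact hσa⟩
          rw [hval, hσa, rp_fix (Or.inl i.2)]
          rfl
    have hrp : rp p0 ≠ 1 := fun e => by
      obtain ⟨e1, e2⟩ := (base_facts).2.2.2.2.2.2.2
      have := (rp_move (i := p0) (j := r0) (fun h => Bool.noConfusion (e1.symm.trans h)) e2.symm).1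
      rw [e, Equiv.Perm.one_apply] at this
      exact this rfl
    have h := Subgroup.card_mul_index f.ker
    rw [Subgroup.index_ker] at h
    have h2 : Nat.card ↥f.range = 2 := by
      rw [← SetLike.coe_sort_coe, Nat.card_coe_set_eq, hfr, Set.ncard_pair hrp.symm]
    have h3 : Nat.card ↥f.ker = 2048 := by
      have hle' : L.σ.ker ≤ (ρ.comp ι0).ker := fun k hk => MonoidHom.mem_ker.2
        (Equiv.ext fun i => Subtype.ext (by rw [hval, MonoidHom.mem_ker.1 hk]; rfl))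
      rw [← L.card_ker, ← Nat.card_congr (Subgroup.subgroupOfEquivOfLe hle').toEquiv, hf]
      rfl
    rw [h2, h3] at h
    omega
  have himg : Nat.card ↥(ρ.comp ι0).range = 25920 := by
    have h := Subgroup.card_mul_index (ρ.comp ι0).ker
    rw [Subgroup.index_ker, hkercard, L.card] at h
    omega
  obtain ⟨t, ht⟩ := Subgroup.card_dvd_of_le hsub
  rw [himg] at ht
  have hker := Subgroup.card_mul_index ρ.ker
  rw [Subgroup.index_ker, hT0card, ht] at hker
  have h3 : 3 ∣ Nat.card ↥ρ.ker := by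
    have ht2 : t ≤ 2 := by rw [ht] at hle; omega
    interval_cases t <;> omega
  haveI : Fact (Nat.Prime 3) := ⟨Nat.prime_three⟩
  obtain ⟨x, hx⟩ := exists_prime_orderOf_dvd_card' 3 h3
  refine ⟨x.1.1, ?_, by rw [Subgroup.orderOf_coe, Subgroup.orderOf_coe, hx]⟩
  obtain ⟨τ, hτ⟩ : ∃ τ, A.π x.1.1 = τ := ⟨_, rfl⟩
  rw [MonoidHom.mem_ker, hτ]
  have hfix : ∀ i, nb0 i = true → τ i = i := fun i hi => by
    have := hρ x.1 ⟨i, hi⟩
    rw [MonoidHom.mem_ker.1 x.2, hτ] at this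
    exact this.symm
  have h0 : τ p0 = p0 := hτ ▸ hp x.1.2
  have hadj : ∀ i j, AdjP (τ i) (τ j) ↔ AdjP i j := hτ ▸ A.adj_π x.1.1
  have hsq : ∀ i, τ (τ i) = i := by
    intro i
    by_cases hi : τ i = i
    · rw [hi, hi]
    have hi0 : i ≠ p0 := fun e => hi (by rw [e, h0])
    have hin : ¬ AdjP p0 i := fun e => hi (hfix i e)
    have hti : τ i ≠ p0 ∧ ¬ AdjP p0 (τ i) := by
      refine ⟨fun e => hi0 (τ.injective (e.trans h0.symm)), fun e => hin ?_⟩
      rw [← h0] at e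
      exact (hadj _ _).1 e
    have htti : τ (τ i) ≠ p0 ∧ ¬ AdjP p0 (τ (τ i)) := by
      refine ⟨fun e => hti.1 (τ.injective (e.trans h0.symm)), fun e => hti.2 ?_⟩
      rw [← h0] at e
      exact (hadj _ _).1 e
    have hsame : ∀ j k, AdjP p0 k → (AdjP (τ j) k ↔ AdjP j k) := fun j k hk => by
      conv_lhs => rw [← hfix k hk]
      exact hadj j k
    exact fibre_unique (h := 1) (fun _ _ => Iff.rfl) (Equiv.Perm.one_apply p0) hti htti ⟨hi0, hin⟩
      (fun k hk => hsame (τ i) k hk) (fun k hk => (hsame i k hk).symm)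
      (fun e => hi (τ.injective e)) (Ne.symm hi)
  have h3x : τ ^ 3 = 1 := by
    have e : (x.1.1 : ↥(Subgroup.centralizer ({z} : Set G))) ^ 3 = 1 := by
      rw [← hx, ← Subgroup.orderOf_coe x, ← Subgroup.orderOf_coe x.1]
      exact pow_orderOf_eq_one _
    rw [← hτ, ← map_pow, e, map_one]
  refine Equiv.ext fun i => ?_
  have := Equiv.ext_iff.1 h3x i
  rw [pow_succ, pow_two, Equiv.Perm.mul_apply, Equiv.Perm.mul_apply, hsq] at this
  exact this

end m24

end CfsgLib.Quad81
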