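import Mathlib
import Cfsg.Agent.ThreeTransp.Quad81.Image

/-!
Type M(24): the products of two members of one four-set generate a group of order `2 ^ 13` whose
centralizer in that of the product of four is generated by that product.
-/

set_option autoImplicit false

namespace CfsgLib.Quad81

open Cfsg CfsgLib.ThreeTransp

universe u

/-- the permutations of four symbols that are double transpositions or trivial -/
def kleinSub : Subgroup (Equiv.Perm (Fin 4)) where
  carrier := {p | p * p = 1 ∧ Equiv.Perm.sign p = 1}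
  one_mem' := ⟨one_mul 1, map_one _⟩
  mul_mem' {p q} hp hq :=
    ⟨(perm_four_check p q hp.1 hp.2 hq.1 hq.2).1, by rw [map_mul, hp.2, hq.2, one_mul]⟩
  inv_mem' {p} hp := by
    have : p⁻¹ = p := inv_eq_of_mul_eq_one_right hp.1
    rw [this]
    exact hp

theorem card_kleinSub : Nat.card ↥kleinSub = 4 := by
  classical
  have : (kleinSub : Set (Equiv.Perm (Fin 4))) = ↑(Finset.univ.filter fun p : Equiv.Perm (Fin 4) =>
      p * p = 1 ∧ Equiv.Perm.sign p = 1) := by
    ext p; simp [kleinSub]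
  rw [← SetLike.coe_sort_coe, Nat.card_coe_set_eq, this, Set.ncard_coe_finset, klein_card]

variable {G : Type u} [Group G] {D : Set G}

section m24

variable [Finite G] (hc : Ctx D)
include hc

/-- A member not commuting with one of two members of one four-set does not commute with their
product. -/
theorem not_commute_pair {z e g x y : G} (he : e ∈ D) (hx : x ∈ blk D z g) (hy : y ∈ blk D z g)
    (hxy : x ≠ y) (hex : ¬ Commute e x) : ¬ Commute e (x * y) := fun h => hex
  (commute_of_commute_prod hc.hG.1 he [x, y] (by simp) (by simp [hxy])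
    (by simp [(blk_mem hc hx).1, (blk_mem hc hy).1])
    (by simp [blk_commute hc hx hy, blk_commute hc hy hx, Commute.refl]) (by simpa using h) x
    (by simp))

/-- Only the identity and the product of four commute with all members commuting with it. -/
theorem fixT (φ : G →* Multiplicative (ZMod 2)) (hφ : ∀ x ∈ D, φ x ≠ 1) {z a b c d : G}
    (h : Clique4_53 D a b c d) (hzp : a * b * c * d = z) {e : G} (he : e ∈ commMembers53 D z)
    (hae : ¬ Commute a e) {w : ↥(Subgroup.centralizer ({z} : Set G))}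
    (hw : ∀ x ∈ commMembers53 D z, Commute (w : G) x) : (w : G) = 1 ∨ (w : G) = z := by
  obtain ⟨C⟩ := exists_coords hc φ hφ h hzp
  have hD := hc.hG.1
  have haT := Clique4_53_mem_comm hD h hzp
  have hz : IsQuad D z := ⟨a, b, c, d, h, hzp⟩
  have hblk := blk_eq hc h hzp
  have hmem : ∀ x ∈ ({a, b, c, d} : Set G), x ∈ blk D z a := fun x hx => hblk ▸ hx
  have hT : ∀ x ∈ ({a, b, c, d} : Set G), x ∈ commMembers53 D z := fun x hx =>
    blk_mem hc (hmem x hx)
  have hcl := C.central ⟨w, mem_fix4.2 ⟨hw a haT, hw b (hT b (by simp)), hw c (hT c (by simp)),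
    hw d (hT d (by simp))⟩⟩ fun x hx => hw x (nbS_mem_T hc h hzp hx)
  have hcom : ∀ x ∈ ({a, b, c, d} : Set G), ∀ y ∈ ({a, b, c, d} : Set G), Commute x y :=
    fun x hx y hy => blk_commute hc (hmem x hx) (hmem y hy)
  have ha : a ∈ ({a, b, c, d} : Set G) := by simp
  have hb : b ∈ ({a, b, c, d} : Set G) := by simp
  have hc' : c ∈ ({a, b, c, d} : Set G) := by simp
  have hd : d ∈ ({a, b, c, d} : Set G) := by simp
  have hform : ∀ v ∈ Subgroup.closure ({a, b, c, d} : Set G),
      ∃ i j k l : ℕ, v = a ^ i * b ^ j * c ^ k * d ^ l := by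
    intro v hv
    induction hv using Subgroup.closure_induction with
    | mem x hx =>
      rcases hx with rfl | rfl | rfl | rfl
      exacts [⟨1, 0, 0, 0, by simp⟩, ⟨0, 1, 0, 0, by simp⟩, ⟨0, 0, 1, 0, by simp⟩,
        ⟨0, 0, 0, 1, by simp⟩]
    | one => exact ⟨0, 0, 0, 0, by simp⟩
    | mul x y _ _ hx hy =>
      obtain ⟨i, j, k, l, rfl⟩ := hx
      obtain ⟨i', j', k', l', rfl⟩ := hy
      refine ⟨i + i', j + j', k + k', l + l', ?_⟩
      rw [Commute.mul_mul_mul_comm ((((hcom d hd a ha).pow_pow l i').mul_right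
          ((hcom d hd b hb).pow_pow l j')).mul_right ((hcom d hd c hc').pow_pow l k')),
        Commute.mul_mul_mul_comm (((hcom c hc' a ha).pow_pow k i').mul_right
          ((hcom c hc' b hb).pow_pow k j')),
        Commute.mul_mul_mul_comm ((hcom b hb a ha).pow_pow j i'), ← pow_add, ← pow_add, ← pow_add,
        ← pow_add]
    | inv x _ hx =>
      obtain ⟨i, j, k, l, rfl⟩ := hx
      refine ⟨i, j, k, l, inv_eq_of_mul_eq_one_right ?_⟩
      have sq : ∀ (x : G), x ∈ ({a, b, c, d} : Set G) → ∀ n, x ^ n * x ^ n = 1 := fun x hx n => by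
        rw [← (Commute.refl x).mul_pow, tt_mul_self hD (hT x hx).1, one_pow]
      rw [Commute.mul_mul_mul_comm ((((hcom d hd a ha).pow_pow l i).mul_right
          ((hcom d hd b hb).pow_pow l j)).mul_right ((hcom d hd c hc').pow_pow l k)),
        Commute.mul_mul_mul_comm (((hcom c hc' a ha).pow_pow k i).mul_right
          ((hcom c hc' b hb).pow_pow k j)),
        Commute.mul_mul_mul_comm ((hcom b hb a ha).pow_pow j i), sq a ha, sq b hb, sq c hc',
        sq d hd, mul_one, mul_one, mul_one]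
  obtain ⟨i, j, k, l, hval⟩ := hform _ hcl
  have hred : ∀ x ∈ ({a, b, c, d} : Set G), ∀ n : ℕ, x ^ n = 1 ∨ x ^ n = x := by
    intro x hx n
    obtain ⟨q, rfl | rfl⟩ := n.even_or_odd'
    · exact Or.inl (by rw [pow_mul, pow_two, tt_mul_self hD (hT x hx).1, one_pow])
    · exact Or.inr (by rw [pow_succ, pow_mul, pow_two, tt_mul_self hD (hT x hx).1, one_pow, one_mul])
  have hfar : ∀ x ∈ blk D z a, ¬ Commute e x := fun x hx hex => hae
    (blk_commute_all hc hz (hT x (hblk ▸ hx)) he hex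
      (by rw [blk_congr hc hx]; exact blk_self hc hz haT)).symm
  have hno : ∀ l : List G, l.Sublist [a, b, c, d] → l.length ≤ 3 → l ≠ [] → ¬ Commute e l.prod := by
    intro l hl hlen hne hcm
    obtain ⟨x, t, rfl⟩ := List.exists_cons_of_ne_nil hne
    have hin : ∀ y ∈ x :: t, y ∈ blk D z a := fun y hy => hmem y (by
      have := hl.subset hy
      simpa using this)
    exact hfar x (hin x (by simp)) (commute_of_commute_prod hD he.1 (x :: t) hlen
      (hl.nodup h.isFact.1) (fun y hy => (blk_mem hc (hin y hy)).1)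
      (fun y hy y' hy' => blk_commute hc (hin y hy) (hin y' hy')) hcm x (by simp))
  have hwe : Commute e (w : G) := (hw e he).symm
  rw [hval] at hwe ⊢
  rcases hred a ha i with e1 | e1 <;> rcases hred b hb j with e2 | e2 <;>
    rcases hred c hc' k with e3 | e3 <;> rcases hred d hd l with e4 | e4 <;>
    simp only [e1, e2, e3, e4, one_mul, mul_one] at hwe ⊢
  · exact Or.inl trivial
  · exact absurd (by simpa [mul_assoc] using hwe) (hno [d] (by simp) (by simp) (by simp))
  · exact absurd (by simpa [mul_assoc] using hwe) (hno [c] (by simp) (by simp) (by simp))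
  · exact absurd (by simpa [mul_assoc] using hwe) (hno [c, d] (by simp) (by simp) (by simp))
  · exact absurd (by simpa [mul_assoc] using hwe) (hno [b] (by simp) (by simp) (by simp))
  · exact absurd (by simpa [mul_assoc] using hwe) (hno [b, d] (by simp) (by simp) (by simp))
  · exact absurd (by simpa [mul_assoc] using hwe) (hno [b, c] (by simp) (by simp) (by simp))
  · exact absurd (by simpa [mul_assoc] using hwe) (hno [b, c, d] (by simp) (by simp) (by simp))
  · exact absurd (by simpa [mul_assoc] using hwe) (hno [a] (by simp) (by simp) (by simp))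
  · exact absurd (by simpa [mul_assoc] using hwe) (hno [a, d] (by simp) (by simp) (by simp))
  · exact absurd (by simpa [mul_assoc] using hwe) (hno [a, c] (by simp) (by simp) (by simp))
  · exact absurd (by simpa [mul_assoc] using hwe) (hno [a, c, d] (by simp) (by simp) (by simp))
  · exact absurd (by simpa [mul_assoc] using hwe) (hno [a, b] (by simp) (by simp) (by simp))
  · exact absurd (by simpa [mul_assoc] using hwe) (hno [a, b, d] (by simp) (by simp) (by simp))
  · exact absurd (by simpa [mul_assoc] using hwe) (hno [a, b, c] (by simp) (by simp) (by simp))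
  · exact Or.inr hzp

end m24

section act

variable [Finite G] {hc : Ctx D} {z : G} {hz : IsQuad D z} {a b c d : G}
  {haT : a ∈ commMembers53 D z} {L : Loc hc hz a b c d haT}

set_option maxHeartbeats 1600000 in
/-- The subgroup generated by the pairs. -/
theorem Act.core (A : Act L) (φ : G →* Multiplicative (ZMod 2)) (hφ : ∀ x ∈ D, φ x ≠ 1)
    (h : Clique4_53 D a b c d) (hzp : a * b * c * d = z) :
    Nat.card ↥A.π.ker = 24576 ∧
    ∃ Q : Subgroup ↥(Subgroup.centralizer ({z} : Set G)), Q.Normal ∧ Q ≤ A.π.ker ∧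
      Nat.card ↥Q = 8192 ∧ (∃ q ∈ Q, (q : G) = z) ∧ z ≠ 1 ∧
      (∀ q ∈ Q, φ (q : G) = 1) ∧
      (∀ q ∈ Q, ((q * q : ↥(Subgroup.centralizer ({z} : Set G))) : G) = 1 ∨
        ((q * q : ↥(Subgroup.centralizer ({z} : Set G))) : G) = z) ∧
      ∀ w : ↥(Subgroup.centralizer ({z} : Set G)), (∀ q ∈ Q, Commute w q) →
        (w : G) = 1 ∨ (w : G) = z := by
  classical
  have hD := hc.hG.1
  have hblk := blk_eq hc h hzp
  obtain ⟨gen, hgen⟩ : ∃ gen, gen = {w : ↥(Subgroup.centralizer ({z} : Set G)) |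
      ∃ e ∈ commMembers53 D z, ∃ x ∈ blk D z e, ∃ y ∈ blk D z e, (w : G) = x * y} := ⟨_, rfl⟩
  obtain ⟨Q, hQ⟩ : ∃ Q, Q = Subgroup.closure gen := ⟨_, rfl⟩
  have hgenmem : ∀ {e x y : G}, e ∈ commMembers53 D z → ∀ (hx : x ∈ blk D z e) (hy : y ∈ blk D z e),
      mel hc (blk_mem hc hx) * mel hc (blk_mem hc hy) ∈ gen := fun {e x y} he hx hy =>
    hgen ▸ ⟨e, he, x, hx, y, hy, rfl⟩
  have hQmap : pairSub D z = Q.map (Subgroup.centralizer ({z} : Set G)).subtype := by
    rw [hQ, MonoidHom.map_closure, pairSub]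
    congr 1
    ext w
    constructor
    · rintro ⟨e, he, x, hx, y, hy, rfl⟩
      exact ⟨_, hgenmem he hx hy, rfl⟩
    · rintro ⟨w, hw, rfl⟩
      rw [hgen] at hw
      exact hw
  have hQval : ∀ {w : ↥(Subgroup.centralizer ({z} : Set G))}, w ∈ Q ↔ (w : G) ∈ pairSub D z := by
    intro w
    rw [hQmap]
    exact ⟨fun hw => ⟨w, hw, rfl⟩, fun ⟨v, hv, e⟩ => (Subtype.ext e : v = w) ▸ hv⟩
  have hQker : Q ≤ A.π.ker := fun w hw => MonoidHom.mem_ker.2 (Equiv.ext fun i => by
    obtain ⟨B, rfl⟩ := A.F.surjective i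
    rw [A.spec, act_pairSub (hQval.1 hw)]
    rfl)
  have hQn : Q.Normal := by
    refine ⟨fun w hw g => ?_⟩
    have hle : Q ≤ Q.comap (MulAut.conj g).toMonoidHom := by
      conv_lhs => rw [hQ]
      rw [Subgroup.closure_le]
      intro w hw
      rw [hgen] at hw
      obtain ⟨e, he, x, hx, y, hy, hwxy⟩ := hw
      show g * w * g⁻¹ ∈ Q
      rw [hQ, hgen]
      refine Subgroup.subset_closure ⟨_, conj_member hc g.2 he, _, blk_conj hc hz g.2 he ▸ mem_cj hx,
        _, blk_conj hc hz g.2 he ▸ mem_cj hy, ?_⟩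
      show (g : G) * w * (g : G)⁻¹ = _
      rw [hwxy]
      group
    exact hle hw
  -- the action on the base four
  have hcard4 : Nat.card ↥(blk D z a) = 4 := by rw [Nat.card_coe_set_eq, blk_card hc h hzp]
  obtain ⟨ε⟩ : Nonempty (↥(blk D z a) ≃ Fin 4) := ⟨Finite.equivFinOfCardEq hcard4⟩
  have hkfix : ∀ {g}, g ∈ A.π.ker → ∀ x ∈ blk D z a, (g : G) * x * (g : G)⁻¹ ∈ blk D z a := by
    intro g hg x hx
    have e : act hc hz g (qd haT) = qd haT := A.fix_p0.1 (by rw [MonoidHom.mem_ker.1 hg]; rfl)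
    have := act_mem hc hz (g := g) (B := qd haT) hx
    rwa [e] at this
  obtain ⟨ξ, hξ⟩ : ∃ ξ : ↥A.π.ker →* Equiv.Perm (Fin 4), ∀ g x,
      ((ε.symm (ξ g (ε x))) : G) = (g.1 : G) * x * (g.1 : G)⁻¹ := by
    have hp : ∀ g : ↥A.π.ker, ∃ p : Equiv.Perm ↥(blk D z a), ∀ x, ((p x : ↥(blk D z a)) : G) =
        (g.1 : G) * x * (g.1 : G)⁻¹ := by
      intro g
      refine ⟨⟨fun x => ⟨_, hkfix g.2 x x.2⟩, fun x => ⟨_, hkfix (g := g.1⁻¹) (inv_mem g.2) x x.2⟩,
        fun x => Subtype.ext ?_, fun x => Subtype.ext ?_⟩, fun _ => rfl⟩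
      · simp [mul_assoc]
      · simp [mul_assoc]
    choose p hp using hp
    refine ⟨MonoidHom.mk' (fun g => ε.permCongr (p g)) fun g g' => ?_, fun g x => ?_⟩
    · refine Equiv.ext fun i => ε.symm.injective (Subtype.ext ?_)
      simp only [Equiv.Perm.mul_apply, Equiv.permCongr_apply, Equiv.symm_apply_apply, hp,
        Subgroup.coe_mul]
      group
    · simp [hp]
  have hξker : ∀ g : ↥A.π.ker, g ∈ ξ.ker ↔
      Commute (g.1 : G) a ∧ Commute (g.1 : G) b ∧ Commute (g.1 : G) c ∧ Commute (g.1 : G) d := by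
    intro g
    have hxmem : ∀ {x}, x ∈ ({a, b, c, d} : Set G) → x ∈ blk D z a := fun hx => hblk ▸ hx
    constructor
    · intro hg
      have key : ∀ x (hx : x ∈ blk D z a), Commute (g.1 : G) x := fun x hx => by
        have := hξ g ⟨x, hx⟩
        rw [MonoidHom.mem_ker.1 hg, Equiv.Perm.one_apply, Equiv.symm_apply_apply] at this
        exact mul_inv_eq_iff_eq_mul.1 this.symm
      exact ⟨key a (hxmem (by simp)), key b (hxmem (by simp)), key c (hxmem (by simp)),
        key d (hxmem (by simp))⟩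
    · intro hg
      refine MonoidHom.mem_ker.2 (Equiv.ext fun i => ?_)
      obtain ⟨⟨x, hx⟩, rfl⟩ := ε.surjective i
      refine ε.symm.injective (Subtype.ext ((hξ g ⟨x, hx⟩).trans ?_))
      rw [Equiv.Perm.one_apply, Equiv.symm_apply_apply]
      show (g.1 : G) * x * (g.1 : G)⁻¹ = x
      rw [hblk] at hx
      refine mul_inv_eq_iff_eq_mul.2 ?_
      rcases hx with rfl | rfl | rfl | rfl
      exacts [hg.1.eq, hg.2.1.eq, hg.2.2.1.eq, hg.2.2.2.eq]
  have hξcard : Nat.card ↥ξ.ker = 2048 := by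
    rw [← L.card_ker]
    refine Nat.card_congr ⟨fun g => ⟨⟨g.1.1, mem_fix4.2 ((hξker g.1).1 g.2)⟩, ?_⟩,
      fun k => ⟨⟨k.1.1, A.ker_fix.2 k.2⟩, (hξker _).2 (mem_fix4.1 k.1.2)⟩, fun _ => rfl, fun _ => rfl⟩
    exact A.ker_fix.1 g.1.2
  obtain ⟨Qk, hQk⟩ : ∃ Qk, Qk = Q.subgroupOf A.π.ker := ⟨_, rfl⟩
  have hkle : ξ.ker ≤ Qk := by
    intro g hg
    rw [hQk, Subgroup.mem_subgroupOf, hQval]
    exact L.ker ⟨g.1, mem_fix4.2 ((hξker g).1 hg)⟩ (A.ker_fix.1 g.2)
  -- four images of the first member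
  obtain ⟨R, hR1, hR2, -⟩ := L.frame
  obtain ⟨e, hRe⟩ := nonempty_blk hc hz R
  obtain ⟨heT, hRe'⟩ := eq_qd hc R hRe
  have hae : ∀ {x}, x ∈ blk D z e → ¬ Commute a x := fun {x} hx hh => by
    subst hRe'
    exact hR2 ((adj_iff hc hz hR1.symm (blk_self hc hz haT) hx).2 hh)
  obtain ⟨f, g', k, hq, hqz⟩ := exists_quad hc hz heT
  have hbe := blk_eq hc hq hqz
  have hem : ∀ {x}, x ∈ ({e, f, g', k} : Set G) → x ∈ blk D z e := fun hx => hbe ▸ hx
  have hfour : 4 ∣ Nat.card ↥(Qk.map ξ) := by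
    obtain ⟨i0, hi0⟩ : ∃ i0, ε ⟨a, hblk ▸ (by simp)⟩ = i0 := ⟨_, rfl⟩
    have h4 := card_stabOf (Qk.map ξ).subtype i0
    suffices horb : {y | ∃ p, (Qk.map ξ).subtype p i0 = y}.ncard = 4 by
      rw [horb] at h4
      exact ⟨_, h4.symm.trans (mul_comm _ _)⟩
    have him : ∀ {y}, y ∈ blk D z e → ∃ p : ↥(Qk.map ξ),
        ((ε.symm ((Qk.map ξ).subtype p i0)) : G) = e * (y * a * y) * e := by
      intro y hy
      have hw := hgenmem heT (blk_self hc hz heT) hy
      have hwQ : _ ∈ Q := hQ ▸ Subgroup.subset_closure hw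
      refine ⟨⟨_, ⟨⟨_, hQker hwQ⟩, hQk ▸ Subgroup.mem_subgroupOf.2 hwQ, rfl⟩⟩, ?_⟩
      show ((ε.symm (ξ _ i0)) : G) = _
      rw [← hi0, hξ]
      show e * y * a * (e * y)⁻¹ = _
      rw [mul_inv_rev, tt_inv hD heT.1, tt_inv hD (blk_mem hc hy).1]
      simp only [mul_assoc]
    have hinj : ∀ {y y'}, y ∈ blk D z e → y' ∈ blk D z e → y ≠ y' →
        e * (y * a * y) * e ≠ e * (y' * a * y') * e := by
      intro y y' hy hy' hne heq
      have hh := mul_left_cancel (mul_right_cancel heq)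
      refine not_commute_pair hc haT.1 hy' hy hne.symm (hae hy') ?_
      have sy := tt_mul_self hD (blk_mem hc hy).1
      have sy' := tt_mul_self hD (blk_mem hc hy').1
      calc a * (y' * y) = y' * (y' * a * y') * y := by
            simp only [← mul_assoc, sy', one_mul]
        _ = y' * (y * a * y) * y := by rw [hh]
        _ = y' * y * a := by simp only [mul_assoc, sy, mul_one]
    refine le_antisymm ?_ ?_
    · exact (Set.ncard_le_ncard (Set.subset_univ _) (Set.toFinite _)).trans (by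
        rw [Set.ncard_univ, Nat.card_eq_fintype_card, Fintype.card_fin])
    obtain ⟨p1', hp1'⟩ := him (hem (by simp : e ∈ _))
    obtain ⟨p2', hp2'⟩ := him (hem (by simp : f ∈ _))
    obtain ⟨p3', hp3'⟩ := him (hem (by simp : g' ∈ _))
    obtain ⟨p4', hp4'⟩ := him (hem (by simp : k ∈ _))
    have hd : ∀ {p q : ↥(Qk.map ξ)} {y y'}, y ∈ ({e, f, g', k} : Set G) →
        y' ∈ ({e, f, g', k} : Set G) → y ≠ y' →
        ((ε.symm ((Qk.map ξ).subtype p i0)) : G) = e * (y * a * y) * e →
        ((ε.symm ((Qk.map ξ).subtype q i0)) : G) = e * (y' * a * y') * e →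
        (Qk.map ξ).subtype p i0 ≠ (Qk.map ξ).subtype q i0 := fun hy hy' hne e1 e2 heq =>
      hinj (hem hy) (hem hy') hne (by rw [← e1, ← e2, heq])
    refine le_trans ?_ (Set.ncard_le_ncard (s := ({(Qk.map ξ).subtype p1' i0,
      (Qk.map ξ).subtype p2' i0, (Qk.map ξ).subtype p3' i0, (Qk.map ξ).subtype p4' i0} : Set _))
      (by rintro _ (rfl | rfl | rfl | rfl) <;> exact ⟨_, rfl⟩) (Set.toFinite _))
    rw [Set.ncard_insert_of_notMem ?_ (Set.toFinite _), Set.ncard_insert_of_notMem ?_ (Set.toFinite _),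
      Set.ncard_pair (hd (by simp) (by simp) hq.hd.2.2.1.symm hp3' hp4')]
    · simp only [Set.mem_insert_iff, Set.mem_singleton_iff, not_or]
      exact ⟨hd (by simp) (by simp) hq.hc.2.2.1.symm hp2' hp3',
        hd (by simp) (by simp) hq.hd.1.2.2.1.symm hp2' hp4'⟩
    · simp only [Set.mem_insert_iff, Set.mem_singleton_iff, not_or]
      exact ⟨hd (by simp) (by simp) hq.hb.2.1.symm hp1' hp2',
        hd (by simp) (by simp) hq.hc.1.2.1.symm hp1' hp3',
        hd (by simp) (by simp) hq.hd.1.1.2.1.symm hp1' hp4'⟩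
  -- the image
  have hcards : Nat.card ↥A.π.ker = Nat.card ↥ξ.range * 2048 := by
    rw [← Subgroup.card_mul_index ξ.ker, Subgroup.index_ker, hξcard, mul_comm]
  have h3 : 3 ∣ Nat.card ↥ξ.range := by
    obtain ⟨t, ht, hto⟩ := A.exists_three
    have h3d : 3 ∣ Nat.card ↥A.π.ker := by
      have := Subgroup.orderOf_dvd_natCard A.π.ker ht
      rwa [hto] at this
    rw [hcards] at h3d
    exact (Nat.Coprime.dvd_of_dvd_mul_right (by norm_num) h3d)
  have h4r : 4 ∣ Nat.card ↥ξ.range := hfour.trans (Subgroup.card_dvd_of_le (Subgroup.map_le_range ξ Qk))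
  have hr12 : Nat.card ↥ξ.range = 12 := by
    have h12 : 12 ∣ Nat.card ↥ξ.range :=
      Nat.Coprime.mul_dvd_of_dvd_of_dvd (m := 3) (n := 4) (by norm_num) h3 h4r
    have hpos : 0 < Nat.card ↥ξ.range := Nat.card_pos
    have := A.ker_le
    rw [hcards] at this
    obtain ⟨m, hm⟩ := h12
    omega
  have hkercard : Nat.card ↥A.π.ker = 24576 := by rw [hcards, hr12]
  have halt : ξ.range = alternatingGroup (Fin 4) := by
    refine Equiv.Perm.eq_alternatingGroup_of_index_eq_two ?_
    have := Subgroup.card_mul_index ξ.range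
    rw [hr12, Nat.card_eq_fintype_card, Fintype.card_perm, Fintype.card_fin] at this
    simp [Nat.factorial] at this
    omega
  have hklein : Qk.map ξ ≤ kleinSub := by
    have hle : Q ≤ (kleinSub.comap ξ).map A.π.ker.subtype := by
      conv_lhs => rw [hQ]
      rw [Subgroup.closure_le]
      intro w hw
      have hwQ : w ∈ Q := hQ ▸ Subgroup.subset_closure hw
      refine ⟨⟨w, hQker hwQ⟩, ⟨?_, ?_⟩, rfl⟩
      · rw [← map_mul]
        rw [hgen] at hw
        obtain ⟨e', he', x, hx, y, hy, hxy⟩ := hw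
        have : (⟨w, hQker hwQ⟩ : ↥A.π.ker) * ⟨w, hQker hwQ⟩ = 1 := Subtype.ext (Subtype.ext (by
          show (w : G) * (w : G) = 1
          rw [hxy, (blk_commute hc hy hx).mul_mul_mul_comm, tt_mul_self hD (blk_mem hc hx).1,
            tt_mul_self hD (blk_mem hc hy).1, one_mul]))
        rw [this, map_one]
      · have hmem : ξ ⟨w, hQker hwQ⟩ ∈ alternatingGroup (Fin 4) := halt ▸ ⟨_, rfl⟩
        exact Equiv.Perm.mem_alternatingGroup.1 hmem
    rintro _ ⟨g, hg, rfl⟩
    rw [hQk, SetLike.mem_coe, Subgroup.mem_subgroupOf] at hg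
    obtain ⟨g', hg', e'⟩ := hle hg
    rw [← show g' = g from Subtype.ext e']
    exact hg'
  have hQcard : Nat.card ↥Q = 8192 := by
    have h1 := Subgroup.card_mul_index (ξ.comp Qk.subtype).ker
    rw [Subgroup.index_ker, MonoidHom.range_comp, Subgroup.range_subtype,
      show (ξ.comp Qk.subtype).ker = ξ.ker.subgroupOf Qk from rfl,
      Nat.card_congr (Subgroup.subgroupOfEquivOfLe hkle).toEquiv, hξcard] at h1
    have h2 : Nat.card ↥(Qk.map ξ) = 4 := by
      obtain ⟨m, hm⟩ := hfour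
      have := Subgroup.card_le_of_le hklein
      rw [card_kleinSub] at this
      have hpos : 0 < Nat.card ↥(Qk.map ξ) := Nat.card_pos
      omega
    rw [h2] at h1
    rw [← Nat.card_congr (Subgroup.subgroupOfEquivOfLe hQker).toEquiv, ← hQk, ← h1]
  have hsq : ∀ q ∈ Q, ∀ x ∈ commMembers53 D z,
      Commute ((q * q : ↥(Subgroup.centralizer ({z} : Set G))) : G) x := by
    intro q hq x hx
    obtain ⟨w, hw, hwa⟩ := m24_members_trans53 hc.hG hc.hp hc.h24 h (hzp.symm ▸ hx)
    rw [hzp] at hw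
    obtain ⟨wc, hwc⟩ : ∃ wc : ↥(Subgroup.centralizer ({z} : Set G)), (wc : G) = w :=
      ⟨⟨w, Subgroup.mem_centralizer_singleton_iff.2 hw.eq⟩, rfl⟩
    have hq' : wc⁻¹ * q * wc ∈ Q := by simpa using hQn.conj_mem q hq wc⁻¹
    obtain ⟨p, hp⟩ : ∃ p : ↥A.π.ker, p.1 = wc⁻¹ * q * wc := ⟨⟨_, hQker hq'⟩, rfl⟩
    have hpk : p * p ∈ ξ.ker := by
      rw [MonoidHom.mem_ker, map_mul]
      exact (hklein ⟨p, by rw [SetLike.mem_coe, hQk, Subgroup.mem_subgroupOf, hp]; exact hq', rfl⟩).1
    have hca := ((hξker (p * p)).1 hpk).1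
    have e1 : (((p * p : ↥A.π.ker) : ↥(Subgroup.centralizer ({z} : Set G))) : G) =
        w⁻¹ * ((q * q : ↥(Subgroup.centralizer ({z} : Set G))) : G) * w := by
      rw [Subgroup.coe_mul, hp]
      simp only [Subgroup.coe_mul, Subgroup.coe_inv, hwc]
      group
    rw [e1] at hca
    have h5 := (commute_conj_iff' (g := w)).2 hca
    rw [hwa] at h5
    simpa [mul_assoc] using h5
  refine ⟨hkercard, Q, hQn, hQker, hQcard, ?_, ?_, ?_, ?_, ?_⟩
  · have hm : ∀ {x}, x ∈ ({a, b, c, d} : Set G) → x ∈ blk D z a := fun hx => hblk ▸ hx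
    have hg1 := hgenmem haT (hm (by simp : a ∈ _)) (hm (by simp : b ∈ _))
    have hg2 := hgenmem haT (hm (by simp : c ∈ _)) (hm (by simp : d ∈ _))
    refine ⟨_, mul_mem (hQ ▸ Subgroup.subset_closure hg1) (hQ ▸ Subgroup.subset_closure hg2), ?_⟩
    show a * b * (c * d) = z
    rw [← hzp]; simp only [mul_assoc]
  · intro hz1
    have := m24_fact_orderOf58 hc.hG hc.hp hc.h24 (by norm_num) le_rfl h.isFact
    rw [hzp, hz1, orderOf_one] at this
    norm_num at this
  · exact fun q hq => pairSub_le_ker hc φ hφ (hQval.1 hq)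
  · exact fun q hq => fixT hc φ hφ h hzp heT (hae (blk_self hc hz heT)) (hsq q hq)
  · intro w hw
    refine fixT hc φ hφ h hzp heT (hae (blk_self hc hz heT)) fun x hx => ?_
    obtain ⟨f', g'', k', hq', hqz'⟩ := exists_quad hc hz hx
    have hb' := blk_eq hc hq' hqz'
    have hm : ∀ {y}, y ∈ ({x, f', g'', k'} : Set G) → y ∈ blk D z x := fun hy => hb' ▸ hy
    have key : ∀ y ∈ blk D z x, x ≠ y →
        (w : G) * x * (w : G)⁻¹ = x ∨ (w : G) * x * (w : G)⁻¹ = y := by
      intro y hy hne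
      have hgq := hgenmem hx (blk_self hc hz hx) hy
      have hcw := congrArg Subtype.val (hw _ (hQ ▸ Subgroup.subset_closure hgq)).eq
      have hxT := blk_mem hc (blk_self hc hz hx)
      have hyT := blk_mem hc hy
      have hprod : ((w : G) * x * (w : G)⁻¹) * ((w : G) * y * (w : G)⁻¹) = x * y := by
        calc _ = (w : G) * (x * y) * (w : G)⁻¹ := by group
          _ = x * y := mul_inv_eq_iff_eq_mul.2 hcw
      have hu := factor_unique hD (m24_noTwins58 hc.hG hc.hp hc.h24)
        (m24_noRel_le58 hc.hG hc.hp hc.h24 (n := 6) (by norm_num) (by norm_num)) 2 (by norm_num)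
        [(w : G) * x * (w : G)⁻¹, (w : G) * y * (w : G)⁻¹] [x, y]
        (by simp [hne]) rfl (by simp [hc.hG.2.1 _ x hxT.1, hc.hG.2.1 _ y hyT.1])
        (by simp [commute_conj_iff', blk_commute hc (blk_self hc hz hx) hy,
          blk_commute hc hy (blk_self hc hz hx), Commute.refl])
        (by simp [hne]) rfl (by simp [hxT.1, hyT.1])
        (by simp [blk_commute hc (blk_self hc hz hx) hy,
          blk_commute hc hy (blk_self hc hz hx), Commute.refl])
        (by simpa using hprod) ((w : G) * x * (w : G)⁻¹)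
      simpa using hu.1 (by simp)
    refine mul_inv_eq_iff_eq_mul.1 ?_
    rcases key f' (hm (by simp)) hq'.hb.2.1.symm with e1 | e1
    · exact e1
    rcases key g'' (hm (by simp)) hq'.hc.1.2.1.symm with e2 | e2
    · exact e2
    exact absurd (e2.symm.trans e1) hq'.hc.2.2.1

end act

end CfsgLib.Quad81
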