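import Mathlib
import Cfsg.Agent.Eq.Def_Transfer
import Cfsg.Agent.LargeExtraspecial.Section
import Cfsg.Agent.OrthSmall.SixMinus
import Cfsg.Agent.ThreeTransp.Quad81.Core
import Cfsg.Agent.ThreeTransp.M24Triple25

/-!
Type M(24): the centralizer of a product of four commuting members in the derived group has shape
`2 ^ (1 + 12) . 3 . U₄(3) . 2`.
-/

set_option autoImplicit false

namespace CfsgLib.Quad81

open Cfsg CfsgLib.U43 CfsgLib.ThreeTransp
open scoped commutatorElement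

universe u

/-- reflections at the base point and at one point next to it, applied to a list -/
def step2 (R : List (Fin 126)) : List (Fin 126) :=
  (R ++ N0.flatMap fun x => R.map fun j => rfn p0 (rfn x j)).eraseDups

theorem step2_check : (far0.all fun y => (step2 (step2 (step2 (step2 [r0])))).contains y) = true ∧
    (N0.all fun y => (step2 (step2 [p1])).contains y) = true := by
  decide +kernel

theorem step2_closed {P : Fin 126 → Prop} {R : List (Fin 126)} (hR : ∀ i ∈ R, P i)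
    (hs : ∀ x ∈ N0, ∀ i, P i → P (rfn p0 (rfn x i))) : ∀ i ∈ step2 R, P i := by
  intro i hi
  rw [step2, List.mem_eraseDups, List.mem_append, List.mem_flatMap] at hi
  rcases hi with hi | ⟨x, hx, hi⟩
  · exact hR i hi
  · obtain ⟨j, hj, rfl⟩ := List.mem_map.1 hi
    exact hs x hx j (hR j hj)

theorem far_nodup : far0.Nodup ∧ N0.Nodup ∧ far0.length = 80 ∧ N0.length = 45 := by
  refine ⟨(List.nodup_finRange 126).filter _, (List.nodup_finRange 126).filter _, ?_, ?_⟩ <;>
    decide +kernel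

/-- A set containing the base point, of size a power of two and closed under the pairs of
reflections, is the base point alone. -/
theorem orbit_trivial {O : Finset (Fin 126)} (h0 : p0 ∈ O) {n : ℕ} (hn : O.card = 2 ^ n)
    (hs : ∀ x ∈ N0, ∀ i ∈ O, rfn p0 (rfn x i) ∈ O)
    (hrev : ∀ x ∈ N0, ∀ i, rfn p0 (rfn x i) ∈ O → i ∈ O) : ∀ i ∈ O, i = p0 := by
  classical
  have hclass : ∀ (c : Fin 126) (l : List (Fin 126)),
      (∀ j ∈ l, ∀ P : Fin 126 → Prop, P c → (∀ x ∈ N0, ∀ i, P i → P (rfn p0 (rfn x i))) → P j) →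
      (∃ j ∈ l, j ∈ O) → ∀ j ∈ l, j ∈ O := by
    rintro c l hl ⟨j0, hj0, hj0O⟩ j hj
    have hc : c ∈ O := by
      by_contra hc
      exact hl j0 hj0 (fun i => i ∉ O) hc (fun x hx i hi hh => hi (hrev x hx i hh)) hj0O
    exact hl j hj (fun i => i ∈ O) hc hs
  have hfar : (∃ j ∈ far0, j ∈ O) → ∀ j ∈ far0, j ∈ O := hclass r0 far0 fun j hj P hP hPs => by
    have hc := List.all_eq_true.1 step2_check.1 j hj
    exact step2_closed (step2_closed (step2_closed (step2_closed
      (fun i hi => (List.mem_singleton.1 hi).symm ▸ hP) hPs) hPs) hPs) hPs j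
      (List.contains_iff_mem.1 hc)
  have hN : (∃ j ∈ N0, j ∈ O) → ∀ j ∈ N0, j ∈ O := hclass p1 N0 fun j hj P hP hPs => by
    have hc := List.all_eq_true.1 step2_check.2 j hj
    exact step2_closed (step2_closed (fun i hi => (List.mem_singleton.1 hi).symm ▸ hP) hPs) hPs j
      (List.contains_iff_mem.1 hc)
  obtain ⟨hnf, hnN, hlf, hlN⟩ := far_nodup
  have hsplit : ∀ i, i = p0 ∨ i ∈ N0 ∨ i ∈ far0 := fun i => by
    by_cases h1 : i = p0
    · exact Or.inl h1
    by_cases h2 : nb0 i = true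
    · exact Or.inr (Or.inl (mem_N0.2 h2))
    · exact Or.inr (Or.inr (mem_far0.2 ⟨h1, h2⟩))
  have hd1 : p0 ∉ N0 := fun h => (show AdjP p0 p0 from mem_N0.1 h).ne rfl
  have hd2 : p0 ∉ far0 := fun h => (mem_far0.1 h).1 rfl
  have hd3 : ∀ i ∈ N0, i ∉ far0 := fun i hi h => (mem_far0.1 h).2 (mem_N0.1 hi)
  have hcard : O.card = 1 + (O.filter (· ∈ N0)).card + (O.filter (· ∈ far0)).card := by
    have e : O = ({p0} ∪ O.filter (· ∈ N0)) ∪ O.filter (· ∈ far0) := by
      ext i
      simp only [Finset.mem_union, Finset.mem_singleton, Finset.mem_filter]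
      constructor
      · intro hi
        rcases hsplit i with h | h | h
        exacts [Or.inl (Or.inl h), Or.inl (Or.inr ⟨hi, h⟩), Or.inr ⟨hi, h⟩]
      · rintro ((rfl | h) | h)
        exacts [h0, h.1, h.1]
    conv_lhs => rw [e]
    rw [Finset.card_union_of_disjoint, Finset.card_union_of_disjoint, Finset.card_singleton]
    · simp only [Finset.disjoint_singleton_left, Finset.mem_filter, not_and]
      exact fun _ => hd1
    · rw [Finset.disjoint_left]
      intro i hi hi'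
      simp only [Finset.mem_union, Finset.mem_singleton, Finset.mem_filter] at hi hi'
      rcases hi with rfl | hi
      · exact hd2 hi'.2
      · exact hd3 i hi.2 hi'.2
  have hpart : ∀ (l : List (Fin 126)), l.Nodup → ((∃ j ∈ l, j ∈ O) → ∀ j ∈ l, j ∈ O) →
      (O.filter (· ∈ l)).card = 0 ∨ (O.filter (· ∈ l)).card = l.length := by
    intro l hl hall
    by_cases he : ∃ j ∈ l, j ∈ O
    · right
      rw [← List.toFinset_card_of_nodup hl]
      congr 1
      ext i
      simp only [Finset.mem_filter, List.mem_toFinset]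
      exact ⟨fun h => h.2, fun h => ⟨hall he i h, h⟩⟩
    · left
      rw [Finset.card_eq_zero, Finset.filter_eq_empty_iff]
      exact fun i hi h => he ⟨i, h, hi⟩
  have hn7 : n < 8 := by
    have h := Finset.card_le_univ O
    rw [hn, Fintype.card_fin] at h
    by_contra hh
    have : (2 : ℕ) ^ 8 ≤ 2 ^ n := Nat.pow_le_pow_right (by norm_num) (by omega)
    omega
  have hzero : (O.filter (· ∈ N0)).card = 0 ∧ (O.filter (· ∈ far0)).card = 0 := by
    rcases hpart N0 hnN hN with e1 | e1 <;> rcases hpart far0 hnf hfar with e2 | e2 <;>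
      rw [e1, e2] at hcard ⊢ <;> simp only [hlf, hlN, true_and, and_true] at hcard ⊢ <;>
      rw [hn] at hcard <;> interval_cases n <;> simp at hcard
  intro i hi
  rcases hsplit i with h | h | h
  · exact h
  · exact absurd (Finset.card_eq_zero.1 hzero.1) (Finset.ne_empty_of_mem (Finset.mem_filter.2 ⟨hi, h⟩))
  · exact absurd (Finset.card_eq_zero.1 hzero.2) (Finset.ne_empty_of_mem (Finset.mem_filter.2 ⟨hi, h⟩))

theorem sign_facts : (Multiplicative.ofAdd 1 : Multiplicative (ZMod 2)) ≠ 1 ∧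
    (Multiplicative.ofAdd 1 : Multiplicative (ZMod 2)) * Multiplicative.ofAdd 1 = 1 ∧
    (∀ t : Multiplicative (ZMod 2), t = 1 ∨ t = Multiplicative.ofAdd 1) ∧
    (∀ t : Multiplicative (ZMod 2), t ^ 3 = 1 → t = 1) ∧
    ∀ t : Multiplicative (ZMod 2), t ≠ 1 → t * Multiplicative.ofAdd 1 = 1 := by decide

variable {G : Type u} [Group G] {D : Set G}

set_option maxHeartbeats 1600000 in
/-- The centralizer in the derived group of a product of four commuting members. -/
theorem four_centralizer [Finite G] (hc : Ctx D) {a b c d z : G} (h : Clique4_53 D a b c d)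
    (hzp : a * b * c * d = z) (L : Subgroup G) (hL : L = commutator G) (C : Subgroup G)
    (hC : C = L ⊓ Subgroup.centralizer ({z} : Set G)) :
    ∃ (Q : Subgroup ↥C) (_ : Q.Normal), Cfsg.generalizedFittingSubgroup ↥C = Q ∧
      Cfsg.IsExtraspecial 2 ↥Q ∧ Nat.card Q = 2 ^ 13 ∧
      ∃ (N M : Subgroup ↥C) (_ : N.Normal) (_ : M.Normal), Q ≤ N ∧ N ≤ M ∧
        Nat.card N = 3 * Nat.card Q ∧
        (∃ (K : Type) (_ : Field K) (_ : Fintype K), Fintype.card K = 9 ∧
          Nonempty (↥M ⧸ N.subgroupOf M ≃* Cfsg.PSU 4 K 3)) ∧ M.index = 2 := by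
  classical
  haveI : Fact (Nat.Prime 2) := ⟨Nat.prime_two⟩
  obtain ⟨φ, hφd⟩ := m24_sign hc.hG hc.hp hc.h24
  have hφ : ∀ x ∈ D, φ x ≠ 1 := fun x hx => by rw [hφd x hx]; exact sign_facts.1
  have hLk : L = φ.ker := hL.trans (parity_ker_eq hc.hG hc.hp φ hφ)
  have hD := hc.hG.1
  have hz : IsQuad D z := ⟨a, b, c, d, h, hzp⟩
  have haT := Clique4_53_mem_comm hD h hzp
  obtain ⟨Lc⟩ := exists_loc hc φ hφ h hzp hz haT
  obtain ⟨A⟩ := exists_act Lc
  obtain ⟨hkcard, Q0, hQ0n, hQ0k, hQ0card, hzQ, hz1, hQ0φ, hsq, hcent⟩ := A.core φ hφ h hzp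
  obtain ⟨ka, hka, -⟩ := Lc.elem_base
  -- the group `C`
  have hCmem : ∀ {g : G}, g ∈ C ↔ φ g = 1 ∧ g ∈ Subgroup.centralizer ({z} : Set G) := fun {g} => by
    rw [hC, Subgroup.mem_inf, hLk, MonoidHom.mem_ker]
  obtain ⟨j, hj⟩ : ∃ j : ↥C →* ↥(Subgroup.centralizer ({z} : Set G)), ∀ g, (j g : G) = (g : G) :=
    ⟨Subgroup.inclusion fun g hg => (hCmem.1 hg).2, fun _ => rfl⟩
  have hjinj : Function.Injective j := fun x y e => Subtype.ext (by rw [← hj, e, hj])
  have hjmem : ∀ g, g ∈ j.range ↔ φ (g : G) = 1 := fun g => by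
    constructor
    · rintro ⟨x, rfl⟩
      rw [hj]; exact (hCmem.1 x.2).1
    · exact fun e => ⟨⟨g, hCmem.2 ⟨e, g.2⟩⟩, Subtype.ext (hj _)⟩
  have hCcard : Nat.card ↥C = 160526499840 := by
    have h2 := sign_facts.2.2.1
    obtain ⟨φz, hφz⟩ : ∃ f : ↥(Subgroup.centralizer ({z} : Set G)) →* Multiplicative (ZMod 2),
        f = φ.comp (Subgroup.centralizer ({z} : Set G)).subtype := ⟨_, rfl⟩
    have hs : φz.range = ⊤ := by
      refine eq_top_iff.2 fun t _ => ?_
      rcases h2 t with rfl | rfl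
      · exact one_mem _
      · exact ⟨mel hc haT, by rw [hφz]; exact hφd a h.ha⟩
    have hh := Subgroup.card_mul_index φz.ker
    rw [Subgroup.index_ker, hs, Subgroup.card_top, A.card_cz,
      show Nat.card (Multiplicative (ZMod 2)) = 2 by rw [Nat.card_eq_fintype_card]; rfl] at hh
    rw [Nat.card_congr (MonoidHom.ofInjective hjinj).toEquiv,
      show j.range = φz.ker from Subgroup.ext fun g => by rw [hjmem, hφz]; rfl]
    omega
  -- the kernel
  have hkerφ : ∀ g ∈ A.π.ker, φ (g : G) = 1 := by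
    obtain ⟨K, hK⟩ : ∃ K, K = A.π.ker ⊓ (φ.comp (Subgroup.centralizer ({z} : Set G)).subtype).ker :=
      ⟨_, rfl⟩
    have h1 : 8192 ∣ Nat.card ↥K := hQ0card ▸ Subgroup.card_dvd_of_le (hK ▸ le_inf hQ0k
      fun q hq => hQ0φ q hq)
    obtain ⟨t, ht, hto⟩ := A.exists_three
    have h3 : 3 ∣ Nat.card ↥K := by
      have htK : t ∈ K := hK ▸ ⟨ht, by
        show φ (t : G) = 1
        have e : φ (t : G) ^ 3 = 1 := by
          rw [← map_pow, ← Subgroup.coe_pow, ← hto, pow_orderOf_eq_one, Subgroup.coe_one, map_one]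
        exact sign_facts.2.2.2.1 _ e⟩
      have := Subgroup.orderOf_dvd_natCard K htK
      rwa [hto] at this
    have h4 : 24576 ∣ Nat.card ↥K :=
      Nat.Coprime.mul_dvd_of_dvd_of_dvd (m := 8192) (n := 3) (by norm_num) h1 h3
    have heq : K = A.π.ker := Subgroup.eq_of_le_of_card_ge (hK ▸ inf_le_left) (by
      rw [hkcard]
      exact Nat.le_of_dvd Nat.card_pos h4)
    intro g hg
    rw [← heq, hK] at hg
    exact hg.2
  have hcomap : ∀ (K : Subgroup ↥(Subgroup.centralizer ({z} : Set G))),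
      (∀ g ∈ K, φ (g : G) = 1) → Nat.card ↥(K.comap j) = Nat.card ↥K := fun K hK => by
    rw [← Subgroup.map_comap_eq_self (f := j) (H := K) fun g hg => (hjmem g).2 (hK g hg),
      Subgroup.comap_map_eq_self_of_injective hjinj]
    exact Nat.card_congr (Subgroup.equivMapOfInjective _ j hjinj).toEquiv
  obtain ⟨ψ, hψ⟩ : ∃ ψ : ↥C →* Equiv.Perm (Fin 126), ψ = A.π.comp j := ⟨_, rfl⟩
  have hψker : ψ.ker = A.π.ker.comap j := by rw [hψ]; rfl
  have hNcard : Nat.card ↥ψ.ker = 24576 := by rw [hψker, hcomap _ hkerφ, hkcard]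
  obtain ⟨Q, hQ⟩ : ∃ Q, Q = Q0.comap j := ⟨_, rfl⟩
  have hQn : Q.Normal := hQ ▸ hQ0n.comap j
  have hQcard : Nat.card ↥Q = 8192 := by rw [hQ, hcomap _ hQ0φ, hQ0card]
  have hQN : Q ≤ ψ.ker := by rw [hQ, hψker]; exact Subgroup.comap_mono hQ0k
  have hQp : IsPGroup 2 ↥Q := IsPGroup.of_card (n := 13) (by rw [hQcard]; norm_num)
  obtain ⟨q0, hq0Q, hq0⟩ := hzQ
  obtain ⟨zc, hzc⟩ : ∃ zc : ↥C, j zc = q0 := (hjmem q0).2 (hQ0φ _ hq0Q)
  have hzcv : (zc : G) = z := by rw [← hj, hzc, hq0]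
  have hzcQ : zc ∈ Q := by rw [hQ, Subgroup.mem_comap, hzc]; exact hq0Q
  have hQj : ∀ q ∈ Q0, ∃ x ∈ Q, j x = q := fun q hq => by
    obtain ⟨x, hx⟩ := (hjmem q).2 (hQ0φ q hq)
    exact ⟨x, by rw [hQ, Subgroup.mem_comap, hx]; exact hq, hx⟩
  have hcen : ∀ w : ↥C, (∀ q ∈ Q, Commute w q) → w = 1 ∨ w = zc := by
    intro w hw
    rcases hcent (j w) (fun q hq => by
      obtain ⟨x, hx, rfl⟩ := hQj q hq
      exact (hw x hx).map j) with e | e
    · exact Or.inl (Subtype.ext (by rw [← hj, e]; rfl))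
    · exact Or.inr (Subtype.ext (by rw [← hj, e, hzcv]))
  have hzcomm : ∀ g : ↥C, Commute zc g := fun g => Subtype.ext (by
    show (zc : G) * g = g * zc
    rw [hzcv]
    exact ((Subgroup.mem_centralizer_singleton_iff.1 (hCmem.1 g.2).2 : (g : G) * z = z * g)).symm)
  have hzc1 : zc ≠ 1 := fun e => hz1 (by rw [← hzcv, e]; rfl)
  have hext : Cfsg.IsExtraspecial 2 ↥Q := by
    refine CfsgLib.LargeExtraspecial.isExtraspecial_two_of hQp hzc1 (fun x => ?_) (fun x hx => ?_) ?_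
    · rw [CfsgLib.LargeExtraspecial.mem_zOf]
      constructor
      · exact fun hh => hcen x fun q hq => (hh.2 q hq).symm
      · rintro (rfl | rfl)
        · exact ⟨one_mem _, fun q _ => Commute.one_right q⟩
        · exact ⟨hzcQ, fun q _ => (hzcomm q).symm⟩
    · rw [CfsgLib.LargeExtraspecial.mem_zOf]
      rw [hQ, Subgroup.mem_comap] at hx
      rcases hsq _ hx with e | e
      · have e' : x * x = 1 := Subtype.ext (by rw [← hj, map_mul, e]; rfl)
        rw [e']
        exact ⟨one_mem _, fun q _ => Commute.one_right q⟩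
      · have e' : x * x = zc := Subtype.ext (by rw [← hj, map_mul, e, hzcv])
        rw [e']
        exact ⟨hzcQ, fun q _ => (hzcomm q).symm⟩
    · by_contra hab
      push Not at hab
      have hle : (Q : Set ↥C) ⊆ {1, zc} := fun q hq => by
        simpa using hcen q fun q' hq' => hab q hq q' hq'
      have h2 := (Set.ncard_le_ncard hle (Set.toFinite _)).trans (Set.ncard_insert_le _ _)
      rw [← Nat.card_coe_set_eq, SetLike.coe_sort_coe, hQcard, Set.ncard_singleton] at h2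
      omega
  -- the largest normal 2-subgroup
  have hpair : ∀ x ∈ N0, ∃ s : ↥C, ∀ i, ψ s i = rfn p0 (rfn x i) := by
    intro x hx
    obtain ⟨B, y, hy, ky, hB, hBi, -, hky, eσ⟩ := Lc.elem (mem_N0.1 hx)
    obtain ⟨ka', hka', eσa⟩ := Lc.elem_base
    have hmem : φ ((mel hc haT * mel hc hy : ↥(Subgroup.centralizer ({z} : Set G))) : G) = 1 := by
      show φ (a * y) = 1
      rw [map_mul, hφd a h.ha, hφd y hy.1]
      exact sign_facts.2.1
    obtain ⟨s, hs⟩ := (hjmem _).2 hmem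
    refine ⟨s, fun i => ?_⟩
    rw [hψ, MonoidHom.comp_apply, hs, map_mul, Equiv.Perm.mul_apply, ← hka', ← hky, A.fix, A.fix,
      eσ, eσa, rp_apply, rp_apply]
  have hmove : ∀ i, ∃ g : ↥C, ψ g p0 = i := by
    intro i
    obtain ⟨B, rfl⟩ := A.F.surjective i
    obtain ⟨g, hg⟩ := trans_Om hc hz (qd haT) B
    have h0 : A.π g p0 = A.F B := by rw [← A.base, A.spec, hg]
    by_cases hgφ : φ (g : G) = 1
    · obtain ⟨g', hg'⟩ := (hjmem g).2 hgφ
      exact ⟨g', by rw [hψ, MonoidHom.comp_apply, hg', h0]⟩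
    · obtain ⟨g', hg'⟩ := (hjmem (g * ka.1)).2 (by
        rw [Subgroup.coe_mul, map_mul, hka]
        show φ (g : G) * φ a = 1
        rw [hφd a h.ha]
        exact sign_facts.2.2.2.2 _ hgφ)
      refine ⟨g', ?_⟩
      rw [hψ, MonoidHom.comp_apply, hg', map_mul, Equiv.Perm.mul_apply, A.fix, Lc.fixp, h0]
  have hcore : Cfsg.pCore 2 ↥C = Q := by
    refine le_antisymm (sSup_le ?_) (le_sSup ⟨hQn, hQp⟩)
    rintro N ⟨hN, hN2⟩
    obtain ⟨W, hW⟩ : ∃ W, W = N.map ψ := ⟨_, rfl⟩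
    have hW2 : IsPGroup 2 ↥W := hW ▸ hN2.map ψ
    have hWn : ∀ g : ↥C, ∀ w ∈ W, ψ g * w * (ψ g)⁻¹ ∈ W := by
      rw [hW]
      rintro g _ ⟨n, hn, rfl⟩
      exact ⟨g * n * g⁻¹, hN.conj_mem n hn g, by rw [map_mul, map_mul, map_inv]⟩
    have hW0 : ∀ w ∈ W, w p0 = p0 := by
      intro w hw
      obtain ⟨n, hn⟩ := hW2.card_orbit p0
      refine orbit_trivial (O := (MulAction.orbit (↥W) p0).toFinset) ?_ (n := n) ?_ ?_ ?_ _
        (Set.mem_toFinset.2 ⟨⟨w, hw⟩, rfl⟩)
      · exact Set.mem_toFinset.2 (MulAction.mem_orbit_self _)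
      · rw [← hn, Nat.card_coe_set_eq, Set.ncard_eq_toFinset_card']
      · intro x hx i hi
        obtain ⟨⟨v, hv⟩, rfl⟩ := Set.mem_toFinset.1 hi
        obtain ⟨s, hs⟩ := hpair x hx
        refine Set.mem_toFinset.2 ⟨⟨_, hWn s v hv⟩, ?_⟩
        have hs0 : (ψ s)⁻¹ p0 = p0 := by
          apply (ψ s).injective
          rw [perm_inv_cancel, hs, ← rp_apply, ← rp_apply, rp_fix (Or.inl ((show AdjP p0 x from
            mem_N0.1 hx).symm)), rp_fix (Or.inr rfl)]
        show (ψ s * v * (ψ s)⁻¹) p0 = rfn p0 (rfn x (v p0))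
        rw [Equiv.Perm.mul_apply, Equiv.Perm.mul_apply, hs0, hs]
      · intro x hx i hi
        obtain ⟨⟨v, hv⟩, hv'⟩ := Set.mem_toFinset.1 hi
        obtain ⟨s, hs⟩ := hpair x hx
        have hmem : (ψ s)⁻¹ * v * ψ s ∈ W := by
          have := hWn s⁻¹ v hv
          rwa [map_inv, inv_inv] at this
        refine Set.mem_toFinset.2 ⟨⟨_, hmem⟩, ?_⟩
        have hs0 : ψ s p0 = p0 := by
          rw [hs, ← rp_apply, ← rp_apply, rp_fix (Or.inl ((show AdjP p0 x from
            mem_N0.1 hx).symm)), rp_fix (Or.inr rfl)]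
        show ((ψ s)⁻¹ * v * ψ s) p0 = i
        rw [Equiv.Perm.mul_apply, Equiv.Perm.mul_apply, hs0]
        change v p0 = _ at hv'
        rw [hv', ← hs, perm_inv_apply]
    have hNker : N ≤ ψ.ker := by
      intro n hn
      refine MonoidHom.mem_ker.2 (Equiv.ext fun i => ?_)
      obtain ⟨g, hg⟩ := hmove i
      have hmem : (ψ g)⁻¹ * ψ n * ψ g ∈ W := by
        have := hWn g⁻¹ (ψ n) (hW ▸ Subgroup.mem_map_of_mem ψ hn)
        rwa [map_inv, inv_inv] at this
      have h0 := hW0 _ hmem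
      rw [Equiv.Perm.mul_apply, Equiv.Perm.mul_apply, hg] at h0
      rw [← perm_inv_cancel (ψ g) (ψ n i), h0, hg]
      rfl
    have hsup : IsPGroup 2 ↥(N ⊔ Q) := IsPGroup.to_sup_of_normal_right hN2 hQp
    obtain ⟨m, hm⟩ := IsPGroup.iff_card.1 hsup
    have hdvd : Nat.card ↥(N ⊔ Q) ∣ 24576 := hNcard ▸ Subgroup.card_dvd_of_le (sup_le hNker hQN)
    have h8 : Nat.card ↥(N ⊔ Q) ≤ 8192 := by
      rw [hm] at hdvd ⊢
      have hcop : Nat.Coprime (2 ^ m) 3 := Nat.Coprime.pow_left _ (by norm_num)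
      exact Nat.le_of_dvd (by norm_num) (hcop.dvd_of_dvd_mul_right (show 2 ^ m ∣ 8192 * 3 from hdvd))
    exact le_sup_left.trans (Subgroup.eq_of_le_of_card_ge le_sup_right (by rw [hQcard]; exact h8)).ge
  have hFS : Cfsg.generalizedFittingSubgroup ↥C = Q := by
    rw [CfsgLib.CharPClimb.generalizedFitting_eq_pCore (p := 2) ?_, hcore]
    rw [hcore]
    intro w hw
    rcases hcen w (fun q hq => ((Subgroup.mem_centralizer_iff.1 hw) q hq).symm) with rfl | rfl
    exacts [one_mem _, hzcQ]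
  -- the quotient
  obtain ⟨M, hM⟩ : ∃ M, M = Pg.comap ψ := ⟨_, rfl⟩
  have hMn : M.Normal := ⟨fun x hx g => by
    rw [hM, Subgroup.mem_comap] at hx ⊢
    rw [map_mul, map_mul, map_inv, hψ, MonoidHom.comp_apply, MonoidHom.comp_apply]
    rw [hψ, MonoidHom.comp_apply] at hx
    exact A.conj_Pg (j g) hx⟩
  have hNM : ψ.ker ≤ M := fun x hx => by
    rw [hM, Subgroup.mem_comap, MonoidHom.mem_ker.1 hx]
    exact one_mem _
  have hPle : Pg ≤ ψ.range := by
    rw [Pg, Subgroup.commutator_le]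
    intro u hu v hv
    obtain ⟨gu, rfl⟩ := A.Rg_le hu
    obtain ⟨gv, rfl⟩ := A.Rg_le hv
    have hmem : φ ((⁅gu, gv⁆ : ↥(Subgroup.centralizer ({z} : Set G))) : G) = 1 := by
      simp only [commutatorElement_def, Subgroup.coe_mul, Subgroup.coe_inv, map_mul, map_inv,
        mul_inv_cancel_comm, mul_inv_cancel]
    obtain ⟨x, hx⟩ := (hjmem _).2 hmem
    exact ⟨x, by rw [hψ, MonoidHom.comp_apply, hx, map_commutatorElement]⟩
  obtain ⟨χ, hχ⟩ : ∃ χ : ↥M →* ↥Pg, ∀ x, (χ x : Equiv.Perm (Fin 126)) = ψ x :=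
    ⟨(ψ.comp M.subtype).codRestrict Pg fun x => by
      have := x.2
      simp only [hM, Subgroup.mem_comap] at this
      exact this, fun _ => rfl⟩
  have hχs : Function.Surjective χ := fun p => by
    obtain ⟨x, hx⟩ := hPle p.2
    exact ⟨⟨x, by rw [hM, Subgroup.mem_comap, hx]; exact p.2⟩, Subtype.ext ((hχ _).trans hx)⟩
  have hχk : χ.ker = ψ.ker.subgroupOf M := by
    ext x
    rw [MonoidHom.mem_ker, Subgroup.mem_subgroupOf, MonoidHom.mem_ker, ← hχ, OneMemClass.coe_eq_one]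
  have hMcard : Nat.card ↥M = 24576 * 3265920 := by
    have hh := Subgroup.card_mul_index χ.ker
    rw [Subgroup.index_ker, MonoidHom.range_eq_top.2 hχs, Subgroup.card_top, card_Pg, hχk,
      Nat.card_congr (Subgroup.subgroupOfEquivOfLe hNM).toEquiv, hNcard] at hh
    exact hh.symm
  refine ⟨Q, hQn, hFS, hext, by rw [hQcard]; norm_num, ψ.ker, M, inferInstance, hMn, hQN, hNM,
    by rw [hNcard, hQcard], ?_, ?_⟩
  · letI := Fintype.ofFinite (GaloisField 3 2)
    have hK : Fintype.card (GaloisField 3 2) = 3 ^ 2 := by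
      rw [← Nat.card_eq_fintype_card, GaloisField.card 3 2 two_ne_zero]
    obtain ⟨e⟩ := Pg_iso
    obtain ⟨e'⟩ := CfsgLib.OrthSmall.pomega_six_minus_equiv (F := ZMod 3) (q := 3) (ZMod.card 3) hK
      0 1 aniso6
    refine ⟨GaloisField 3 2, inferInstance, inferInstance, hK.trans (by norm_num), ⟨?_⟩⟩
    exact ((QuotientGroup.quotientMulEquivOfEq hχk.symm).trans
      (QuotientGroup.quotientKerEquivOfSurjective χ hχs)).trans (e.trans e')
  · have hh := Subgroup.card_mul_index M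
    rw [hMcard, hCcard] at hh
    omega

end CfsgLib.Quad81
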